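import Cfsg.Agent.Lib.Chev.Root

/-! A Boolean checker for `IsRoot`, using fast lookup tables that are compared with the datum once.
The checkers are written with recursors and natural-number operations for the kernel's sake. -/

set_option autoImplicit false

namespace CA.Chev

open Cfsg.Lie Cfsg.Lie.ChevalleyDatum Matrix

/-- conjunction -/
noncomputable def bAnd (a b : Bool) : Bool := Bool.rec false b a
/-- disjunction -/
noncomputable def bOr (a b : Bool) : Bool := Bool.rec b true a
/-- conditional -/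
noncomputable def bIf {α : Type} (c : Bool) (a b : α) : α := Bool.rec b a c

@[simp] theorem bAnd_eq (a b : Bool) : bAnd a b = (a && b) := by cases a <;> rfl
@[simp] theorem bOr_eq (a b : Bool) : bOr a b = (a || b) := by cases a <;> rfl
@[simp] theorem bIf_eq {α : Type} (c : Bool) (a b : α) : bIf c a b = if c = true then a else b := by
  cases c <;> rfl

/-- bounded universal quantifier -/
noncomputable def allLt (p : ℕ → Bool) (n : ℕ) : Bool :=
  Nat.rec true (fun k ih => Bool.rec false ih (p k)) n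

theorem allLt_iff {p : ℕ → Bool} {n : ℕ} : allLt p n = true ↔ ∀ i < n, p i = true := by
  induction n with
  | zero => simp [allLt]
  | succ n ih =>
    have : allLt p (n + 1) = (p n && allLt p n) := bAnd_eq (p n) (allLt p n)
    simp only [this, Bool.and_eq_true, ih]
    constructor
    · rintro ⟨h1, h2⟩ i hi
      rcases Nat.lt_succ_iff_lt_or_eq.1 hi with h | rfl
      · exact h2 i h
      · exact h1
    · intro h
      exact ⟨h n (by omega), fun i hi => h i (by omega)⟩

/-- bounded sum -/
noncomputable def sumLt (f : ℕ → ℤ) (n : ℕ) : ℤ := Nat.rec 0 (fun k ih => Int.add ih (f k)) n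

theorem sumLt_eq (f : ℕ → ℤ) (n : ℕ) : sumLt f n = ∑ i : Fin n, f i := by
  induction n with
  | zero => rfl
  | succ n ih =>
    rw [Fin.sum_univ_castSucc]
    change sumLt f n + f n = _
    rw [ih]; rfl

/-- equality test on integers -/
noncomputable def zeq (a b : ℤ) : Bool :=
  Int.rec (fun m => Int.rec (fun n => Nat.beq m n) (fun _ => false) b)
    (fun m => Int.rec (fun _ => false) (fun n => Nat.beq m n) b) a

@[simp] theorem zeq_iff (a b : ℤ) : zeq a b = true ↔ a = b := by
  cases a <;> cases b <;> simp [zeq]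

/-- compare a list with a function -/
noncomputable def walkL {α : Type} (p : ℕ → α → Bool) (n : ℕ) (l : List α) : ℕ → Bool :=
  List.rec (fun k => Nat.beq k n) (fun a _ ih k => Bool.rec false (ih (Nat.succ k)) (p k a)) l

theorem walkL_spec {α : Type} {p : ℕ → α → Bool} {n : ℕ} {l : List α} {k : ℕ}
    (h : walkL p n l k = true) : l.length + k = n ∧ ∀ j (hj : j < l.length), p (k + j) l[j] = true := by
  induction l generalizing k with
  | nil => exact ⟨by simpa [walkL] using h, by simp⟩
  | cons a l ih =>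
    have e : walkL p n (a :: l) k = (p k a && walkL p n l (k + 1)) := bAnd_eq (p k a) _
    rw [e, Bool.and_eq_true] at h
    obtain ⟨h1, h2⟩ := ih h.2
    refine ⟨by simp; omega, fun j hj => ?_⟩
    rcases j with _ | j
    · exact h.1
    · have := h2 j (by simpa using hj)
      rwa [add_assoc, add_comm 1 j] at this

theorem walkA_spec {α : Type} {p : ℕ → α → Bool} {n : ℕ} {a : Array α}
    (h : walkL p n a.toList 0 = true) (d : α) : a.size = n ∧ ∀ j < n, p j (a.getD j d) = true := by
  obtain ⟨h1, h2⟩ := walkL_spec h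
  have h3 : a.size = n := by simpa using h1
  refine ⟨h3, fun j hj => ?_⟩
  have := h2 j (by simpa [h3] using hj)
  rw [zero_add] at this
  rw [Array.getD_eq_getD_getElem?, Array.getElem?_eq_getElem (by omega)]
  simpa using this

/-- field number `i` of width `w` of the packed table `T`; `m` is the mask -/
def getF (T w m i : ℕ) : ℕ := Nat.land (Nat.shiftRight T (Nat.mul w i)) m

/-- decode one chain field: 12 bits per term -/
noncomputable def decCh (fuel : ℕ) : ℕ → List (ℕ × ℤ) :=
  Nat.rec (fun _ => []) (fun _ ih x => Bool.rec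
    ((Nat.shiftRight (Nat.land x 4095) 3, Int.subNatNat (Nat.land x 7) 4) :: ih (Nat.shiftRight x 12))
    [] (Nat.beq x 0)) fuel

theorem decCh_zero (x : ℕ) : decCh 0 x = [] := rfl
theorem decCh_succ (f x : ℕ) : decCh (f + 1) x = if x = 0 then [] else
    (Nat.shiftRight (Nat.land x 4095) 3, Int.subNatNat (Nat.land x 7) 4) :: decCh f (Nat.shiftRight x 12) := by
  change bIf (Nat.beq x 0) _ _ = _
  split_ifs with h
  · subst h; rfl
  · rw [Bool.eq_false_iff.2 (fun h' => h (Nat.eq_of_beq_eq_true h'))]; rfl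

theorem decCh_length (f x : ℕ) : (decCh f x).length ≤ f := by
  induction f generalizing x with
  | zero => simp [decCh_zero]
  | succ f ih =>
    rw [decCh_succ]
    split_ifs
    · simp
    · simpa using ih _

/-- Fast lookup tables. -/
structure Tab where
  n : ℕ
  w : ℕ
  wm : ℕ
  rw : ℕ
  rm : ℕ
  off : ℕ
  caT : ℕ
  coT : ℕ
  rcT : ℕ
  rfT : ℕ
  sgT : ℕ
  wcT : ℕ
  chT : ℕ

namespace Tab
variable (T : Tab)
/-- Cartan integers with offset 8 -/
def caN (i r : ℕ) : ℕ := getF T.caT 4 15 (Nat.add (Nat.mul i T.n) r)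
/-- Cartan integers -/
def ca (i r : ℕ) : ℤ := Int.subNatNat (T.caN i r) 8
/-- coroot coefficients with offset 8 -/
def coN (r i : ℕ) : ℕ := getF T.coT 4 15 (Nat.add (Nat.mul i T.n) r)
/-- coroot coefficients -/
def co (r i : ℕ) : ℤ := Int.subNatNat (T.coN r i) 8
/-- root coefficients -/
def rcf (r i : ℕ) : ℤ := Int.subNatNat (getF T.rcT 4 15 (Nat.add (Nat.mul i T.n) r)) 8
/-- fundamental reflections -/
def rf (i r : ℕ) : ℕ := getF T.rfT 8 255 (Nat.add (Nat.mul i T.n) r)
/-- sign bits -/
def sgN (i r : ℕ) : ℕ := getF T.sgT 1 1 (Nat.add (Nat.mul i T.n) r)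
/-- signs -/
def sg (i r : ℕ) : ℤ := (-1) ^ T.sgN i r
/-- packed weights -/
def wc (r : ℕ) : ℕ := getF T.wcT 64 18446744073709551615 r
/-- a row of the chain table -/
def row (r : ℕ) : ℕ := getF T.chT T.rw T.rm r
/-- chain codes -/
def fld (r s : ℕ) : ℕ := getF (T.row r) T.w T.wm s
/-- chains -/
noncomputable def ch (r s : ℕ) : List (ℕ × ℤ) := decCh 3 (T.fld r s)

theorem ca_eq (i r : ℕ) : T.ca i r = (T.caN i r : ℤ) - 8 := Int.subNatNat_eq_coe
theorem co_eq (r i : ℕ) : T.co r i = (T.coN r i : ℤ) - 8 := Int.subNatNat_eq_coe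
end Tab

/-! ### the chain table -/

/-- compare a chain with a decoded field -/
noncomputable def eqCh (l m : List (ℕ × ℤ)) : Bool :=
  List.rec (fun m => List.rec true (fun _ _ _ => false) m)
    (fun a _ ih m => List.rec false
      (fun b m' _ => bAnd (Nat.beq a.1 b.1) (bAnd (zeq a.2 b.2) (ih m'))) m) l m

theorem eqCh_spec {l m : List (ℕ × ℤ)} (h : eqCh l m = true) : l = m := by
  induction l generalizing m with
  | nil => cases m <;> simp_all [eqCh]
  | cons a l ih =>
    rcases m with _ | ⟨b, m⟩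
    · simp [eqCh] at h
    · have : eqCh (a :: l) (b :: m) = bAnd (Nat.beq a.1 b.1) (bAnd (zeq a.2 b.2) (eqCh l m)) := rfl
      rw [this] at h
      simp only [bAnd_eq, Bool.and_eq_true, Nat.beq_eq, zeq_iff] at h
      rw [ih h.2.2, Prod.ext h.1 h.2.1]

/-- compare a row of the chain table with a table of codes, walking along the row -/
noncomputable def walk (g : ℕ → ℕ) (n : ℕ) : ℕ → List (ℕ × Array (ℕ × ℤ)) → Bool :=
  Nat.rec (fun _ l => List.rec true (fun _ _ _ => false) l)
    (fun _ ih s l => Bool.rec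
      (List.rec false (fun e l' _ => bAnd (Nat.beq e.1 s)
        (bAnd (eqCh e.2.toList (decCh 3 (g s))) (ih (Nat.succ s) l'))) l)
      (ih (Nat.succ s) l) (Nat.beq (g s) 0)) n

theorem walk_spec {g : ℕ → ℕ} {n s : ℕ} {l : List (ℕ × Array (ℕ × ℤ))}
    (h : walk g n s l = true) : (∀ e ∈ l, s ≤ e.1 ∧ e.1 < s + n) ∧ ∀ a, s ≤ a → a < s + n →
      (l.filter (fun e => e.1 = a) = [] ∧ g a = 0) ∨
        ∃ e, l.filter (fun e => e.1 = a) = [e] ∧ e.2.toList = decCh 3 (g a) ∧ g a ≠ 0 := by
  induction n generalizing s l with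
  | zero =>
    rcases l with _ | ⟨e, l⟩
    · exact ⟨by simp, fun a h1 h2 => by omega⟩
    · simp [walk] at h
  | succ n ih =>
    by_cases hg : g s = 0
    · have e : walk g (n + 1) s l = walk g n (s + 1) l := by
        change bIf (Nat.beq (g s) 0) _ _ = _
        rw [hg]; rfl
      rw [e] at h
      obtain ⟨h3, h4⟩ := ih h
      refine ⟨fun x hx => by have := h3 x hx; omega, fun a h1 h2 => ?_⟩
      rcases Nat.eq_or_lt_of_le h1 with rfl | h5
      · refine Or.inl ⟨List.filter_eq_nil_iff.2 fun x hx => ?_, hg⟩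
        have := h3 x hx
        simp; omega
      · exact h4 a h5 (by omega)
    · have hb : Nat.beq (g s) 0 = false := Bool.eq_false_iff.2 (fun h' => hg (Nat.eq_of_beq_eq_true h'))
      rcases l with _ | ⟨e, l⟩
      · exfalso
        revert h
        change bIf (Nat.beq (g s) 0) _ _ = true → _
        rw [hb]; simp
      · have e' : walk g (n + 1) s (e :: l) = bAnd (Nat.beq e.1 s)
            (bAnd (eqCh e.2.toList (decCh 3 (g s))) (walk g n (s + 1) l)) := by
          change bIf (Nat.beq (g s) 0) _ _ = _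
          rw [hb]; rfl
        rw [e'] at h
        simp only [bAnd_eq, Bool.and_eq_true, Nat.beq_eq] at h
        obtain ⟨h0, h1, h2⟩ := h
        obtain ⟨h3, h4⟩ := ih h2
        refine ⟨fun x hx => ?_, fun a h5 h6 => ?_⟩
        · rcases List.mem_cons.1 hx with rfl | hx
          · omega
          · have := h3 x hx; omega
        · rcases Nat.eq_or_lt_of_le h5 with rfl | h5
          · refine Or.inr ⟨e, ?_, eqCh_spec h1, hg⟩
            rw [List.filter_cons_of_pos (by simpa using h0), List.filter_eq_nil_iff.2]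
            intro x hx
            have := h3 x hx
            simp; omega
          · rw [List.filter_cons_of_neg (by simp; omega)]
            exact h4 a h5 (by omega)

variable (D : ChevalleyDatum) (T : Tab)

noncomputable def chkCh : Bool :=
  walkL (fun r (a : Array (ℕ × Array (ℕ × ℤ))) => walk (T.fld r) D.nroots 0 a.toList) D.nroots D.chain.toList 0

noncomputable def chkAgree : Bool :=
  bAnd (walkL (fun i (a : Array ℤ) => walkL (fun r z => zeq z (T.ca i r)) D.nroots a.toList 0)
    D.rank D.cartanSR.toList 0)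
  (bAnd (walkL (fun r (a : Array ℤ) => walkL (fun i z => zeq z (T.co r i)) D.rank a.toList 0)
    D.nroots D.coroot.toList 0)
  (walkL (fun r m => Nat.beq (Nat.succ (Nat.add m r)) D.nroots) D.nroots D.negIdx.toList 0))

/-- `reflectRoot` computed from the fast tables -/
noncomputable def reflF (p i s : ℕ) : ℕ :=
  if s = p then D.nroots - 1 - p
  else if s = D.nroots - 1 - p then p
  else if 8 < T.caN i s then (((T.ch (D.nroots - 1 - p) s)[T.caN i s - 8 - 1]?).map Prod.fst).getD s
  else if T.caN i s < 8 then (((T.ch p s)[8 - T.caN i s - 1]?).map Prod.fst).getD s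
  else s

noncomputable def chkRf : Bool := allLt (fun i => bAnd (Nat.ble (Nat.succ (D.simple i)) D.nroots)
  (allLt (fun s => Nat.beq (reflF D T (D.simple i) i s) (T.rf i s)) D.nroots)) D.rank

/-- The fast tables agree with the datum. -/
structure Agree : Prop where
  ca : ∀ i < D.rank, ∀ r < D.nroots, D.cartan i r = T.ca i r
  co : ∀ i < D.rank, ∀ r < D.nroots, corN D r i = T.co r i
  co_size : ∀ r < D.nroots, (D.coroot.getD r #[]).size = D.rank
  neg : ∀ r < D.nroots, D.neg r + r + 1 = D.nroots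
  chain_size : D.chain.size = D.nroots
  entry : ∀ r < D.nroots, ∀ s < D.nroots, D.chainEntry r s = T.ch r s
  coeff : ∀ r < D.nroots, ∀ s < D.nroots, ∀ u, D.chainCoeff r s u =
    (((T.ch r s).zipIdx).filter (fun q => q.1.1 = u)).map fun q => (q.2 + 1, q.1.2)
  mem : ∀ r < D.nroots, ∀ e ∈ (D.chain.getD r #[]).toList,
    e.1 < D.nroots ∧ e.2.toList = T.ch r e.1 ∧ T.fld r e.1 ≠ 0
  simple : ∀ i < D.rank, D.simple i < D.nroots
  rf : ∀ i < D.rank, ∀ r < D.nroots, D.reflectRoot i r = T.rf i r

variable {D T}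

theorem agree_of_chk (h1 : chkAgree D T = true) (h2 : chkCh D T = true) (h3 : chkRf D T = true) :
    Agree D T := by
  simp only [chkAgree, bAnd_eq, Bool.and_eq_true] at h1
  obtain ⟨a1, a2, a3⟩ := h1
  have b1 := (walkA_spec a1 #[]).2
  have b2 := (walkA_spec a2 #[]).2
  have b3 := (walkA_spec a3 0).2
  obtain ⟨b4, b5⟩ := walkA_spec h2 #[]
  simp only [chkRf, allLt_iff, bAnd_eq, Bool.and_eq_true, Nat.beq_eq, Nat.ble_eq] at h3
  have key := fun r hr s (hs : s < D.nroots) => (walk_spec (b5 r hr)).2 s (Nat.zero_le _) (by omega)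
  have hca : ∀ i < D.rank, ∀ r < D.nroots, D.cartan i r = T.ca i r := fun i hi r hr =>
    (zeq_iff _ _).1 ((walkA_spec (b1 i hi) 0).2 r hr)
  have hneg : ∀ r < D.nroots, D.neg r + r + 1 = D.nroots := fun r hr =>
    Nat.eq_of_beq_eq_true (b3 r hr)
  have hentry : ∀ r < D.nroots, ∀ s < D.nroots, D.chainEntry r s = T.ch r s := fun r hr s hs => by
    unfold ChevalleyDatum.chainEntry Tab.ch
    rw [← List.head?_filter]
    rcases key r hr s hs with ⟨h1, h2⟩ | ⟨e, h1, h2, -⟩
    · rw [h1, h2]; rfl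
    · rw [h1, ← h2]; rfl
  refine ⟨hca, fun i hi r hr => (zeq_iff _ _).1 ((walkA_spec (b2 r hr) 0).2 i hi),
    fun r hr => (walkA_spec (b2 r hr) 0).1, hneg, b4, hentry, fun r hr s hs u => ?_,
    fun r hr e he => ?_, fun i hi => (h3 i hi).1, fun i hi s hs => ?_⟩
  · unfold ChevalleyDatum.chainCoeff Tab.ch
    rcases key r hr s hs with ⟨h1, h2⟩ | ⟨e, h1, h2, -⟩
    · rw [h1, h2]; rfl
    · rw [h1, ← h2]; simp
  · have h0 : e.1 < D.nroots := by simpa using ((walk_spec (b5 r hr)).1 e he).2
    have hm : e ∈ (D.chain.getD r #[]).toList.filter (fun x => x.1 = e.1) := by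
      rw [List.mem_filter]; exact ⟨he, by simp⟩
    rcases key r hr e.1 h0 with ⟨h1, h2⟩ | ⟨e', h1, h2, h4⟩
    · rw [h1] at hm; simp at hm
    · rw [h1, List.mem_singleton] at hm
      subst hm
      exact ⟨h0, h2, h4⟩
  · rw [← (h3 i hi).2 s hs]
    have hp : D.simple i < D.nroots := (h3 i hi).1
    have hn : D.neg (D.simple i) = D.nroots - 1 - D.simple i := by have := hneg _ hp; omega
    unfold ChevalleyDatum.reflectRoot reflF ChevalleyDatum.chainRoot
    simp only [hn, hca i hi s hs, Tab.ca_eq]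
    rw [hentry _ (by omega) s hs, hentry _ hp s hs]
    have e1 : (0 < (T.caN i s : ℤ) - 8) ↔ 8 < T.caN i s := by omega
    have e2 : ((T.caN i s : ℤ) - 8 < 0) ↔ T.caN i s < 8 := by omega
    have e3 : ((T.caN i s : ℤ) - 8).toNat = T.caN i s - 8 := by omega
    have e4 : (-((T.caN i s : ℤ) - 8)).toNat = 8 - T.caN i s := by omega
    simp only [e1, e2, e3, e4]

/-! ### packed weights -/

theorem digits_zero (l : ℕ) (v : ℕ → ℤ) (hv : ∀ j < l, |v j| < 64)
    (h : ∑ j ∈ Finset.range l, v j * 64 ^ j = 0) : ∀ j < l, v j = 0 := by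
  induction l generalizing v with
  | zero => intro j hj; omega
  | succ l ih =>
    rw [Finset.sum_range_succ'] at h
    have e : ∑ j ∈ Finset.range l, v (j + 1) * 64 ^ (j + 1) =
        64 * ∑ j ∈ Finset.range l, v (j + 1) * 64 ^ j := by
      rw [Finset.mul_sum]
      exact Finset.sum_congr rfl fun j _ => by ring
    rw [e] at h
    have h0 := abs_lt.1 (hv 0 (by omega))
    have h1 : v 0 = 0 := by omega
    have h2 := ih (fun j => v (j + 1)) (fun j hj => hv (j + 1) (by omega)) (by omega)
    intro j hj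
    rcases j with _ | j
    · exact h1
    · exact h2 j (by omega)

/-- check the weights along a chain code -/
noncomputable def chainOK (T : Tab) (n r s : ℕ) (fuel : ℕ) : ℕ → ℕ → Bool :=
  Nat.rec (fun _ _ => true) (fun _ ih x j => Bool.rec
    (bAnd (Nat.ble (Nat.succ (Nat.shiftRight (Nat.land x 4095) 3)) n)
      (bAnd (Nat.beq (Nat.add (T.wc (Nat.shiftRight (Nat.land x 4095) 3)) (Nat.mul j T.off))
          (Nat.add (Nat.mul j (T.wc r)) (T.wc s)))
        (ih (Nat.shiftRight x 12) (Nat.succ j))))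
    true (Nat.beq x 0)) fuel

theorem chainOK_spec {n r s f x j : ℕ} (h : chainOK T n r s f x (j + 1) = true) :
    ∀ q ∈ (decCh f x).zipIdx j, q.1.1 < n ∧ T.wc q.1.1 + (q.2 + 1) * T.off = (q.2 + 1) * T.wc r + T.wc s := by
  induction f generalizing x j with
  | zero => simp [decCh_zero]
  | succ f ih =>
    rw [decCh_succ]
    split_ifs with hx
    · simp
    · have hb : Nat.beq x 0 = false := Bool.eq_false_iff.2 (fun h' => hx (Nat.eq_of_beq_eq_true h'))
      have e : chainOK T n r s (f + 1) x (j + 1) =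
          (bAnd (Nat.ble (Nat.succ (Nat.shiftRight (Nat.land x 4095) 3)) n)
            (bAnd (Nat.beq (Nat.add (T.wc (Nat.shiftRight (Nat.land x 4095) 3)) (Nat.mul (j + 1) T.off))
              (Nat.add (Nat.mul (j + 1) (T.wc r)) (T.wc s)))
            (chainOK T n r s f (Nat.shiftRight x 12) (j + 1 + 1)))) := by
        change bIf (Nat.beq x 0) _ _ = _
        rw [hb]; rfl
      rw [e] at h
      simp only [bAnd_eq, Bool.and_eq_true, Nat.beq_eq, Nat.ble_eq] at h
      intro q hq
      rw [List.zipIdx_cons, List.mem_cons] at hq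
      rcases hq with rfl | hq
      · exact ⟨h.1, h.2.1⟩
      · exact ih h.2.2 q hq

variable (D T)

noncomputable def chk1 (par dep : List ℕ) : Bool := bAnd (allLt (fun r =>
    bAnd (allLt (fun i => bAnd (Nat.beq (Nat.add (T.caN i (D.nroots - 1 - r)) (T.caN i r)) 16)
      (bAnd (Nat.beq (Nat.add (T.coN (D.nroots - 1 - r) i) (T.coN r i)) 16)
        (bAnd (Nat.ble 5 (T.caN i r)) (Nat.ble (T.caN i r) 11)))) D.rank)
    (bAnd (zeq (sumLt (fun k => Int.mul (T.co r k) (T.ca k r)) D.rank) 2)
    (bAnd (zeq (sumLt (fun k => Int.mul (T.ca k r) (64 ^ k)) D.rank + T.off) (T.wc r))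
    (allLt (fun i => Nat.ble 8 (T.coN r i)) D.rank == decide (D.nroots ≤ 2 * r))))) D.nroots)
  (allLt (fun i =>
    allLt (fun j => T.co (D.simple i) j == (if j = i then 1 else 0) &&
      (i == j || decide ((D.cartan i (D.simple j), D.cartan j (D.simple i)) ∈
        [((0 : ℤ), (0 : ℤ)), (-1, -1), (-1, -2), (-2, -1), (-1, -3), (-3, -1)]))) D.rank &&
    (i == 0 || (decide (par.getD i 0 < D.rank) && decide (dep.getD (par.getD i 0) 0 < dep.getD i 0) &&
      D.cartan i (D.simple (par.getD i 0)) != 0 && D.cartan (par.getD i 0) (D.simple i) != 0))) D.rank &&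
  D.nroots % 2 == 0 && decide (2 ≤ D.rank))

noncomputable def chk2 : Bool := allLt (fun i => allLt (fun s =>
  bAnd (Nat.ble (Nat.succ (T.rf i s)) D.nroots)
  (bAnd (Nat.beq (Nat.add (Nat.add (T.wc (T.rf i s)) (Nat.mul (T.caN i s) (T.wc (D.simple i)))) (Nat.mul 8 T.off))
    (Nat.add (Nat.add (T.wc s) (Nat.mul 8 (T.wc (D.simple i)))) (Nat.mul (T.caN i s) T.off)))
  (bAnd (allLt (fun j => bOr (Nat.beq j i) (Nat.beq (T.coN (T.rf i s) j) (T.coN s j))) D.rank)
  (bAnd (zeq (T.co (T.rf i s) i)
    (Int.sub (T.co s i) (sumLt (fun k => Int.mul (T.co s k) (T.ca k (D.simple i))) D.rank)))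
  (bOr (Nat.ble (Nat.succ (Nat.mul 2 s)) D.nroots)
    (bOr (Nat.beq s (D.simple i)) (Nat.ble D.nroots (Nat.mul 2 (T.rf i s))))))))) D.nroots) D.rank

noncomputable def chk3 (φ : List ℤ) (ln : ℕ) (d : ℤ) (B : List (List ℤ)) : Bool :=
  allLt (fun r => decide (sumLt (fun k => φ.getD k 0 * T.ca k r) D.rank <
    sumLt (fun k => φ.getD k 0 * T.ca k (r + 1)) D.rank)) (D.nroots - 1) &&
  allLt (fun r => decide (0 < getF ln 2 3 r) &&
    zeq ((T.wc r : ℤ) - T.off) (sumLt (fun i => T.rcf r i * ((T.wc (D.simple i) : ℤ) - T.off)) D.rank) &&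
    allLt (fun j => decide (|sumLt (fun i => T.rcf r i * T.ca j (D.simple i)) D.rank| < 60) &&
      zeq (T.rcf r j * getF ln 2 3 (D.simple j)) (T.co r j * getF ln 2 3 r)) D.rank) D.nroots &&
  allLt (fun i => allLt (fun j =>
    zeq ((getF ln 2 3 (D.simple i) : ℤ) * T.ca i (D.simple j)) (getF ln 2 3 (D.simple j) * T.ca j (D.simple i)) &&
    zeq (sumLt (fun k => (B.getD i []).getD k 0 * T.ca k (D.simple j)) D.rank) (if i = j then d else 0))
    D.rank) D.rank && decide (0 < d)

noncomputable def chk4 : Bool :=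
  allLt (fun r => allLt (fun s => bOr (Nat.beq (T.fld r s) 0)
    (bAnd (Bool.not (Nat.beq s r)) (bAnd (Bool.not (Nat.beq (Nat.succ (Nat.add s r)) D.nroots))
      (chainOK T D.nroots r s 3 (T.fld r s) 1)))) D.nroots) D.nroots

variable {D T}

theorem wc_eq (hA : Agree D T) {par dep : List ℕ} (h1 : chk1 D T par dep = true) {r : ℕ}
    (hr : r < D.nroots) : (T.wc r : ℤ) = ∑ k ∈ Finset.range D.rank, D.cartan k r * 64 ^ k + T.off ∧
      ∀ k < D.rank, |D.cartan k r| ≤ 3 := by
  simp only [chk1, allLt_iff, bAnd_eq, Bool.and_eq_true, Nat.beq_eq, Nat.ble_eq, zeq_iff, sumLt_eq] at h1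
  obtain ⟨a1, a2, a3, -⟩ := h1.1 r hr
  constructor
  · rw [← a3, Finset.sum_range]
    congr 1
    exact Finset.sum_congr rfl fun k _ => by rw [hA.ca k k.2 r hr]; rfl
  · intro k hk
    have := a1 k hk
    rw [hA.ca k hk r hr, Tab.ca_eq, abs_le]
    omega

theorem isRoot_of_chk (hA : Agree D T) {par dep : List ℕ} {φ : List ℤ} {ln : ℕ} {d : ℤ}
    {B : List (List ℤ)} (h1 : chk1 D T par dep = true) (h2 : chk2 D T = true)
    (h3 : chk3 D T φ ln d B = true) (h4 : chk4 D T = true) : IsRoot D := by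
  have hwc := fun r hr => wc_eq hA h1 (r := r) hr
  simp only [chk1, allLt_iff, bAnd_eq, Bool.and_eq_true, beq_iff_eq, decide_eq_true_eq, Bool.or_eq_true,
    bne_iff_ne, sumLt_eq, Nat.beq_eq, Nat.ble_eq, zeq_iff] at h1
  simp only [chk2, allLt_iff, bAnd_eq, bOr_eq, Bool.and_eq_true, Bool.or_eq_true,
    sumLt_eq, Nat.beq_eq, Nat.ble_eq, zeq_iff, Nat.add_eq, Nat.mul_eq, Nat.succ_eq_add_one] at h2
  simp only [chk3, allLt_iff, Bool.and_eq_true, decide_eq_true_eq, sumLt_eq, zeq_iff] at h3
  simp only [chk4, allLt_iff, bAnd_eq, bOr_eq, Bool.and_eq_true, Bool.or_eq_true, Nat.beq_eq,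
    Bool.not_eq_true', Nat.add_eq, Nat.succ_eq_add_one, ← Bool.not_eq_true] at h4
  obtain ⟨a1, ⟨a2, a3⟩, a4⟩ := h1
  obtain ⟨⟨⟨c1, c2⟩, c3⟩, c4⟩ := h3
  have hneg : ∀ r < D.nroots, D.neg r = D.nroots - 1 - r := fun r hr => by have := hA.neg r hr; omega
  have hs := hA.simple
  have hrf : ∀ i < D.rank, ∀ s < D.nroots, D.reflectRoot i s < D.nroots := fun i hi s hs => by
    rw [hA.rf i hi s hs]; exact (h2 i hi s hs).1
  have hpos : ∀ r < D.nroots, (D.IsPosRoot r ↔ D.nroots ≤ 2 * r) := fun r hr => by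
    have h5 := (a1 r hr).2.2.2
    rw [Bool.eq_iff_iff, allLt_iff, decide_eq_true_eq] at h5
    rw [← h5]
    have hsz := hA.co_size r hr
    unfold ChevalleyDatum.IsPosRoot
    constructor
    · rintro ⟨-, h⟩ i hi
      have h6 := hA.co i hi r hr
      have : 0 ≤ corN D r i := by
        apply h
        unfold corN
        generalize D.coroot.getD r #[] = a at hsz
        rw [Array.getD_eq_getD_getElem?, Array.getElem?_eq_getElem (by omega)]
        simp
      rw [h6, Tab.co_eq] at this
      rw [Nat.ble_eq]; omega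
    · intro h
      refine ⟨hr, fun c hc => ?_⟩
      rw [Array.mem_toList_iff] at hc
      obtain ⟨i, hi, rfl⟩ := Array.getElem_of_mem hc
      have h6 := hA.co i (by omega) r hr
      have h7 := h i (by omega)
      unfold corN at h6
      rw [Array.getD_eq_getD_getElem?, Array.getElem?_eq_getElem hi, Tab.co_eq] at h6
      rw [Nat.ble_eq] at h7
      simp only [Option.getD_some] at h6
      omega
  refine
    { neg_eq := fun r => hA.neg r r.2
      simple_lt := fun i => hs i i.2
      reflect_lt := fun i s => hrf i i.2 s s.2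
      coroot_size := fun r => hA.co_size r r.2
      wt_neg := fun r i => ?_
      cor_neg := fun r i => ?_
      cor_simple := fun i j => ?_
      wt_reflect := fun i s j => ?_
      cor_reflect := fun i s j => ?_
      pr_self := fun r => ?_
      pos_reflect := fun i s h hne => ?_
      pos_iff := fun r => hpos r r.2
      even_nroots := a3
      rank_two_le := a4
      exists_ord := ⟨fun k => φ.getD k 0, ?_⟩
      exists_len := ⟨fun r => getF ln 2 3 r, T.rcf, fun r => (c2 r r.2).1.1, fun r j => ?_, fun r i => ?_,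
        fun i j => ?_⟩
      exists_inv := ⟨d, fun i k => (B.getD i []).getD k 0, c4, fun i j => ?_⟩
      connected := fun J hJ hJ' => ?_
      cartan_pairs := fun i j hij => ?_
      chain_size := hA.chain_size
      chain_spec := fun r e he => ?_ }
  · have := r.2
    rw [hneg r r.2, hA.ca i i.2 _ (by omega), hA.ca i i.2 r r.2, Tab.ca_eq, Tab.ca_eq]
    have := ((a1 r r.2).1 i i.2).1
    simp only [Nat.add_eq] at this
    omega
  · have := r.2
    rw [hneg r r.2, hA.co i i.2 _ (by omega), hA.co i i.2 r r.2, Tab.co_eq, Tab.co_eq]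
    have := ((a1 r r.2).1 i i.2).2.1
    simp only [Nat.add_eq] at this
    omega
  · rw [hA.co j j.2 _ (hs i i.2), ((a2 i i.2).1 j j.2).1]; simp [Fin.ext_iff]
  · have e1 := hwc _ (hrf i i.2 s s.2)
    have e2 := hwc s s.2
    have e3 := hwc _ (hs i i.2)
    have e4 := congrArg (Nat.cast (R := ℤ)) (h2 i i.2 s s.2).2.1
    have e5 := hA.ca i i.2 s s.2
    rw [Tab.ca_eq] at e5
    push_cast at e4
    rw [← hA.rf i i.2 s s.2, e1.1, e2.1, e3.1] at e4
    have := digits_zero D.rank (fun k => D.cartan k (D.reflectRoot i s) - D.cartan k s +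
      D.cartan i s * D.cartan k (D.simple i)) (fun k hk => by
        have f1 := abs_le.1 (e1.2 k hk)
        have f2 := abs_le.1 (e2.2 k hk)
        have f3 := abs_le.1 (e3.2 k hk)
        have f4 := abs_le.1 (e2.2 i i.2)
        rw [abs_lt]
        constructor <;> nlinarith) (by
        simp only [add_mul, sub_mul, Finset.sum_add_distrib, Finset.sum_sub_distrib, mul_assoc,
          ← Finset.mul_sum]
        rw [e5]
        linear_combination e4) j j.2
    linarith
  · rw [hA.co j j.2 _ (hrf i i.2 s s.2), hA.co j j.2 s s.2, hA.rf i i.2 s s.2]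
    split_ifs with hji
    · subst hji
      rw [(h2 j j.2 s s.2).2.2.2.1]
      change (_ : ℤ) - _ = _
      congr 1
      exact Finset.sum_congr rfl fun k _ => by rw [hA.co k k.2 s s.2, hA.ca k k.2 _ (hs j j.2)]; rfl
    · rw [Tab.co_eq, Tab.co_eq, ((h2 i i.2 s s.2).2.2.1 j j.2).resolve_left fun h => hji (Fin.ext h),
        sub_zero]
  · rw [← (a1 r r.2).2.1]
    exact Finset.sum_congr rfl fun k _ => by rw [hA.co k k.2 r r.2, hA.ca k k.2 r r.2]; rfl
  · rw [hpos _ (hrf i i.2 s s.2), hA.rf i i.2 s s.2]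
    rw [hpos s s.2] at h
    have := (h2 i i.2 s s.2).2.2.2.2
    omega
  · have key : ∀ r : Rt D, (fun k : Nd D => φ.getD k 0) ⬝ᵥ wt r = ∑ k : Nd D, φ.getD k 0 * T.ca k r :=
      fun r => Finset.sum_congr rfl fun k _ => by rw [← hA.ca k k.2 r r.2]; rfl
    simp only [key]
    have : ∀ a b : ℕ, a < b → b < D.nroots →
        ∑ k : Nd D, φ.getD k 0 * T.ca k a < ∑ k : Nd D, φ.getD k 0 * T.ca k b := by
      intro a b hab hb
      induction b with
      | zero => omega
      | succ b ih =>
        have := c1 b (by omega)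
        rcases Nat.lt_succ_iff_lt_or_eq.1 hab with h | rfl
        · exact (ih h (by omega)).trans this
        · exact this
    exact fun a b hab => this a b hab b.2
  · have e1 := hwc r r.2
    have e2 := (c2 r r.2).1.2
    have e3 : ∀ k < D.rank, ∑ i : Nd D, T.rcf r i * T.ca k (D.simple i) =
        ∑ i : Nd D, T.rcf r i * D.cartan k (D.simple i) := fun k hk =>
      Finset.sum_congr rfl fun i _ => by rw [hA.ca k hk _ (hs i i.2)]
    have := digits_zero D.rank (fun k => D.cartan k r - ∑ i : Nd D, T.rcf r i * D.cartan k (D.simple i))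
      (fun k hk => by
        have f1 := abs_le.1 (e1.2 k hk)
        have f2 := abs_lt.1 ((c2 r r.2).2 k hk).1
        rw [e3 k hk] at f2
        rw [abs_lt]
        constructor <;> linarith) (by
        simp only [sub_mul, Finset.sum_sub_distrib, Finset.sum_mul]
        rw [Finset.sum_comm]
        rw [e1.1, add_sub_cancel_right] at e2
        rw [e2, sub_eq_zero]
        refine Finset.sum_congr rfl fun i _ => ?_
        rw [(hwc _ (hs i i.2)).1, add_sub_cancel_right, Finset.mul_sum]
        exact Finset.sum_congr rfl fun k _ => by ring) j j.2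
    linarith
  · rw [hA.co i i.2 r r.2]; exact ((c2 r r.2).2 i i.2).2
  · rw [hA.ca i i.2 _ (hs j j.2), hA.ca j j.2 _ (hs i i.2)]; exact (c3 i i.2 j j.2).1
  · have := (c3 i i.2 j j.2).2
    simp only [Fin.ext_iff]
    rw [← this]
    exact Finset.sum_congr rfl fun k _ => by rw [hA.ca k k.2 _ (hs j j.2)]
  · have h0 : 0 < D.rank := by omega
    by_cases hz : (⟨0, h0⟩ : Nd D) ∈ J
    · have hne : (Jᶜ).Nonempty := by
        rw [Finset.nonempty_iff_ne_empty, Ne, Finset.compl_eq_empty_iff]; exact hJ'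
      obtain ⟨j, hj, hmin⟩ := Finset.exists_min_image Jᶜ (fun j : Nd D => dep.getD j 0) hne
      rw [Finset.mem_compl] at hj
      rcases (a2 j j.2).2 with h | ⟨⟨⟨h1, h2⟩, -⟩, h4⟩
      · exact absurd (by rwa [show j = ⟨0, h0⟩ from Fin.ext h]) hj
      · refine ⟨⟨_, h1⟩, ?_, j, hj, h4⟩
        by_contra hc
        have := hmin _ (Finset.mem_compl.2 hc)
        simp only at this
        omega
    · obtain ⟨j, hj, hmin⟩ := Finset.exists_min_image J (fun j : Nd D => dep.getD j 0) hJ
      rcases (a2 j j.2).2 with h | ⟨⟨⟨h1, h2⟩, h3⟩, -⟩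
      · exact absurd (by rwa [show j = ⟨0, h0⟩ from Fin.ext h] at hj) hz
      · refine ⟨j, hj, ⟨_, h1⟩, fun hc => ?_, h3⟩
        have := hmin _ hc
        simp only at this
        omega
  · exact ((a2 i i.2).1 j j.2).2.resolve_left fun h => hij (Fin.ext h)
  · obtain ⟨b1, b2, b3⟩ := hA.mem r r.2 e he
    obtain ⟨b4, b5, b6⟩ := (h4 r r.2 e.1 b1).resolve_left b3
    refine ⟨b1, b4, by have := hA.neg r r.2; omega, fun q hq => ?_⟩
    rw [b2] at hq
    obtain ⟨g1, g2⟩ := chainOK_spec (j := 0) b6 q hq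
    have g3 : q.2 < 3 := by
      have := List.snd_lt_of_mem_zipIdx hq
      have := decCh_length 3 (T.fld r e.1)
      unfold Tab.ch at *
      omega
    refine ⟨g1, fun j => ?_⟩
    have e1 := hwc _ g1
    have e2 := hwc r r.2
    have e3 := hwc _ b1
    have e4 := congrArg (Nat.cast (R := ℤ)) g2
    push_cast at e4
    rw [e1.1, e2.1, e3.1] at e4
    have := digits_zero D.rank (fun k => D.cartan k q.1.1 - (((q.2 : ℤ) + 1) * D.cartan k r + D.cartan k e.1))
      (fun k hk => by
        have f1 := abs_le.1 (e1.2 k hk)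
        have f2 := abs_le.1 (e2.2 k hk)
        have f3 := abs_le.1 (e3.2 k hk)
        have f4 : (0 : ℤ) ≤ q.2 := by positivity
        have f5 : (q.2 : ℤ) < 3 := by exact_mod_cast g3
        rw [abs_lt]
        constructor <;> nlinarith) (by
        simp only [add_mul, sub_mul, Finset.sum_add_distrib, Finset.sum_sub_distrib, mul_assoc,
          ← Finset.mul_sum, one_mul]
        linear_combination e4) j j.2
    linarith

end CA.Chev
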