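import Cfsg.Agent.Lib.Chev.Mono
import Cfsg.Agent.Lib.Chev.RootCheck

/-! A verified evaluator for words in root elements with Laurent-polynomial arguments, acting on basis
vectors. -/

set_option autoImplicit false
set_option linter.unusedSectionVars false

namespace CA.Chev

open Cfsg.Lie Cfsg.Lie.ChevalleyDatum Matrix

attribute [-simp] zsmul_eq_mul

theorem int_neg_def (a : ℤ) : Int.neg a = -a := rfl

/-- a monomial `c t^a u^b` -/
structure Mon where
  a : ℤ
  b : ℤ
  c : ℤ

/-- a term `c t^a u^b e_i` -/
structure Trm where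
  i : ℕ
  a : ℤ
  b : ℤ
  c : ℤ

/-- product of polynomials -/
def pmul (p q : List Mon) : List Mon :=
  p.flatMap fun m => q.map fun m' => ⟨Int.add m.a m'.a, Int.add m.b m'.b, Int.mul m.c m'.c⟩

/-- power of a polynomial -/
def ppow (p : List Mon) : ℕ → List Mon
  | 0 => [⟨0, 0, 1⟩]
  | 1 => p
  | k + 2 => pmul p (ppow p (k + 1))

/-- the non-trivial part of a column of `x_r` -/
noncomputable def colF (T : Tab) (n l r a : ℕ) : List (ℕ × ℕ × ℤ) :=
  bIf (Nat.ble n a) (bIf (Nat.ble (Nat.add n l) a) [] [(r, 1, Int.neg (T.ca (Nat.sub a n) r))])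
    (bIf (Nat.beq a r) []
      (bIf (Nat.beq (Nat.succ (Nat.add a r)) n)
        ((r, 2, -1) :: (List.range l).map fun i => (Nat.add n i, 1, T.co r i))
        ((T.ch r a).zipIdx.map fun q => (q.1.1, Nat.succ q.2, q.1.2))))

/-- apply `x_r(p)` to a vector -/
noncomputable def appT (T : Tab) (n l r : ℕ) (p : List Mon) (v : List Trm) : List Trm :=
  bIf (Nat.ble n r) v (v.flatMap fun z => z :: (colF T n l r z.i).flatMap fun q =>
    bIf (zeq q.2.2 0) [] ((ppow p q.2.1).map fun m =>
      ⟨q.1, Int.add z.a m.a, Int.add z.b m.b, Int.mul z.c (Int.mul q.2.2 m.c)⟩))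

/-- apply a word to a vector -/
noncomputable def appW (T : Tab) (n l : ℕ) (w : List (ℕ × List Mon)) (v : List Trm) : List Trm :=
  w.foldr (fun q acc => appT T n l q.1 q.2 acc) v

/-- add a term to a list of terms, merging equal keys -/
noncomputable def insT (z : Trm) (l : List Trm) : List Trm :=
  List.rec [z] (fun y l' ih => bIf (bAnd (Nat.beq z.i y.i) (bAnd (zeq z.a y.a) (zeq z.b y.b)))
    (⟨y.i, y.a, y.b, Int.add z.c y.c⟩ :: l') (y :: ih)) l

/-- the two lists of terms have the same value -/
noncomputable def eqT (v w : List Trm) : Bool :=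
  (w.foldr (fun z acc => insT ⟨z.i, z.a, z.b, Int.neg z.c⟩ acc) (v.foldr insT [])).all fun z => zeq z.c 0

section Sem
variable {D : ChevalleyDatum} {F : Type*} [Field F]

/-- the number of a basis vector -/
def enc : D.Idx → ℕ := Sum.elim (fun j => D.nroots + j) (fun s => s)

@[simp] theorem enc_inl (j : Nd D) : enc (Sum.inl j : D.Idx) = D.nroots + j := rfl
@[simp] theorem enc_inr (s : Rt D) : enc (Sum.inr s : D.Idx) = s := rfl

theorem enc_injective : Function.Injective (enc (D := D)) := by
  rintro (i | r) (j | s) h <;> simp only [enc_inl, enc_inr] at h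
  · congr 1; exact Fin.ext (by omega)
  · have := s.2; omega
  · have := r.2; omega
  · congr 1; exact Fin.ext h

theorem enc_lt (z : D.Idx) : enc z < D.nroots + D.rank := by
  rcases z with i | r
  · have := i.2; simp
  · have := r.2; simp; omega

theorem exists_enc {a : ℕ} (h : a < D.nroots + D.rank) : ∃ z : D.Idx, enc z = a := by
  by_cases h1 : a < D.nroots
  · exact ⟨Sum.inr ⟨a, h1⟩, rfl⟩
  · exact ⟨Sum.inl ⟨a - D.nroots, by omega⟩, by simp; omega⟩

variable (D F) in
/-- the basis vector with number `a` -/
def bas (a : ℕ) : D.Idx → F := fun z => if enc z = a then 1 else 0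

theorem mulVec_bas (M : Matrix D.Idx D.Idx F) (z row : D.Idx) : (M *ᵥ bas D F (enc z)) row = M row z := by
  simp [Matrix.mulVec, dotProduct, bas, enc_injective.eq_iff]

theorem matrix_ext_bas {M N : Matrix D.Idx D.Idx F}
    (h : ∀ a < D.nroots + D.rank, M *ᵥ bas D F a = N *ᵥ bas D F a) : M = N := by
  ext row col
  rw [← mulVec_bas M, ← mulVec_bas N, h _ (enc_lt col)]

/-- value of a polynomial -/
def evP (t u : F) (p : List Mon) : F := (p.map fun m => (m.c : F) * t ^ m.a * u ^ m.b).sum

variable (D) in
/-- value of a list of terms -/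
def evT (t u : F) (v : List Trm) : D.Idx → F :=
  (v.map fun z => ((z.c : F) * t ^ z.a * u ^ z.b) • bas D F z.i).sum

variable {t u : F}

@[simp] theorem evP_nil : evP t u [] = 0 := rfl
@[simp] theorem evP_cons (m : Mon) (p : List Mon) :
    evP t u (m :: p) = (m.c : F) * t ^ m.a * u ^ m.b + evP t u p := by simp [evP]
theorem evP_append (p q : List Mon) : evP t u (p ++ q) = evP t u p + evP t u q := by simp [evP]
@[simp] theorem evT_nil : evT D t u [] = 0 := rfl
@[simp] theorem evT_cons (z : Trm) (v : List Trm) :
    evT D t u (z :: v) = ((z.c : F) * t ^ z.a * u ^ z.b) • bas D F z.i + evT D t u v := by simp [evT]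
theorem evT_append (v w : List Trm) : evT D t u (v ++ w) = evT D t u v + evT D t u w := by simp [evT]

theorem evP_pmul (ht : t ≠ 0) (hu : u ≠ 0) (p q : List Mon) : evP t u (pmul p q) = evP t u p * evP t u q := by
  unfold pmul
  induction p with
  | nil => simp
  | cons m p ih =>
    rw [List.flatMap_cons, evP_append, ih, evP_cons, add_mul]
    congr 1
    clear ih
    induction q with
    | nil => simp
    | cons m' q ih' =>
      rw [List.map_cons, evP_cons, evP_cons, ih', mul_add]
      congr 1
      simp only [Int.add_def, Int.mul_def, zpow_add₀ ht, zpow_add₀ hu]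
      push_cast; ring

theorem evP_ppow (ht : t ≠ 0) (hu : u ≠ 0) (p : List Mon) : ∀ k, evP t u (ppow p k) = evP t u p ^ k
  | 0 => by simp [ppow]
  | 1 => by simp [ppow]
  | k + 2 => by rw [ppow, evP_pmul ht hu, evP_ppow ht hu p (k + 1)]; ring

theorem evT_insT (z : Trm) (l : List Trm) : evT D t u (insT z l) = evT D t u (z :: l) := by
  induction l with
  | nil => rfl
  | cons y l ih =>
    have : insT z (y :: l) = bIf (bAnd (Nat.beq z.i y.i) (bAnd (zeq z.a y.a) (zeq z.b y.b)))
      (⟨y.i, y.a, y.b, Int.add z.c y.c⟩ :: l) (y :: insT z l) := rfl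
    rw [this, bIf_eq]
    split_ifs with h
    · simp only [bAnd_eq, Bool.and_eq_true, Nat.beq_eq, zeq_iff] at h
      simp only [evT_cons, h.1, h.2.1, h.2.2, Int.add_def]
      push_cast
      rw [add_mul, add_mul, add_smul, add_assoc]
    · rw [evT_cons, ih, evT_cons, evT_cons, evT_cons, add_left_comm]

theorem evT_eq_of_eqT {v w : List Trm} (h : eqT v w = true) : evT D t u v = evT D t u w := by
  have h1 : ∀ v : List Trm, evT D t u (v.foldr insT []) = evT D t u v := by
    intro v
    induction v with
    | nil => rfl
    | cons z v ih => rw [List.foldr_cons, evT_insT, evT_cons, evT_cons, ih]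
  have h2 : ∀ (w acc : List Trm), evT D t u (w.foldr (fun z acc => insT ⟨z.i, z.a, z.b, Int.neg z.c⟩ acc) acc) =
      evT D t u acc - evT D t u w := by
    intro w acc
    induction w with
    | nil => simp
    | cons z w ih =>
      rw [List.foldr_cons, evT_insT, evT_cons, evT_cons, ih]
      simp only [int_neg_def]
      push_cast
      rw [neg_mul, neg_mul, neg_smul]; abel
  have h3 : ∀ l : List Trm, (l.all fun z => zeq z.c 0) = true → evT D t u l = 0 := by
    intro l hl
    induction l with
    | nil => rfl
    | cons z l ih =>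
      simp only [List.all_cons, Bool.and_eq_true, zeq_iff] at hl
      rw [evT_cons, ih hl.2, hl.1]; simp
  have := h3 _ h
  rw [h2, h1] at this
  exact sub_eq_zero.1 this

variable [hD : IsRoot D] {T : Tab}

theorem chainEntry_lt {r : ℕ} (hr : r < D.nroots) {s : ℕ} {q : ℕ × ℤ} (hq : q ∈ D.chainEntry r s) :
    q.1 < D.nroots := by
  obtain ⟨i, hi, rfl⟩ := List.getElem_of_mem hq
  have : D.chainRoot r s (i + 1) = some ((D.chainEntry r s)[i]).1 := by
    simp [ChevalleyDatum.chainRoot, List.getElem?_eq_getElem hi]
  exact (chainRoot_spec hr (by omega) this).2.2.2.1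

theorem list_sum_apply {ι α : Type*} (l : List α) (f : α → ι → F) (z : ι) :
    (l.map f).sum z = (l.map fun a => f a z).sum := by
  induction l with
  | nil => rfl
  | cons a l ih => simp [ih]

theorem colF_spec (hA : Agree D T) (r : Rt D) (τ : F) (a : ℕ) : D.x F r τ *ᵥ bas D F a = bas D F a +
    ((colF T D.nroots D.rank r a).map fun q => ((q.2.2 : F) * τ ^ q.2.1) • bas D F q.1).sum := by
  by_cases ha : a < D.nroots + D.rank
  swap
  · have : bas D F a = 0 := by
      funext z
      have := enc_lt z
      simp only [bas, Pi.zero_apply, ite_eq_right_iff]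
      omega
    have h1 : D.nroots ≤ a := by omega
    have h2 : D.nroots + D.rank ≤ a := by omega
    simp [this, colF, h1, h2]
  obtain ⟨col, rfl⟩ := exists_enc ha
  funext row
  rw [mulVec_bas, Pi.add_apply, list_sum_apply]
  have hr := r.2
  rcases col with j | s
  · have h2 : ¬ D.rank ≤ j := by have := j.2; omega
    simp only [colF, enc_inl, bIf_eq, Nat.ble_eq, Nat.add_eq, Nat.sub_eq, le_add_iff_nonneg_right, zero_le,
      if_true, add_le_add_iff_left, h2, if_false, Nat.add_sub_cancel_left, ← hA.ca j j.2 r r.2]
    rcases row with i | u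
    · have : D.nroots + i ≠ r := by omega
      simp [x_inl_inl, bas, this, Fin.ext_iff]
    · have : (u : ℕ) ≠ D.nroots + j := by have := u.2; omega
      have this' : (r : ℕ) ≠ D.nroots + j := by omega
      by_cases h5 : (u : ℕ) = r <;> simp [x_inr_inl, bas, this, this', Fin.ext_iff, wt, int_neg_def, h5]
  · have hs := s.2
    have h1 : ¬ D.nroots ≤ s := by omega
    simp only [colF, enc_inr, bIf_eq, Nat.ble_eq, h1, if_false, Nat.beq_eq, Nat.add_eq, Nat.succ_eq_add_one]
    by_cases h2 : s = r
    · subst h2
      rcases row with i | u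
      · have : D.nroots + i ≠ s := by omega
        simp [x_inl_inr, bas, this, ne_neg]
      · simp only [x_inr_self, bas, enc_inr, Fin.ext_iff, if_true, List.map_nil, List.sum_nil, add_zero]
        congr
    have h2' : (s : ℕ) ≠ r := fun h => h2 (Fin.ext h)
    rw [if_neg h2']
    by_cases h3 : s = neg r
    · have h4 : (s : ℕ) + r + 1 = D.nroots := by rw [h3]; exact hD.neg_eq r
      rw [if_pos h4, List.map_cons, List.sum_cons, List.map_map]
      rcases row with i | u
      · have e1 : D.nroots + i ≠ s := by omega
        have e2 : D.nroots + i ≠ r := by omega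
        rw [x_inl_inr, if_pos h3]
        simp only [bas, enc_inl, e1, e2, if_false, Pi.smul_apply, smul_eq_mul,
          mul_zero, zero_add, Function.comp_def, add_right_inj, mul_ite, mul_one, pow_one]
        rw [← List.sum_toFinset _ List.nodup_range, List.toFinset_range]
        simp [← hA.co i i.2 r r.2, cor]
      · have e1 : ∀ k, (u : ℕ) ≠ D.nroots + k := fun k => by have := u.2; omega
        subst h3
        simp only [x_inr_neg, bas, enc_inr, Pi.smul_apply, smul_eq_mul, Function.comp_def, e1, if_false,
          mul_zero, List.map_const', List.sum_replicate, smul_zero, add_zero, Fin.ext_iff]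
        split_ifs with h5 h6 <;> simp_all
    have h4 : (s : ℕ) + r + 1 ≠ D.nroots := fun h => h3 (Fin.ext (by have := hD.neg_eq r; simp; omega))
    rw [if_neg h4, List.map_map]
    have hlt : ∀ q ∈ (T.ch r s).zipIdx, q.1.1 < D.nroots := fun q hq =>
      chainEntry_lt r.2 (by rw [hA.entry r r.2 s s.2]; exact List.fst_mem_of_mem_zipIdx hq)
    rcases row with i | u
    · have e1 : D.nroots + i ≠ s := by omega
      rw [x_inl_inr, if_neg h3, List.sum_eq_zero]
      · simp [bas, e1]
      · intro x hx
        obtain ⟨q, hq, rfl⟩ := List.mem_map.1 hx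
        have : D.nroots + i ≠ q.1.1 := by have := hlt q hq; omega
        simp [bas, this]
    · rw [x_inr_inr _ _ _ _ h2 h3, hA.coeff r r.2 s s.2]
      simp only [bas, enc_inr, Fin.ext_iff]
      congr 1
      generalize (T.ch r s).zipIdx = l
      induction l with
      | nil => simp
      | cons q l ih =>
        by_cases h5 : q.1.1 = u
        · rw [List.filter_cons_of_pos (by simpa using h5)]
          simp only [List.map_cons, List.sum_cons, ih]
          simp [h5, bas]
        · rw [List.filter_cons_of_neg (by simpa using h5)]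
          simp only [List.map_cons, List.sum_cons, ih]
          simp [Ne.symm h5, bas]

theorem appT_spec (hA : Agree D T) (ht : t ≠ 0) (hu : u ≠ 0) (r : ℕ) (p : List Mon) (v : List Trm) :
    D.x F r (evP t u p) *ᵥ evT D t u v = evT D t u (appT T D.nroots D.rank r p v) := by
  unfold appT
  rw [bIf_eq]
  split_ifs with hr
  · have : ¬ r < D.nroots := by simpa using hr
    simp [ChevalleyDatum.x, this]
  have hr' : r < D.nroots := by simpa using hr
  induction v with
  | nil => simp
  | cons z v ih =>
    rw [List.flatMap_cons, evT_append, ← ih, evT_cons, Matrix.mulVec_add, Matrix.mulVec_smul,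
      colF_spec hA ⟨r, hr'⟩, evT_cons, smul_add]
    congr 2
    generalize colF T D.nroots D.rank r z.i = l
    induction l with
    | nil => simp
    | cons q l ih' =>
      rw [List.flatMap_cons, evT_append, ← ih', List.map_cons, List.sum_cons, smul_add, bIf_eq]
      congr 1
      split_ifs with h0
      · rw [zeq_iff] at h0
        simp [h0]
      · rw [← evP_ppow ht hu]
        generalize ppow p q.2.1 = m
        induction m with
        | nil => simp
        | cons y m ih'' =>
          rw [List.map_cons, evT_cons, ← ih'', evP_cons, mul_add, add_smul, smul_add, smul_smul]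
          congr 2
          simp only [Int.add_def, Int.mul_def, zpow_add₀ ht, zpow_add₀ hu]
          push_cast; ring

theorem appW_spec (hA : Agree D T) (ht : t ≠ 0) (hu : u ≠ 0) (w : List (ℕ × List Mon)) (v : List Trm) :
    D.wordMat F (w.map fun q => (q.1, evP t u q.2)) *ᵥ evT D t u v =
      evT D t u (appW T D.nroots D.rank w v) := by
  induction w with
  | nil => simp [ChevalleyDatum.wordMat, appW]
  | cons q w ih =>
    simp only [ChevalleyDatum.wordMat, List.map_cons, List.prod_cons, appW, List.foldr_cons] at ih ⊢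
    rw [← Matrix.mulVec_mulVec, ih, appT_spec hA ht hu]

theorem evT_single (a : ℕ) : evT D t u [⟨a, 0, 0, 1⟩] = bas D F a := by simp

variable (T) in
/-- the two words act in the same way on all basis vectors -/
noncomputable def eqW (n l : ℕ) (w w' : List (ℕ × List Mon)) : Bool :=
  allLt (fun a => eqT (appW T n l w [⟨a, 0, 0, 1⟩]) (appW T n l w' [⟨a, 0, 0, 1⟩])) (Nat.add n l)

theorem eqW_spec (hA : Agree D T) (ht : t ≠ 0) (hu : u ≠ 0) {w w' : List (ℕ × List Mon)}
    (h : eqW T D.nroots D.rank w w' = true) :
    D.wordMat F (w.map fun q => (q.1, evP t u q.2)) = D.wordMat F (w'.map fun q => (q.1, evP t u q.2)) := by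
  apply matrix_ext_bas
  intro a ha
  rw [← evT_single (t := t) (u := u), appW_spec hA ht hu, appW_spec hA ht hu]
  exact evT_eq_of_eqT (allLt_iff.1 h a ha)

end Sem

end CA.Chev
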