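import Cfsg.Agent.Lib.Chev.Fam

/-! The matrix group of a datum: the facts verified on the tables (class `MatFacts`), root elements as
elements of `GL`, grading and triangularity. -/

set_option autoImplicit false
set_option linter.unusedSectionVars false

namespace CA.Chev

open Cfsg.Lie Cfsg.Lie.ChevalleyDatum Matrix

attribute [-simp] zsmul_eq_mul

variable {D : ChevalleyDatum} [hD : IsRoot D]

/-- The monomial matrix acting on the Cartan part as the reflection in `r` and sending `e_s` to
`c s • e_{w_r s}`. -/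
noncomputable def nExp (F : Type*) [Field F] (r : Rt D) (c : Rt D → F) : Matrix D.Idx D.Idx F :=
  Matrix.of fun row col =>
    match row, col with
    | Sum.inl j', Sum.inl j => (if j' = j then 1 else 0) - ((cor r j' * wt r j : ℤ) : F)
    | Sum.inr s', Sum.inr s => if s' = refl r s then c s else 0
    | _, _ => 0

/-- The relations between the matrices `x_r(t)` over the field `F`. -/
class MatFacts (D : ChevalleyDatum) [IsRoot D] (F : Type*) [Field F] : Prop where
  x_add : ∀ (r : Rt D) (t u : F), D.x F r (t + u) = D.x F r t * D.x F r u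
  comm : ∀ r s : Rt D, s ≠ r → s ≠ neg r → ∀ t u : F,
    D.x F s u * D.x F r t = D.x F r t * D.x F s u * D.wordMat F (D.commWord F r s t u)
  nMat_eq : ∀ (r : Rt D) (t : F), t ≠ 0 →
    D.nMat F r t = nExp F r fun s => eta r s * t ^ (- pr r s)
  nconj : ∀ (r s : Rt D) (t u : F), t ≠ 0 →
    D.nMat F r t * D.x F s u = D.x F (refl r s) (eta r s * t ^ (- pr r s) * u) * D.nMat F r t

variable {F : Type*} [Field F]

/-! ### entries of the root elements -/

omit hD in
theorem x_eq_xMat (r : Rt D) (t : F) : D.x F r t = D.xMat F r t := by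
  simp [ChevalleyDatum.x]

omit hD in
theorem x_inl_inl (r : Rt D) (t : F) (i j : Nd D) :
    D.x F r t (Sum.inl i) (Sum.inl j) = if i = j then 1 else 0 := by
  rw [x_eq_xMat]; rfl

omit hD in
theorem x_inr_inl (r : Rt D) (t : F) (u : Rt D) (j : Nd D) :
    D.x F r t (Sum.inr u) (Sum.inl j) = if u = r then - (wt r j : F) * t else 0 := by
  rw [x_eq_xMat]; rfl

theorem x_inl_inr (r : Rt D) (t : F) (i : Nd D) (s : Rt D) :
    D.x F r t (Sum.inl i) (Sum.inr s) = if s = neg r then (cor r i : F) * t else 0 := by
  rw [x_eq_xMat]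
  unfold ChevalleyDatum.xMat
  simp only [Matrix.of_apply]
  by_cases h1 : s = r
  · subst h1
    simp [ne_neg s]
  · by_cases h2 : s = neg r
    · subst h2
      rw [if_neg h1, if_pos (by rfl), if_pos rfl]; rfl
    · rw [if_neg h1, if_neg (show ¬ (s : ℕ) = D.negIdx.getD r 0 from fun h => h2 (Fin.ext h)), if_neg h2]

omit hD in
theorem x_inr_self (r : Rt D) (t : F) (u : Rt D) :
    D.x F r t (Sum.inr u) (Sum.inr r) = if u = r then 1 else 0 := by
  rw [x_eq_xMat]
  unfold ChevalleyDatum.xMat
  simp only [Matrix.of_apply, if_true]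

theorem x_inr_neg (r : Rt D) (t : F) (u : Rt D) :
    D.x F r t (Sum.inr u) (Sum.inr (neg r)) =
      if u = neg r then 1 else if u = r then -(t ^ 2) else 0 := by
  rw [x_eq_xMat]
  unfold ChevalleyDatum.xMat
  simp only [Matrix.of_apply]
  rw [if_neg (neg_ne r), if_pos (by rfl)]

theorem x_inr_inr (r : Rt D) (t : F) (u s : Rt D) (h1 : s ≠ r) (h2 : s ≠ neg r) :
    D.x F r t (Sum.inr u) (Sum.inr s) = (if u = s then 1 else 0) +
      ((D.chainCoeff r s u).map fun km => ((km.2 : ℤ) : F) * t ^ km.1).sum := by
  rw [x_eq_xMat]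
  unfold ChevalleyDatum.xMat
  simp only [Matrix.of_apply]
  rw [if_neg h1, if_neg (show ¬ (s : ℕ) = D.negIdx.getD r 0 from fun h => h2 (Fin.ext h))]

theorem chainCoeff_spec {r s u : Rt D} {km : ℕ × ℤ} (h : km ∈ D.chainCoeff r s u) :
    0 < km.1 ∧ wt u = wt s + (km.1 : ℤ) • wt r := by
  unfold ChevalleyDatum.chainCoeff at h
  simp only [List.mem_flatMap, List.mem_filter, List.mem_map, decide_eq_true_eq] at h
  obtain ⟨e, ⟨he, h1⟩, q, ⟨hq, h2⟩, rfl⟩ := h
  obtain ⟨-, -, -, a4⟩ := hD.chain_spec r e he
  refine ⟨by simp, funext fun j => ?_⟩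
  have := (a4 q hq).2 j
  rw [h1, h2] at this
  simp only [wt, Pi.add_apply, Pi.smul_apply, smul_eq_mul, this]
  push_cast; ring

/-- the weight of a basis vector -/
def wI : D.Idx → Lat D := Sum.elim (fun _ => 0) wt

omit hD in
@[simp] theorem wI_inl (i : Nd D) : wI (Sum.inl i : D.Idx) = 0 := rfl
omit hD in
@[simp] theorem wI_inr (r : Rt D) : wI (Sum.inr r : D.Idx) = wt r := rfl

/-- The entries of `x_r(t) - 1` are monomials `c t^k`; this gives the pair `(c, k)`. -/
def xck (r : Rt D) : D.Idx → D.Idx → ℤ × ℕ
  | Sum.inl _, Sum.inl _ => (0, 1)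
  | Sum.inl i, Sum.inr s => if s = neg r then (cor r i, 1) else (0, 1)
  | Sum.inr u, Sum.inl j => if u = r then (- wt r j, 1) else (0, 1)
  | Sum.inr u, Sum.inr s => if s = r then (0, 1) else if s = neg r then (if u = r then (-1, 2) else (0, 1))
      else (((D.chainCoeff r s u).map Prod.snd).sum, ((D.chainCoeff r s u).headD (1, 0)).1)

theorem xck_spec (r : Rt D) (row col : D.Idx) : 0 < (xck r row col).2 ∧
    ((xck r row col).1 ≠ 0 → wI row = wI col + ((xck r row col).2 : ℤ) • wt r) := by
  rcases row with i | u <;> rcases col with j | s <;> simp only [xck]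
  · simp
  · split_ifs with h <;> simp [h]
  · split_ifs with h <;> simp [h]
  · split_ifs with h1 h2 h3
    · simp
    · refine ⟨two_pos, fun _ => ?_⟩
      funext j; simp [h2, h3]; ring
    · simp
    · rcases hl : D.chainCoeff r s u with _ | ⟨km, l⟩
      · simp
      · have h3 := chainCoeff_spec (hl ▸ List.mem_cons_self : km ∈ D.chainCoeff r s u)
        exact ⟨h3.1, fun _ => h3.2⟩

theorem x_entry (r : Rt D) (t : F) (row col : D.Idx) : D.x F r t row col =
    (if row = col then 1 else 0) + ((xck r row col).1 : F) * t ^ (xck r row col).2 := by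
  rcases row with i | u <;> rcases col with j | s <;> simp only [xck]
  · simp [x_inl_inl]
  · split_ifs with h h' <;> simp_all [x_inl_inr]
  · split_ifs with h h' <;> simp_all [x_inr_inl]
  · by_cases h1 : s = r
    · simp [x_inr_self, h1]
    by_cases h2 : s = neg r
    · by_cases h3 : u = r
      · simp [x_inr_neg, h2, h3, ne_neg, neg_ne]
      · simp [x_inr_neg, h2, h3, neg_ne]
    rw [if_neg h1, if_neg h2, x_inr_inr _ _ _ _ h1 h2]
    simp only [Sum.inr.injEq]
    congr 1
    rcases hl : D.chainCoeff r s u with _ | ⟨km, l⟩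
    · simp
    · have h3 := chainCoeff_spec (hl ▸ List.mem_cons_self : km ∈ D.chainCoeff r s u)
      have h4 : ∀ q ∈ D.chainCoeff r s u, q.1 = km.1 := by
        intro q hq
        have h5 := (chainCoeff_spec hq).2
        rw [h3.2, add_right_inj] at h5
        have := smul_left_injective ℤ (wt_ne_zero r) h5
        omega
      rw [List.headD_cons, ← hl]
      clear hl h3
      generalize D.chainCoeff r s u = l at h4
      induction l with
      | nil => simp
      | cons q l ih =>
        simp only [List.map_cons, List.sum_cons, Int.cast_add, add_mul]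
        rw [ih fun q hq => h4 q (List.mem_cons_of_mem _ hq), h4 q List.mem_cons_self]

theorem xck_diag (r : Rt D) (a : D.Idx) : (xck r a a).1 = 0 := by
  by_contra hc
  obtain ⟨hk, h1⟩ := xck_spec r a a
  have := h1 hc
  rw [left_eq_add, smul_eq_zero] at this
  rcases this with h | h
  · omega
  · exact wt_ne_zero r h

theorem x_zero (r : Rt D) : D.x F r 0 = 1 := by
  ext row col
  rw [x_entry, zero_pow (xck_spec r row col).1.ne', mul_zero, add_zero, Matrix.one_apply]

theorem x_diag (r : Rt D) (t : F) (a : D.Idx) : D.x F r t a a = 1 := by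
  rw [x_entry, xck_diag]; simp

theorem x_ne_zero {r : Rt D} {t : F} {row col : D.Idx} (h : D.x F r t row col ≠ 0) :
    row = col ∨ ∃ k : ℕ, 0 < k ∧ wI row = wI col + (k : ℤ) • wt r := by
  obtain ⟨hk, h1⟩ := xck_spec r row col
  by_cases h3 : row = col
  · exact Or.inl h3
  · refine Or.inr ⟨_, hk, h1 fun hc => h ?_⟩
    rw [x_entry, hc, if_neg h3]; simp

/-- some coefficient of every coroot is non-zero in every field -/
theorem exists_cor_ne_zero (F : Type*) [Field F] (r : Rt D) : ∃ i, (cor r i : F) ≠ 0 := by
  by_contra h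
  push Not at h
  induction r using root_induction with
  | hs i => simpa [cor_simple] using h i
  | hstep i r ih =>
    apply ih
    intro j
    have h1 : (pr (sRefl i r) (simple i) : F) = 0 := by
      simp [pr, dotProduct, h]
    have := cor_sRefl i (sRefl i r)
    rw [sRefl_sRefl] at this
    rw [this]
    simp [h, h1]

theorem x_injective (r : Rt D) : Function.Injective (D.x F r) := by
  intro t u h
  obtain ⟨i, hi⟩ := exists_cor_ne_zero F r
  have := congrFun (congrFun h (Sum.inl i)) (Sum.inr (neg r))
  rw [x_inl_inr, x_inl_inr, if_pos rfl, if_pos rfl] at this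
  exact mul_left_cancel₀ hi this

theorem x_eq_one_iff (r : Rt D) (t : F) : D.x F r t = 1 ↔ t = 0 := by
  rw [← x_zero r, (x_injective r).eq_iff]

/-- conjugation of a root element by the diagonal matrix of a character of the weight lattice -/
theorem diagonal_mul_x (χ : Lat D → F) (hχ : ∀ a b, χ (a + b) = χ a * χ b) (h0 : χ 0 = 1)
    (r : Rt D) (t : F) :
    Matrix.diagonal (fun a => χ (wI a)) * D.x F r t =
      D.x F r (χ (wt r) * t) * Matrix.diagonal (fun a => χ (wI a)) := by
  ext row col
  obtain ⟨hk, h1⟩ := xck_spec r row col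
  rw [Matrix.diagonal_mul, Matrix.mul_diagonal, x_entry, x_entry]
  generalize (xck r row col).1 = c at *
  generalize (xck r row col).2 = k at *
  have hpow : ∀ n : ℕ, χ ((n : ℤ) • wt r) = χ (wt r) ^ n := by
    intro n
    induction n with
    | zero => simp [h0]
    | succ n ih => push_cast; rw [add_smul, one_smul, hχ, ih, pow_succ]
  by_cases hc : c = 0
  · split_ifs with h <;> simp [hc, h]
  · rw [h1 hc, hχ, hpow]
    have : row ≠ col := by
      rintro rfl
      have := h1 hc
      rw [left_eq_add, smul_eq_zero] at this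
      rcases this with h | h
      · omega
      · exact wt_ne_zero r h
    simp only [this, if_false, zero_add]
    ring

/-! ### root elements in the general linear group -/

variable [hM : MatFacts D F]

/-- the root element `x_r(t)` in the general linear group -/
def X (r : Rt D) (t : F) : GL D.Idx F :=
  ⟨D.x F r t, D.x F r (-t), by rw [← hM.x_add, add_neg_cancel, x_zero],
    by rw [← hM.x_add, neg_add_cancel, x_zero]⟩

@[simp] theorem X_val (r : Rt D) (t : F) : (X r t : Matrix D.Idx D.Idx F) = D.x F r t := rfl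

theorem xN_X_val (r : ℕ) (t : F) : ((xN X r t : GL D.Idx F) : Matrix D.Idx D.Idx F) = D.x F r t := by
  unfold xN
  split_ifs with h
  · rfl
  · simp [ChevalleyDatum.x, h]

theorem wordG_X_val (w : List (ℕ × F)) :
    ((wordG X w : GL D.Idx F) : Matrix D.Idx D.Idx F) = D.wordMat F w := by
  induction w with
  | nil => rfl
  | cons p w ih => simp [ih, xN_X_val, ChevalleyDatum.wordMat]

theorem nG_X_val (r : Rt D) (t : F) : ((nG X r t : GL D.Idx F) : Matrix D.Idx D.Idx F) = D.nMat F r t := by
  rw [← wordG_nWord, wordG_X_val]; rfl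

theorem hG_X_val (r : Rt D) (t : F) : ((hG X r t : GL D.Idx F) : Matrix D.Idx D.Idx F) = D.hMat F r t := by
  rw [← wordG_hWord, wordG_X_val]; rfl

theorem stRel_X : StRel (X : Rt D → F → GL D.Idx F) where
  add r t u := Units.ext (hM.x_add r t u)
  comm r s h1 h2 t u := Units.ext (by
    simp only [Units.val_mul, X_val, wordG_X_val]
    exact hM.comm r s h1 h2 t u)

theorem X_injective (r : Rt D) : Function.Injective (X r : F → GL D.Idx F) := fun _ _ h =>
  x_injective r (congrArg Units.val h)

theorem X_eq_one_iff (r : Rt D) (t : F) : X r t = 1 ↔ t = 0 := by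
  rw [← stRel_X.zero r, (X_injective r).eq_iff]

variable [hE : IsEta D]

/-- `h_r(t)` is diagonal -/
theorem hMat_eq (r : Rt D) {t : F} (ht : t ≠ 0) :
    D.hMat F r t = Matrix.diagonal fun a => t ^ (cor r ⬝ᵥ wI a) := by
  have : D.hMat F r t = D.nMat F r t * D.nMat F r (-1) := by
    rw [← hG_X_val, hG, Units.val_mul, nG_X_val, nG_X_val]
  rw [this, hM.nMat_eq r t ht, hM.nMat_eq r (-1) (by simp)]
  ext row col
  rw [Matrix.mul_apply, Fintype.sum_sum_type]
  rcases row with i | u <;> rcases col with j | s
  · simp only [nExp, Matrix.of_apply, zero_mul, Finset.sum_const_zero, add_zero, Matrix.diagonal_apply,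
      wI_inl, dotProduct_zero, zpow_zero, Sum.inl.injEq]
    simp only [sub_mul, mul_sub, Finset.sum_sub_distrib, ite_mul, mul_ite, one_mul, zero_mul, mul_one,
      mul_zero, Finset.sum_ite_eq, Finset.sum_ite_eq', Finset.mem_univ, if_true]
    have h2 : ∑ k, ((cor r k : F) * wt r k) = 2 := by
      have := congrArg (Int.cast (R := F)) (pr_self r)
      simpa [pr, dotProduct] using this
    have : ∑ k, ((cor r i * wt r k : ℤ) : F) * ((cor r k * wt r j : ℤ) : F) =
        2 * ((cor r i * wt r j : ℤ) : F) := by
      rw [← h2, Finset.sum_mul]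
      refine Finset.sum_congr rfl fun k _ => ?_
      push_cast; ring
    rw [this]
    ring
  · simp [nExp]
  · simp [nExp]
  · simp only [nExp, Matrix.of_apply, Finset.sum_const_zero, zero_add, Matrix.diagonal_apply,
      wI_inr, Sum.inr.injEq, mul_ite, mul_zero, Finset.sum_ite_eq', Finset.mem_univ, if_true, refl_refl]
    split_ifs with h
    · subst h
      rw [StFam.pr_refl_right, _root_.neg_neg]
      have h1 := StFam.eta_refl' (F := F) r u
      have h2 : (-1 : F) ^ (pr r u) * (-1) ^ (- pr r u) = 1 := by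
        rw [← zpow_add₀ (by simp), add_neg_cancel, zpow_zero]
      change _ = t ^ pr r u
      linear_combination (t ^ pr r u * (-1) ^ (- pr r u)) * h1 + (t ^ pr r u) * h2
    · simp

theorem stFam_X : StFam (X : Rt D → F → GL D.Idx F) where
  toStRel := stRel_X
  nconj r s t u ht := by
    rw [mul_inv_eq_iff_eq_mul]
    apply Units.ext
    simp only [Units.val_mul, X_val, nG_X_val]
    exact hM.nconj r s t u ht
  hmul r t u ht hu := by
    apply Units.ext
    simp only [Units.val_mul, hG_X_val]
    rw [hMat_eq r ht, hMat_eq r hu, hMat_eq r (mul_ne_zero ht hu), Matrix.diagonal_mul_diagonal]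
    simp only [mul_zpow]

end CA.Chev
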