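import Cfsg.Agent.Lib.Chev.Check
import Cfsg.Agent.Lib.Chev.TabD4

/-! Verification of the relations between the root elements for type D4 (generated). -/

set_option autoImplicit false
set_option maxRecDepth 100000

namespace CA.Chev

open Cfsg.Lie

theorem chkCompatD4_0 : chkCompat chevD4 tabD4 0 24 = true := by decide +kernel

theorem chkCompatD4 : chkCompat chevD4 tabD4 0 chevD4.nroots = true := chkCompatD4_0

theorem chkSignD4 : chkSign chevD4 tabD4 = true := by decide +kernel

theorem chkShortD4 : chkShort chevD4 tabD4 = true := by decide +kernel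

theorem chkAddD4 : chkAdd chevD4 tabD4 = true := by decide +kernel

theorem chkCommD4 : chkComm chevD4 tabD4 = true := by decide +kernel

theorem chkND4 : allLt (chkN chevD4 tabD4) chevD4.rank = true := by decide +kernel

theorem signOKD4 : SignOK chevD4 tabD4.sg := signOK_of_chk agreeD4 chkCompatD4 chkSignD4 (Or.inl chkShortD4)

theorem weakD4 (F : Type*) [Field F] : WeakFacts chevD4 F tabD4.sg :=
  weakFacts_of_chk agreeD4 chkAddD4 chkCommD4 chkND4

instance isEtaD4 : IsEta chevD4 := isEta_of_weak signOKD4 (weakD4 ℚ)

instance matFactsD4 (F : Type*) [Field F] : MatFacts chevD4 F :=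
  matFacts_of_weak signOKD4 (weakD4 ℚ) (weakD4 F)

end CA.Chev
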