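import Cfsg.Agent.Lib.Chev.Check
import Cfsg.Agent.Lib.Chev.TabF4

/-! Verification of the relations between the root elements for type F4 (generated). -/

set_option autoImplicit false
set_option maxRecDepth 100000

namespace CA.Chev

open Cfsg.Lie

theorem chkCompatF4_0 : chkCompat chevF4 tabF4 0 48 = true := by decide +kernel

theorem chkCompatF4 : chkCompat chevF4 tabF4 0 chevF4.nroots = true := chkCompatF4_0

theorem chkSignF4 : chkSign chevF4 tabF4 = true := by decide +kernel

theorem chkTermsF4 : allLt (fun i => chkTerms chevF4 tabF4 (tabF4.rf i) (tabF4.sg i)) chevF4.rank = true := by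
  decide +kernel

theorem chkAddF4 : chkAdd chevF4 tabF4 = true := by decide +kernel

theorem chkCommF4 : chkComm chevF4 tabF4 = true := by decide +kernel

theorem chkNF4 : allLt (chkN chevF4 tabF4) chevF4.rank = true := by decide +kernel

theorem signOKF4 : SignOK chevF4 tabF4.sg := signOK_of_chk agreeF4 chkCompatF4 chkSignF4 (Or.inr chkTermsF4)

theorem weakF4 (F : Type*) [Field F] : WeakFacts chevF4 F tabF4.sg :=
  weakFacts_of_chk agreeF4 chkAddF4 chkCommF4 chkNF4

instance isEtaF4 : IsEta chevF4 := isEta_of_weak signOKF4 (weakF4 ℚ)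

instance matFactsF4 (F : Type*) [Field F] : MatFacts chevF4 F :=
  matFacts_of_weak signOKF4 (weakF4 ℚ) (weakF4 F)

end CA.Chev
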