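import Cfsg.Agent.Lib.Chev.Aut
import Cfsg.Agent.Lib.Chev.InstD4

/-! Steinberg relations and graph automorphisms for type D4 (generated tables). -/

set_option autoImplicit false
set_option maxRecDepth 100000

namespace CA.Chev

open Cfsg.Lie CA.CG

theorem chkDecD4 : chkDec chevD4 tabD4 0x160e170917081707170616061704170317021701160316021501140116001500140013001101110010000f000e000901 = true := by
  decide +kernel

instance isDecD4 : IsDec chevD4 := isDec_of_chk agreeD4 chkDecD4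

/-- the map on roots -/
def rhoD4a (k : ℕ) : ℕ := getF 0x17161115100d140f130e0c12050b090408030a0702060100 8 255 k
/-- the sign bits -/
def sgnD4a (k : ℕ) : ℕ := getF 0x2a8154 1 1 k

theorem chkTwD4a : chkTw chevD4 chevD4 tabD4 tabD4 0 rhoD4a (sgnD4a) (fun _ => 1) = true := by
  decide +kernel

theorem twD4a : TwData chevD4 chevD4 0 rhoD4a (fun k => (-1) ^ (sgnD4a) k) (fun _ => 1) :=
  twData_of_chk agreeD4 agreeD4 chkTwD4a

theorem graphD4a {F : Type*} [Field F] (φ : F →+* F) (π : Equiv.Perm (Nd chevD4))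
    (hπ : ∀ i : Nd chevD4, (π i : ℕ) = [2, 1, 3, 0].getD i 0) :
    ∃ σ : chevD4.group F →* chevD4.group F,
      (∀ r t, σ (xg r t) = xg (twD4a.rt r) (((-1) ^ sgnD4a r : ℤ) * φ t)) ∧
      (∀ i t, σ (xg (simple i) t) = xg (simple (π i)) (φ t)) ∧
      ∀ i t, σ (xg (neg (simple i)) t) = xg (neg (simple (π i))) (φ t) :=
  twD4a.exists_simple (by simp) φ (fun _ => φ) (fun _ _ => (pow_one _).symm) π fun i => by
    rw [hπ]; revert i; decide +kernel

/-- the symmetry of the diagram -/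
def permD4a : Equiv.Perm (Nd chevD4) :=
  (⟨![2, 1, 3, 0], ![3, 1, 0, 2], by decide, by decide⟩ : Equiv.Perm (Fin 4))

theorem permD4a_val : ∀ i : Nd chevD4, (permD4a i : ℕ) = [2, 1, 3, 0].getD i 0 := by decide +kernel

/-- the map on roots -/
def rhoD4b (k : ℕ) : ℕ := getF 0x171614110f0c1513100e120d0a05090704020b0806030100 8 255 k
/-- the sign bits -/
def sgnD4b (k : ℕ) : ℕ := getF 0x1b00d8 1 1 k

theorem chkTwD4b : chkTw chevD4 chevD4 tabD4 tabD4 0 rhoD4b (sgnD4b) (fun _ => 1) = true := by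
  decide +kernel

theorem twD4b : TwData chevD4 chevD4 0 rhoD4b (fun k => (-1) ^ (sgnD4b) k) (fun _ => 1) :=
  twData_of_chk agreeD4 agreeD4 chkTwD4b

theorem graphD4b {F : Type*} [Field F] (φ : F →+* F) (π : Equiv.Perm (Nd chevD4))
    (hπ : ∀ i : Nd chevD4, (π i : ℕ) = [3, 1, 0, 2].getD i 0) :
    ∃ σ : chevD4.group F →* chevD4.group F,
      (∀ r t, σ (xg r t) = xg (twD4b.rt r) (((-1) ^ sgnD4b r : ℤ) * φ t)) ∧
      (∀ i t, σ (xg (simple i) t) = xg (simple (π i)) (φ t)) ∧
      ∀ i t, σ (xg (neg (simple i)) t) = xg (neg (simple (π i))) (φ t) :=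
  twD4b.exists_simple (by simp) φ (fun _ => φ) (fun _ _ => (pow_one _).symm) π fun i => by
    rw [hπ]; revert i; decide +kernel

/-- the symmetry of the diagram -/
def permD4b : Equiv.Perm (Nd chevD4) :=
  (⟨![3, 1, 0, 2], ![2, 1, 3, 0], by decide, by decide⟩ : Equiv.Perm (Fin 4))

theorem permD4b_val : ∀ i : Nd chevD4, (permD4b i : ℕ) = [3, 1, 0, 2].getD i 0 := by decide +kernel

end CA.Chev
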