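import Cfsg.Agent.Lib.Chev.Check
import Cfsg.Agent.Lib.Chev.TabE6

/-! Verification of the relations between the root elements for type E6 (generated). -/

set_option autoImplicit false
set_option maxRecDepth 100000

namespace CA.Chev

open Cfsg.Lie

theorem chkCompatE6_0 : chkCompat chevE6 tabE6 0 72 = true := by decide +kernel

theorem chkCompatE6 : chkCompat chevE6 tabE6 0 chevE6.nroots = true := chkCompatE6_0

theorem chkSignE6 : chkSign chevE6 tabE6 = true := by decide +kernel

theorem chkShortE6 : chkShort chevE6 tabE6 = true := by decide +kernel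

theorem chkAddE6 : chkAdd chevE6 tabE6 = true := by decide +kernel

theorem chkCommE6 : chkComm chevE6 tabE6 = true := by decide +kernel

theorem chkNE6 : allLt (chkN chevE6 tabE6) chevE6.rank = true := by decide +kernel

theorem signOKE6 : SignOK chevE6 tabE6.sg := signOK_of_chk agreeE6 chkCompatE6 chkSignE6 (Or.inl chkShortE6)

theorem weakE6 (F : Type*) [Field F] : WeakFacts chevE6 F tabE6.sg :=
  weakFacts_of_chk agreeE6 chkAddE6 chkCommE6 chkNE6

instance isEtaE6 : IsEta chevE6 := isEta_of_weak signOKE6 (weakE6 ℚ)

instance matFactsE6 (F : Type*) [Field F] : MatFacts chevE6 F :=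
  matFacts_of_weak signOKE6 (weakE6 ℚ) (weakE6 F)

end CA.Chev
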