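import Cfsg.Agent.Lib.Chev.Aut
import Cfsg.Agent.Lib.Chev.InstE6

/-! Steinberg relations and graph automorphisms for type E6 (generated tables). -/

set_option autoImplicit false
set_option maxRecDepth 100000

namespace CA.Chev

open Cfsg.Lie CA.CG

theorem chkDecE6 : chkDec chevE6 tabE6 0x462e471947184717471647154714471347124711471046124611461045104210470a4709470847074706470547044703470247014607460646054505460446034602450445034404430344024302450144014301420242014101400146004500440043004200410040003f003e003d0037053702370136013501370036003500340033003200310030002f002e001901 = true := by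
  decide +kernel

instance isDecE6 : IsDec chevE6 := isDec_of_chk agreeE6 chkDecE6

/-- the map on roots -/
def rhoE6 (k : ℕ) : ℕ := getF 0x47464542374441363f34313c2d2926244340353e33303d322f2e3b2c28253a2b27392a380f1d0e201c0d221f1b0c1918150a17140912070423211e1a0b1613081106031005020100 8 255 k
/-- the sign bits -/
def sgnE6 (k : ℕ) : ℕ := getF 0x96ad22942944b5690 1 1 k

theorem chkTwE6 : chkTw chevE6 chevE6 tabE6 tabE6 0 rhoE6 (sgnE6) (fun _ => 1) = true := by
  decide +kernel

theorem twE6 : TwData chevE6 chevE6 0 rhoE6 (fun k => (-1) ^ (sgnE6) k) (fun _ => 1) :=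
  twData_of_chk agreeE6 agreeE6 chkTwE6

theorem graphE6 {F : Type*} [Field F] (φ : F →+* F) (π : Equiv.Perm (Nd chevE6))
    (hπ : ∀ i : Nd chevE6, (π i : ℕ) = [5, 1, 4, 3, 2, 0].getD i 0) :
    ∃ σ : chevE6.group F →* chevE6.group F,
      (∀ r t, σ (xg r t) = xg (twE6.rt r) (((-1) ^ sgnE6 r : ℤ) * φ t)) ∧
      (∀ i t, σ (xg (simple i) t) = xg (simple (π i)) (φ t)) ∧
      ∀ i t, σ (xg (neg (simple i)) t) = xg (neg (simple (π i))) (φ t) :=
  twE6.exists_simple (by simp) φ (fun _ => φ) (fun _ _ => (pow_one _).symm) π fun i => by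
    rw [hπ]; revert i; decide +kernel

/-- the symmetry of the diagram -/
def permE6 : Equiv.Perm (Nd chevE6) :=
  (⟨![5, 1, 4, 3, 2, 0], ![5, 1, 4, 3, 2, 0], by decide, by decide⟩ : Equiv.Perm (Fin 6))

theorem permE6_val : ∀ i : Nd chevE6, (permE6 i : ℕ) = [5, 1, 4, 3, 2, 0].getD i 0 := by decide +kernel

end CA.Chev
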