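import Cfsg.Agent.Lib.Chev.Aut
import Cfsg.Agent.Lib.Chev.InstF4

/-! Steinberg relations and graph automorphisms for type F4 (generated tables). -/

set_option autoImplicit false
set_option maxRecDepth 100000

namespace CA.Chev

open Cfsg.Lie CA.CG

theorem chkDecF4 : chkDec chevF4 tabF4 0x2c062c052c042f122c022c012c002f0b2f092f082e082f072e072d072c072802280128002f032e032d03270127002f012e0026002d002c022c012c0024002b002a00280328022801280027012700260024001d0020001f001d001a0018001701 = true := by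
  decide +kernel

instance isDecF4 : IsDec chevF4 := isDec_of_chk agreeF4 chkDecF4

/-- the map on roots -/
def rhoF4 (k : ℕ) : ℕ := getF 0x2c28272f26241d2e2d2b202a1f1a1825231c291e19221b210e140d161106130c0a171510050f040201120b0900080703 8 255 k
/-- the exponents -/
def expF4 (k : ℕ) : ℕ := getF 0x5656aaa95a9556a56aaa9595 2 3 k

theorem chkTwF4 : chkTw chevF4 chevF4 tabF4 tabF4 2 rhoF4 (fun _ => 0) (expF4) = true := by
  decide +kernel

theorem twF4 : TwData chevF4 chevF4 2 rhoF4 (fun k => (-1) ^ (fun _ => 0) k) (expF4) :=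
  twData_of_chk agreeF4 agreeF4 chkTwF4

theorem expF4_cases : ∀ r : Rt chevF4, expF4 r = 1 ∨ expF4 r = 2 := by decide +kernel

theorem expF4_simple : ∀ i : Nd chevF4, expF4 (chevF4.simple i) = [2, 2, 1, 1].getD i 0 := by decide +kernel

/-- The exceptional graph endomorphism followed by the field map `ψ`. -/
theorem graphF4 {F : Type*} [Field F] [CharP F 2] (ψ : F →+* F) (π : Equiv.Perm (Nd chevF4))
    (hπ : ∀ i : Nd chevF4, (π i : ℕ) = [3, 2, 1, 0].getD i 0) :
    ∃ σ : chevF4.group F →* chevF4.group F,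
      (∀ r t, σ (xg r t) = xg (twF4.rt r) (ψ t ^ expF4 r)) ∧
      (∀ i t, σ (xg (simple i) t) = xg (simple (π i)) (expHom 2 ψ ([2, 2, 1, 1].getD i 0) t)) ∧
      ∀ i t, σ (xg (neg (simple i)) t) = xg (neg (simple (π i))) (expHom 2 ψ ([2, 2, 1, 1].getD i 0) t) := by
  obtain ⟨σ, h1, h2⟩ := twF4.exists_simple (F := F) (by exact_mod_cast CharP.cast_eq_zero F 2) ψ
    (expHom 2 ψ) (fun r => expHom_apply ψ (expF4_cases r)) π fun i => by
      rw [hπ]; revert i; decide +kernel
  refine ⟨σ, fun r t => ?_, by simpa only [expF4_simple] using h2⟩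
  rw [h1, expHom_apply ψ (expF4_cases r)]
  simp

/-- the symmetry of the diagram -/
def permF4 : Equiv.Perm (Nd chevF4) :=
  (⟨![3, 2, 1, 0], ![3, 2, 1, 0], by decide, by decide⟩ : Equiv.Perm (Fin 4))

theorem permF4_val : ∀ i : Nd chevF4, (permF4 i : ℕ) = [3, 2, 1, 0].getD i 0 := by decide +kernel

end CA.Chev
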