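import Cfsg.Agent.Lib.Chev.Check
import Cfsg.Agent.Lib.Chev.TabG2

/-! Verification of the relations between the root elements for type G2 (generated). -/

set_option autoImplicit false
set_option maxRecDepth 100000

namespace CA.Chev

open Cfsg.Lie

theorem chkCompatG2_0 : chkCompat chevG2 tabG2 0 12 = true := by decide +kernel

theorem chkCompatG2 : chkCompat chevG2 tabG2 0 chevG2.nroots = true := chkCompatG2_0

theorem chkSignG2 : chkSign chevG2 tabG2 = true := by decide +kernel

theorem chkTermsG2 : allLt (fun i => chkTerms chevG2 tabG2 (tabG2.rf i) (tabG2.sg i)) chevG2.rank = true := by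
  decide +kernel

theorem chkAddG2 : chkAdd chevG2 tabG2 = true := by decide +kernel

theorem chkCommG2 : chkComm chevG2 tabG2 = true := by decide +kernel

theorem chkNG2 : allLt (chkN chevG2 tabG2) chevG2.rank = true := by decide +kernel

theorem signOKG2 : SignOK chevG2 tabG2.sg := signOK_of_chk agreeG2 chkCompatG2 chkSignG2 (Or.inr chkTermsG2)

theorem weakG2 (F : Type*) [Field F] : WeakFacts chevG2 F tabG2.sg :=
  weakFacts_of_chk agreeG2 chkAddG2 chkCommG2 chkNG2

instance isEtaG2 : IsEta chevG2 := isEta_of_weak signOKG2 (weakG2 ℚ)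

instance matFactsG2 (F : Type*) [Field F] : MatFacts chevG2 F :=
  matFacts_of_weak signOKG2 (weakG2 ℚ) (weakG2 F)

end CA.Chev
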