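import Cfsg.Agent.Lib.Chev.Aut
import Cfsg.Agent.Lib.Chev.InstG2

/-! Steinberg relations and graph automorphisms for type G2 (generated tables). -/

set_option autoImplicit false
set_option maxRecDepth 100000

namespace CA.Chev

open Cfsg.Lie CA.CG

theorem chkDecG2 : chkDec chevG2 tabG2 0x90109000b030901090008000a0008000900080006000501 = true := by
  decide +kernel

instance isDecG2 : IsDec chevG2 := isDec_of_chk agreeG2 chkDecG2

/-- the map on roots -/
def rhoG2 (k : ℕ) : ℕ := getF 0x9080b0a0607040501000302 8 255 k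
/-- the exponents -/
def expG2 (k : ℕ) : ℕ := getF 0x5fd7f5 2 3 k

theorem chkTwG2 : chkTw chevG2 chevG2 tabG2 tabG2 3 rhoG2 (fun _ => 0) (expG2) = true := by
  decide +kernel

theorem twG2 : TwData chevG2 chevG2 3 rhoG2 (fun k => (-1) ^ (fun _ => 0) k) (expG2) :=
  twData_of_chk agreeG2 agreeG2 chkTwG2

theorem expG2_cases : ∀ r : Rt chevG2, expG2 r = 1 ∨ expG2 r = 3 := by decide +kernel

theorem expG2_simple : ∀ i : Nd chevG2, expG2 (chevG2.simple i) = [3, 1].getD i 0 := by decide +kernel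

/-- The exceptional graph endomorphism followed by the field map `ψ`. -/
theorem graphG2 {F : Type*} [Field F] [CharP F 3] (ψ : F →+* F) (π : Equiv.Perm (Nd chevG2))
    (hπ : ∀ i : Nd chevG2, (π i : ℕ) = [1, 0].getD i 0) :
    ∃ σ : chevG2.group F →* chevG2.group F,
      (∀ r t, σ (xg r t) = xg (twG2.rt r) (ψ t ^ expG2 r)) ∧
      (∀ i t, σ (xg (simple i) t) = xg (simple (π i)) (expHom 3 ψ ([3, 1].getD i 0) t)) ∧
      ∀ i t, σ (xg (neg (simple i)) t) = xg (neg (simple (π i))) (expHom 3 ψ ([3, 1].getD i 0) t) := by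
  obtain ⟨σ, h1, h2⟩ := twG2.exists_simple (F := F) (by exact_mod_cast CharP.cast_eq_zero F 3) ψ
    (expHom 3 ψ) (fun r => expHom_apply ψ (expG2_cases r)) π fun i => by
      rw [hπ]; revert i; decide +kernel
  refine ⟨σ, fun r t => ?_, by simpa only [expG2_simple] using h2⟩
  rw [h1, expHom_apply ψ (expG2_cases r)]
  simp

/-- the symmetry of the diagram -/
def permG2 : Equiv.Perm (Nd chevG2) :=
  (⟨![1, 0], ![1, 0], by decide, by decide⟩ : Equiv.Perm (Fin 2))

theorem permG2_val : ∀ i : Nd chevG2, (permG2 i : ℕ) = [1, 0].getD i 0 := by decide +kernel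

end CA.Chev
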