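import Cfsg.Agent.Lib.Chev.Eval

/-! Boolean checkers for `SignOK` and `WeakFacts`. -/

set_option autoImplicit false
set_option linter.unusedSectionVars false

namespace CA.Chev

open Cfsg.Lie Cfsg.Lie.ChevalleyDatum Matrix

attribute [-simp] zsmul_eq_mul

/-! ### compatibility of the chain table with a signed permutation of the roots -/

/-- the image of a chain under a signed permutation -/
def chMap (ρ : ℕ → ℕ) (ε : ℕ → ℤ) (s a : ℕ) (l : List (ℕ × ℤ)) (j : ℕ) : List (ℕ × ℤ) :=
  (l.zipIdx j).map fun q => (ρ q.1.1, q.1.2 * ε s ^ (q.2 + 1) * ε a * ε q.1.1)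

/-- the chain table is compatible with the signed permutation `(ρ, ε)` -/
def ChainCompat (D : ChevalleyDatum) (ρ : ℕ → ℕ) (ε : ℕ → ℤ) : Prop :=
  ∀ s < D.nroots, ∀ a < D.nroots, D.chainEntry (ρ s) (ρ a) = chMap ρ ε s a (D.chainEntry s a) 0

/-- compare two chain codes -/
noncomputable def cmpCh (ρ σ : ℕ → ℕ) (bs ba : ℕ) (fuel : ℕ) : ℕ → ℕ → ℕ → Bool :=
  Nat.rec (fun _ _ _ => true) (fun _ ih x y j => Bool.rec
    (bAnd (Nat.beq (Nat.land y 4095) (Nat.add (Nat.mul 8 (ρ (Nat.shiftRight (Nat.land x 4095) 3)))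
        (bIf (Nat.beq (Nat.mod (Nat.add (Nat.add (Nat.mul j bs) ba) (σ (Nat.shiftRight (Nat.land x 4095) 3))) 2) 0)
          (Nat.land x 7) (Nat.sub 8 (Nat.land x 7)))))
      (bAnd (Nat.ble 1 (Nat.land x 7)) (ih (Nat.shiftRight x 12) (Nat.shiftRight y 12) (Nat.succ j))))
    (Nat.beq y 0) (Nat.beq x 0)) fuel

theorem nat_mod_def (a b : ℕ) : Nat.mod a b = a % b := rfl

theorem land_eq (x n : ℕ) : Nat.land x (2 ^ n - 1) = x % 2 ^ n := Nat.and_two_pow_sub_one_eq_mod x n

theorem cmpCh_spec {ρ σ : ℕ → ℕ} {s a f x y j : ℕ} (h : cmpCh ρ σ (σ s) (σ a) f x y (j + 1) = true) :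
    decCh f y = chMap ρ (fun k => (-1) ^ σ k) s a (decCh f x) j := by
  induction f generalizing x y j with
  | zero => rfl
  | succ f ih =>
    have e : cmpCh ρ σ (σ s) (σ a) (f + 1) x y (j + 1) = bIf (Nat.beq x 0) (Nat.beq y 0)
      (bAnd (Nat.beq (Nat.land y 4095) (Nat.add (Nat.mul 8 (ρ (Nat.shiftRight (Nat.land x 4095) 3)))
        (bIf (Nat.beq (Nat.mod (Nat.add (Nat.add (Nat.mul (j + 1) (σ s)) (σ a))
            (σ (Nat.shiftRight (Nat.land x 4095) 3))) 2) 0)
          (Nat.land x 7) (Nat.sub 8 (Nat.land x 7)))))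
      (bAnd (Nat.ble 1 (Nat.land x 7))
        (cmpCh ρ σ (σ s) (σ a) f (Nat.shiftRight x 12) (Nat.shiftRight y 12) (j + 1 + 1)))) := rfl
    rw [e] at h
    simp only [bIf_eq, Nat.beq_eq, bAnd_eq] at h
    rw [decCh_succ, decCh_succ]
    by_cases hx : x = 0
    · rw [if_pos hx] at h ⊢
      rw [if_pos (Nat.eq_of_beq_eq_true h)]; rfl
    rw [if_neg hx] at h ⊢
    simp only [Bool.and_eq_true, Nat.beq_eq, Nat.ble_eq, Nat.add_eq, Nat.mul_eq, Nat.sub_eq, nat_mod_def] at h
    obtain ⟨h1, h2, h3⟩ := h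
    have e1 : Nat.land y 4095 = y % 4096 := land_eq y 12
    have e2 : Nat.land y 7 = y % 8 := land_eq y 3
    have e3 : Nat.land x 7 = x % 8 := land_eq x 3
    have e4 : ∀ z, Nat.shiftRight z 3 = z / 8 := fun z => Nat.shiftRight_eq_div_pow z 3
    generalize hk : Nat.shiftRight (Nat.land x 4095) 3 = k at *
    rw [e3] at h1 h2 ⊢
    rw [e1] at h1
    have hy : y ≠ 0 := by split_ifs at h1 <;> omega
    rw [if_neg hy, ih h3, chMap, chMap, List.zipIdx_cons, List.map_cons, e1, e2, e4]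
    congr 2
    · change _ = ρ k
      split_ifs at h1 <;> omega
    · simp only [Int.subNatNat_eq_coe]
      rw [← pow_mul, mul_assoc, mul_assoc, ← pow_add, ← pow_add, mul_comm (σ s), ← add_assoc]
      split_ifs at h1 with h4
      · rw [Even.neg_one_pow (Nat.even_iff.2 h4)]; omega
      · rw [Odd.neg_one_pow (Nat.odd_iff.2 (by omega))]; omega

variable {D : ChevalleyDatum} [hD : IsRoot D] {T : Tab}

variable (D T) in
/-- compatibility with the fundamental reflections, for the rows `lo ≤ s < lo + len` -/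
noncomputable def chkCompat (lo len : ℕ) : Bool :=
  allLt (fun s => allLt (fun a => bOr (Nat.beq (T.fld (Nat.add lo s) a) 0)
    (allLt (fun i => cmpCh (T.rf i) (T.sgN i) (T.sgN i (Nat.add lo s)) (T.sgN i a) 3 (T.fld (Nat.add lo s) a)
      (T.fld (T.rf i (Nat.add lo s)) (T.rf i a)) 1) D.rank)) D.nroots) len

theorem chkCompat_add {lo a b : ℕ} (h1 : chkCompat D T lo a = true) (h2 : chkCompat D T (lo + a) b = true) :
    chkCompat D T lo (a + b) = true := by
  unfold chkCompat at *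
  rw [allLt_iff] at *
  intro s hs
  by_cases h : s < a
  · exact h1 s h
  · have := h2 (s - a) (by omega)
    have e : Nat.add (lo + a) (s - a) = Nat.add lo s := by simp only [Nat.add_eq]; omega
    rwa [e] at this

theorem chMap_congr {ρ ρ' : ℕ → ℕ} {ε : ℕ → ℤ} {s a j : ℕ} {l : List (ℕ × ℤ)} (h : ∀ q ∈ l, ρ q.1 = ρ' q.1) :
    chMap ρ ε s a l j = chMap ρ' ε s a l j :=
  List.map_congr_left fun q hq => by rw [h _ (List.fst_mem_of_mem_zipIdx hq)]

theorem chainCompat_of_chk (hA : Agree D T) (h : chkCompat D T 0 D.nroots = true) (i : Nd D) :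
    ChainCompat D (D.reflectRoot i) (T.sg i) := by
  simp only [chkCompat, allLt_iff, bOr_eq, Bool.or_eq_true, Nat.beq_eq, Nat.add_eq, zero_add] at h
  have key : ∀ s a : Rt D, T.fld s a ≠ 0 →
      D.chainEntry (sRefl i s) (sRefl i a) = chMap (D.reflectRoot i) (T.sg i) s a (D.chainEntry s a) 0 := by
    intro s a h0
    have := cmpCh_spec (j := 0) ((h s s.2 a a.2).resolve_left h0 i i.2)
    rw [hA.entry _ (sRefl i s).2 _ (sRefl i a).2, chMap_congr (ρ' := T.rf i)
      (fun q hq => hA.rf i i.2 _ (chainEntry_lt s.2 hq)), hA.entry s s.2 a a.2, sRefl_val, sRefl_val,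
      hA.rf i i.2 s s.2, hA.rf i i.2 a a.2]
    exact this
  intro s hs a ha
  by_cases h0 : T.fld s a = 0
  · have h1 : D.chainEntry s a = [] := by rw [hA.entry s hs a ha, Tab.ch, h0]; rfl
    rw [h1]
    by_cases h2 : T.fld (sRefl i ⟨s, hs⟩) (sRefl i ⟨a, ha⟩) = 0
    · change D.chainEntry (sRefl i ⟨s, hs⟩) (sRefl i ⟨a, ha⟩) = _
      rw [hA.entry _ (sRefl i _).2 _ (sRefl i _).2, Tab.ch, h2]; rfl
    · have := key _ _ h2
      rw [sRefl_sRefl, sRefl_sRefl, h1] at this
      have h3 := congrArg List.length this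
      simp only [chMap, List.length_nil, List.length_map, List.length_zipIdx] at h3
      exact List.eq_nil_of_length_eq_zero h3.symm
  · exact key ⟨s, hs⟩ ⟨a, ha⟩ h0

variable (D T) in
/-- compatibility with a signed permutation given by tables -/
noncomputable def chkCompatFull (ρ σ : ℕ → ℕ) : Bool :=
  allLt (fun s => bAnd (Nat.ble (Nat.succ (ρ s)) D.nroots) (allLt (fun a =>
    cmpCh ρ σ (σ s) (σ a) 3 (T.fld s a) (T.fld (ρ s) (ρ a)) 1) D.nroots)) D.nroots

theorem chainCompat_of_chkFull (hA : Agree D T) {ρ σ : ℕ → ℕ} (h : chkCompatFull D T ρ σ = true) :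
    ChainCompat D ρ fun k => (-1) ^ σ k := by
  simp only [chkCompatFull, allLt_iff, bAnd_eq, Bool.and_eq_true, Nat.ble_eq] at h
  intro s hs a ha
  rw [hA.entry _ (h s hs).1 _ (h a ha).1, hA.entry s hs a ha]
  exact cmpCh_spec (j := 0) ((h s hs).2 a ha)

theorem zipIdx_chMap (ρ : ℕ → ℕ) (ε : ℕ → ℤ) (s a : ℕ) (l : List (ℕ × ℤ)) (j : ℕ) :
    (chMap ρ ε s a l j).zipIdx j =
      (l.zipIdx j).map fun q => ((ρ q.1.1, q.1.2 * ε s ^ (q.2 + 1) * ε a * ε q.1.1), q.2) := by
  unfold chMap
  induction l generalizing j with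
  | nil => rfl
  | cons x l ih => simp only [List.zipIdx_cons, List.map_cons, ih]

theorem xck_compat (hA : Agree D T) {ρ : ℕ → ℕ} {ε : ℕ → ℤ} (hC : ChainCompat D ρ ε)
    (hε : ∀ k, ε k * ε k = 1) {w : Equiv.Perm (Rt D)} (hw : ∀ r, (w r : ℕ) = ρ r)
    (hn : ∀ r, w (neg r) = neg (w r)) (s a b : Rt D) (h1 : a ≠ s) (h2 : a ≠ neg s) :
    (xck (w s) (Sum.inr (w b)) (Sum.inr (w a))).1 * ε s ^ (xck s (Sum.inr b) (Sum.inr a)).2 * ε a =
      ε b * (xck s (Sum.inr b) (Sum.inr a)).1 := by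
  have h3 : w a ≠ w s := w.injective.ne h1
  have h4 : w a ≠ neg (w s) := by rw [← hn]; exact w.injective.ne h2
  simp only [xck, h1, h2, h3, h4, if_false]
  have e : D.chainCoeff (w s) (w a) (w b) =
      (D.chainCoeff s a b).map fun km => (km.1, km.2 * ε s ^ km.1 * ε a * ε b) := by
    rw [hA.coeff _ (w s).2 _ (w a).2, hA.coeff _ s.2 _ a.2, ← hA.entry _ (w s).2 _ (w a).2,
      ← hA.entry _ s.2 _ a.2, hw s, hw a, hC s s.2 a a.2, zipIdx_chMap, List.filter_map, List.map_map,
      List.map_map]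
    have : ∀ q ∈ (D.chainEntry s a).zipIdx, (ρ q.1.1 = w b ↔ q.1.1 = b) := fun q hq => by
      have hlt := chainEntry_lt s.2 (List.fst_mem_of_mem_zipIdx hq)
      rw [← hw ⟨_, hlt⟩, Fin.val_inj, EmbeddingLike.apply_eq_iff_eq, Fin.ext_iff]
    rw [List.filter_congr (q := fun q => decide (q.1.1 = (b : ℕ))) (fun q hq => by simp [this q hq])]
    refine List.map_congr_left fun q hq => ?_
    have := (List.mem_filter.1 hq).2
    simp only [decide_eq_true_eq] at this
    simp [this]
  rw [e]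
  rcases hl : D.chainCoeff s a b with _ | ⟨km, l⟩
  · simp
  · have h5 := chainCoeff_spec (hl ▸ List.mem_cons_self : km ∈ D.chainCoeff s a b)
    have h6 : ∀ q ∈ D.chainCoeff s a b, q.1 = km.1 := by
      intro q hq
      have h7 := (chainCoeff_spec hq).2
      rw [h5.2, add_right_inj] at h7
      have := smul_left_injective ℤ (wt_ne_zero s) h7
      omega
    rw [List.headD_cons, ← hl]
    clear hl h5 e
    generalize D.chainCoeff s a b = l at h6
    induction l with
    | nil => simp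
    | cons q l ih =>
      simp only [List.map_cons, List.sum_cons, add_mul, mul_add]
      rw [ih fun q hq => h6 q (List.mem_cons_of_mem _ hq), h6 q List.mem_cons_self]
      congr 1
      have e1 : ε s ^ km.1 * ε s ^ km.1 = 1 := by rw [← mul_pow, hε, one_pow]
      linear_combination (q.2 * ε b * ε a * ε a) * e1 + (q.2 * ε b) * hε a

/-! ### the terms of the commutator formula -/

/-- `commTerms` in terms of the chain entries -/
def commTermsF (ce : ℕ → ℕ → List (ℕ × ℤ)) (r s : ℕ) : List (ℕ × ℤ × ℕ × ℕ) :=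
  let cR := fun r s i => ((ce r s)[i - 1]?).map Prod.fst
  let cM := fun r s i => (((ce r s)[i - 1]?).map Prod.snd).getD 0
  let rs := cR r s 1
  let cands : List (Option ℕ × ℤ × ℕ × ℕ) :=
    [ (cR r s 1, cM r s 1, 1, 1),
      (cR r s 2, cM r s 2, 2, 1),
      (cR s r 2, cM s r 2, 1, 2),
      (cR r s 3, cM r s 3, 3, 1),
      (cR s r 3, - cM s r 3, 1, 3),
      ((cR r s 3).bind fun k => cR k s 1, (rs.map fun k => cM k r 2 / 3).getD 0, 3, 2),
      ((cR s r 3).bind fun k => cR k r 1, (rs.map fun k => -2 * cM k s 2 / 3).getD 0, 2, 3) ]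
  cands.filterMap fun c => c.1.map fun k => (k, c.2)

omit hD in
theorem commTerms_eq (r s : ℕ) : D.commTerms r s = commTermsF D.chainEntry r s := rfl

theorem commTermsF_short {ce : ℕ → ℕ → List (ℕ × ℤ)} {r s : ℕ} (h1 : (ce r s).length ≤ 1)
    (h2 : (ce s r).length ≤ 1) : commTermsF ce r s = (ce r s).map fun q => (q.1, q.2, 1, 1) := by
  have e1 : (ce r s)[1]? = none := by simp; omega
  have e2 : (ce r s)[2]? = none := by simp; omega
  have e3 : (ce s r)[1]? = none := by simp; omega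
  have e4 : (ce s r)[2]? = none := by simp; omega
  simp only [commTermsF, Nat.add_one_sub_one, e1, e2, e3, e4, Option.map_none, Option.bind_none, le_refl,
    tsub_eq_zero_of_le]
  rcases h : ce r s with _ | ⟨q, _ | ⟨q', l⟩⟩
  · simp
  · simp
  · simp [h] at h1

variable (D T) in
/-- the chain entries, from the fast table when possible -/
noncomputable def chE (r s : ℕ) : List (ℕ × ℤ) :=
  bIf (bOr (Nat.ble D.nroots r) (Nat.ble D.nroots s)) (D.chainEntry r s) (T.ch r s)

omit hD in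
theorem chE_eq (hA : Agree D T) : chE D T = D.chainEntry := by
  funext r s
  simp only [chE, bIf_eq, bOr_eq, Bool.or_eq_true, Nat.ble_eq]
  split_ifs with h
  · rfl
  · rw [hA.entry r (by omega) s (by omega)]

/-- the image of the terms under a signed permutation -/
def termMap (ρ : ℕ → ℕ) (ε : ℕ → ℤ) (r s : ℕ) (c : ℕ × ℤ × ℕ × ℕ) : ℕ × ℤ × ℕ × ℕ :=
  (ρ c.1, c.2.1 * ε c.1 * ε r ^ c.2.2.1 * ε s ^ c.2.2.2, c.2.2.1, c.2.2.2)

variable (D T) in
noncomputable def chkTerms (ρ : ℕ → ℕ) (ε : ℕ → ℤ) : Bool :=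
  allLt (fun r => allLt (fun s => bOr (bAnd (Nat.beq (T.fld r s) 0) (Nat.beq (T.fld s r) 0))
    (decide (commTermsF (chE D T) (ρ r) (ρ s) = (commTermsF (chE D T) r s).map (termMap ρ ε r s))))
    D.nroots) D.nroots

variable (D T) in
noncomputable def chkShort : Bool :=
  allLt (fun r => allLt (fun s => Nat.ble (T.fld r s) 4095) D.nroots) D.nroots

theorem terms_of_short {ρ : ℕ → ℕ} {ε : ℕ → ℤ} (hC : ChainCompat D ρ ε) {r s : ℕ} (hr : r < D.nroots)
    (hs : s < D.nroots) (h1 : (D.chainEntry r s).length ≤ 1) (h2 : (D.chainEntry s r).length ≤ 1) :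
    D.commTerms (ρ r) (ρ s) = (D.commTerms r s).map (termMap ρ ε r s) := by
  rw [commTerms_eq, commTerms_eq, commTermsF_short h1 h2, commTermsF_short, hC r hr s hs]
  · rcases h : D.chainEntry r s with _ | ⟨q, _ | ⟨q', l⟩⟩
    · rfl
    · simp only [chMap, termMap, List.zipIdx_cons, List.zipIdx_nil, List.map_cons, List.map_nil]
      congr 3; ring
    · simp [h] at h1
  · rw [hC r hr s hs]; simpa [chMap] using h1
  · rw [hC s hs r hr]; simpa [chMap] using h2

theorem short_of_chk (hA : Agree D T) (h : chkShort D T = true) {r s : ℕ} (hr : r < D.nroots)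
    (hs : s < D.nroots) : (D.chainEntry r s).length ≤ 1 := by
  simp only [chkShort, allLt_iff, Nat.ble_eq] at h
  rw [hA.entry r hr s hs, Tab.ch, decCh_succ]
  split_ifs
  · simp
  · have : Nat.shiftRight (T.fld r s) 12 = 0 := by
      have := h r hr s hs
      have e : Nat.shiftRight (T.fld r s) 12 = T.fld r s / 2 ^ 12 := Nat.shiftRight_eq_div_pow _ 12
      omega
    rw [this]; simp [decCh_succ]

theorem terms_of_chk (hA : Agree D T) {ρ ρ' : ℕ → ℕ} {ε : ℕ → ℤ} (hC : ChainCompat D ρ ε)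
    (hρ : ∀ r < D.nroots, ρ r = ρ' r)
    (h : chkShort D T = true ∨ chkTerms D T ρ' ε = true) (r s : Rt D) :
    D.commTerms (ρ r) (ρ s) = (D.commTerms r s).map (termMap ρ ε r s) := by
  rcases h with h | h
  · exact terms_of_short hC r.2 s.2 (short_of_chk hA h r.2 s.2) (short_of_chk hA h s.2 r.2)
  simp only [chkTerms, allLt_iff, bOr_eq, bAnd_eq, Bool.or_eq_true, Bool.and_eq_true, Nat.beq_eq,
    decide_eq_true_eq, chE_eq hA, ← commTerms_eq] at h
  rcases h r r.2 s s.2 with ⟨h1, h2⟩ | h1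
  · apply terms_of_short hC r.2 s.2
    · rw [hA.entry r r.2 s s.2, Tab.ch, h1]; simp [decCh_succ]
    · rw [hA.entry s s.2 r r.2, Tab.ch, h2]; simp [decCh_succ]
  · rw [hρ r r.2, hρ s s.2, h1]
    refine List.map_congr_left fun c hc => ?_
    obtain ⟨-, -, h3, -⟩ := commTerms_spec hc
    simp only [termMap, hρ _ h3]

variable (D T) in
noncomputable def chkSign : Bool := allLt (fun i => bAnd (Nat.beq (T.sgN i (D.simple i)) 1)
  (allLt (fun s => bAnd (Nat.beq (T.sgN i (D.nroots - 1 - s)) (T.sgN i s))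
    (Nat.beq (Nat.mod (Nat.add (Nat.add (T.sgN i s) (T.sgN i (T.rf i s))) (T.caN i s)) 2) 0)) D.nroots)) D.rank

theorem signOK_of_chk (hA : Agree D T) (h1 : chkCompat D T 0 D.nroots = true) (h2 : chkSign D T = true)
    (h3 : chkShort D T = true ∨ allLt (fun i => chkTerms D T (T.rf i) (T.sg i)) D.rank = true) :
    SignOK D T.sg := by
  simp only [chkSign, allLt_iff, bAnd_eq, Bool.and_eq_true, Nat.beq_eq, Nat.add_eq, nat_mod_def] at h2
  have hpm : ∀ i s, T.sg i s = 1 ∨ T.sg i s = -1 := fun i s => neg_one_pow_eq_or ℤ _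
  refine ⟨hpm, fun i => ?_, fun i s => ?_, fun i s => ?_, fun i s a b => ?_, fun i r s _ _ => ?_⟩
  · rw [Tab.sg, simple_val, (h2 i i.2).1]; rfl
  · have := hD.neg_eq s
    rw [Tab.sg, Tab.sg, neg_val, show D.neg s = D.nroots - 1 - s by omega, ((h2 i i.2).2 s s.2).1]
  · have h4 := ((h2 i i.2).2 s s.2).2
    have h5 := hA.ca i i.2 s s.2
    rw [Tab.ca_eq] at h5
    rw [Tab.sg, Tab.sg, ← pow_add, sRefl_val, hA.rf i i.2 s s.2, neg_one_pow_eq_pow_mod_two,
      neg_one_pow_eq_pow_mod_two (n := (wt s i).natAbs)]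
    congr 1
    unfold wt
    omega
  · exact xck_compat hA (chainCompat_of_chk hA h1 i)
      (fun k => by rcases hpm i k with h | h <;> simp [h]) (fun _ => rfl) (sRefl_neg i) s a b
  · exact terms_of_chk hA (chainCompat_of_chk hA h1 i) (hA.rf i i.2)
      (h3.imp id fun h => allLt_iff.1 h i i.2) r s

/-! ### the base cases -/

variable (D T) in
noncomputable def chkAdd : Bool := allLt (fun r => bOr (Bool.not (allLt (fun i => Nat.ble 8 (T.caN i r)) D.rank))
  (eqW T D.nroots D.rank [(r, [⟨1, 0, 1⟩, ⟨0, 1, 1⟩])] [(r, [⟨1, 0, 1⟩]), (r, [⟨0, 1, 1⟩])])) D.nroots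

/-- the symbolic commutator word -/
def commSym (l : List (ℕ × ℤ × ℕ × ℕ)) : List (ℕ × List Mon) :=
  l.map fun c => (c.1, [⟨c.2.2.1, c.2.2.2, c.2.1 * (-1) ^ c.2.2.1⟩])

variable (D T) in
noncomputable def chkComm : Bool := allLt (fun r => bOr (Bool.not (allLt (fun i => Nat.ble 8 (T.caN i r)) D.rank))
  (allLt (fun s => bOr (Nat.beq s r) (bOr (Nat.beq (Nat.succ (Nat.add s r)) D.nroots)
    (bOr (Bool.not (allLt (fun i => bOr (Nat.ble 9 (T.caN i r)) (Nat.ble 8 (T.caN i s))) D.rank))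
      (eqW T D.nroots D.rank [(s, [⟨0, 1, 1⟩]), (r, [⟨1, 0, 1⟩])]
        ((r, [⟨1, 0, 1⟩]) :: (s, [⟨0, 1, 1⟩]) :: commSym (commTermsF (chE D T) r s)))))) D.nroots)) D.nroots

variable (D T) in
/-- the column `a` of the monomial form of `n_{p_i}(t)` -/
noncomputable def nCol (i a : ℕ) : List Trm :=
  bIf (Nat.ble D.nroots a)
    ((List.range D.rank).map fun j => ⟨Nat.add D.nroots j, 0, 0, T.co (T.rf i (D.simple (Nat.sub a D.nroots))) j⟩)
    [⟨T.rf i a, Int.neg (T.ca i a), 0, T.sg i a⟩]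

variable (D T) in
noncomputable def chkN (i : ℕ) : Bool := allLt (fun a => eqT (appW T D.nroots D.rank
  [(D.simple i, [⟨1, 0, 1⟩]), (D.nroots - 1 - D.simple i, [⟨-1, 0, -1⟩]), (D.simple i, [⟨1, 0, 1⟩])] [⟨a, 0, 0, 1⟩])
  (nCol D T i a)) (Nat.add D.nroots D.rank)

variable {F : Type*} [Field F]

theorem wordMat_eq_one {w : List (ℕ × F)} (h : ∀ p ∈ w, p.2 = 0) : D.wordMat F w = 1 := by
  apply List.prod_eq_one
  intro g hg
  obtain ⟨p, hp, rfl⟩ := List.mem_map.1 hg
  rw [h p hp]
  by_cases h1 : p.1 < D.nroots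
  · exact x_zero ⟨p.1, h1⟩
  · simp [ChevalleyDatum.x, h1]

theorem weakFacts_of_chk (hA : Agree D T) (h1 : chkAdd D T = true) (h2 : chkComm D T = true)
    (h3 : allLt (chkN D T) D.rank = true) : WeakFacts D F T.sg := by
  simp only [chkAdd, chkComm, allLt_iff, bOr_eq, Bool.or_eq_true, Bool.not_eq_true', ← Bool.not_eq_true,
    Nat.ble_eq, Nat.beq_eq, Nat.add_eq, Nat.succ_eq_add_one, chE_eq hA, ← commTerms_eq] at h1 h2
  have hca : ∀ (r : Rt D) (i : Nd D), wt r i = (T.caN i r : ℤ) - 8 := fun r i => by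
    rw [← Tab.ca_eq, ← hA.ca i i.2 r r.2]; rfl
  refine ⟨fun r hr t u => ?_, fun r s hrs e1 e2 t u => ?_, fun i t ht => ?_⟩
  · by_cases ht : t = 0
    · simp [ht, x_zero]
    by_cases hu : u = 0
    · simp [hu, x_zero]
    have := eqW_spec hA ht hu ((h1 r r.2).resolve_left fun h => h fun i hi => by
      have := hr ⟨i, hi⟩
      rw [hca] at this
      simp only at this
      omega)
    simpa [ChevalleyDatum.wordMat] using this
  · by_cases h0 : t = 0 ∨ u = 0
    · rw [wordMat_eq_one, mul_one]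
      · rcases h0 with h | h <;> simp [h, x_zero]
      · intro p hp
        obtain ⟨c, hc, rfl⟩ := List.mem_map.1 hp
        obtain ⟨a1, a2, -⟩ := commTerms_spec hc
        rcases h0 with h | h <;> simp [h, a1.ne', a2.ne']
    push Not at h0
    have h4 := (h2 r r.2).resolve_left fun h => h fun i hi => by
      have := (hrs ⟨i, hi⟩).1
      rw [hca] at this
      simp only at this
      omega
    have h5 := (((h4 s s.2).resolve_left fun h => e1 (Fin.ext h)).resolve_left fun h =>
      e2 (Fin.ext (by have := hD.neg_eq r; simp; omega))).resolve_left fun h => h fun i hi => by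
        have := hrs ⟨i, hi⟩
        rw [hca, hca] at this
        simp only at this
        omega
    have := eqW_spec hA h0.1 h0.2 h5
    have e : (commSym (D.commTerms r s)).map (fun q => (q.1, evP t u q.2)) = D.commWord F r s t u := by
      unfold commSym ChevalleyDatum.commWord
      rw [List.map_map]
      refine List.map_congr_left fun c _ => ?_
      simp only [Function.comp, evP_cons, evP_nil, zpow_natCast]
      rw [neg_pow t]
      push_cast
      congr 1; ring
    simp only [List.map_cons, e] at this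
    simpa [ChevalleyDatum.wordMat, mul_assoc] using this
  · apply matrix_ext_bas
    intro a ha
    have h4 := evT_eq_of_eqT (D := D) (t := t) (u := 1) (allLt_iff.1 (allLt_iff.1 h3 i i.2) a ha)
    rw [← appW_spec hA ht one_ne_zero, evT_single] at h4
    have e : D.nroots - 1 - D.simple i = D.neg (D.simple i) := by
      have := hD.neg_eq (simple i); simp only [simple_val] at this; omega
    have e' : D.nMat F (simple i) t = D.wordMat F (List.map (fun q => (q.1, evP t 1 q.2))
        [(D.simple i, [⟨1, 0, 1⟩]), (D.nroots - 1 - D.simple i, [⟨-1, 0, -1⟩]), (D.simple i, [⟨1, 0, 1⟩])]) := by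
      simp [ChevalleyDatum.nMat, ChevalleyDatum.nWord, e]
    rw [e', h4]
    obtain ⟨col, rfl⟩ := exists_enc ha
    funext row
    rw [mulVec_bas, evT, list_sum_apply]
    rcases col with j | s
    · simp only [nCol, enc_inl, bIf_eq, Nat.ble_eq, le_add_iff_nonneg_right, zero_le, if_true, Nat.sub_eq,
        Nat.add_sub_cancel_left, List.map_map, Function.comp_def, Nat.add_eq]
      rcases row with k | u
      · simp only [bas, enc_inl, add_right_inj, Pi.smul_apply, smul_eq_mul, mul_ite, mul_one, mul_zero,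
          zpow_zero, mono_ll]
        rw [← List.sum_toFinset _ List.nodup_range, List.toFinset_range]
        have := hA.co k k.2 _ (hD.reflect_lt i (simple j))
        rw [simple_val, hA.rf i i.2 _ (hD.simple_lt j)] at this
        simp [cor, this, hA.rf i i.2 _ (hD.simple_lt j)]
      · have e1 : ∀ k, (u : ℕ) ≠ D.nroots + k := fun k => by have := u.2; omega
        simp [bas, e1]
    · have h5 : ¬ D.nroots ≤ s := by have := s.2; omega
      simp only [nCol, enc_inr, bIf_eq, Nat.ble_eq, h5, if_false, ← hA.rf i i.2 s s.2, ← hA.ca i i.2 s s.2]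
      rcases row with k | u
      · have : D.nroots + k ≠ D.reflectRoot i s := by have := hD.reflect_lt i s; omega
        simp [bas, this]
      · by_cases h6 : (u : ℕ) = D.reflectRoot i s <;> simp [bas, Fin.ext_iff, int_neg_def, wt, h6]

end CA.Chev
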