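import Cfsg.Agent.Lib.Chev.Stein
import Cfsg.Agent.Lib.Chev.Check

/-! Homomorphisms between Chevalley groups defined on the root elements: field maps, graph
automorphisms (also the exceptional ones), embeddings of root systems. -/

set_option autoImplicit false
set_option linter.unusedSectionVars false

namespace CA.Chev

open Cfsg.Lie Cfsg.Lie.ChevalleyDatum CA.CG CA.BN Matrix

attribute [-simp] zsmul_eq_mul

variable {D : ChevalleyDatum} [hD : IsRoot D] {F : Type*} [Field F]

/-! ### the checker for `IsDec` -/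

/-- the test for one root -/
def decOK (s : ℕ) (l : List (ℕ × ℤ × ℕ × ℕ)) : Bool :=
  match l.filter (fun c => c.1 = s) with
  | [c] => (c.2.1 == 1 || c.2.1 == -1) && (c.2.2.1 == 1 || c.2.2.2 == 1)
  | _ => false

variable (D) in
noncomputable def chkDec (T : Tab) (w : ℕ) : Bool := allLt (fun s =>
  let a := getF w 8 255 (Nat.mul 2 s)
  let b := getF w 8 255 (Nat.succ (Nat.mul 2 s))
  decide (a < D.nroots ∧ b < D.nroots ∧ b ≠ a ∧ b + a + 1 ≠ D.nroots) &&
    decOK s (commTermsF (chE D T) a b)) D.nroots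

theorem isDec_of_chk {T : Tab} (hA : Agree D T) {w : ℕ} (h : chkDec D T w = true) : IsDec D := by
  refine ⟨fun s => ?_⟩
  have := allLt_iff.1 h s s.2
  simp only [Bool.and_eq_true, decide_eq_true_eq, chE_eq hA, ← commTerms_eq] at this
  obtain ⟨⟨h1, h2, h3, h4⟩, h5⟩ := this
  refine ⟨⟨_, h1⟩, ⟨_, h2⟩, fun e => h3 (congrArg Fin.val e), fun e => h4 ?_, ?_⟩
  · have := congrArg Fin.val e
    have := hD.neg_eq ⟨_, h1⟩
    simp only [neg_val] at *
    omega
  · unfold decOK at h5
    split at h5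
    · rename_i c hc
      exact ⟨c, hc, by simpa using h5⟩
    · simp at h5

/-! ### homomorphisms out of the Chevalley group -/

section Hom

variable [hM : MatFacts D F] [hE : IsEta D]

theorem mem_of_simple {G : Type*} [Group G] {x : Rt D → F → G} (hx : StFam x) {K : Subgroup G}
    (h : ∀ i t, x (simple i) t ∈ K ∧ x (neg (simple i)) t ∈ K) (r : Rt D) : ∀ t, x r t ∈ K := by
  induction r using root_induction with
  | hs i => exact fun t => (h i t).1
  | hstep i s ih =>
    intro t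
    have h1 := hx.nconj (simple i) s 1 (eta (simple i) s * t) one_ne_zero
    rw [_root_.one_zpow, mul_one, ← mul_assoc, eta_mul_self', one_mul, refl_simple] at h1
    have h2 : nG x (simple i) 1 ∈ K := K.mul_mem (K.mul_mem (h i _).1 (h i _).2) (h i _).1
    exact h1 ▸ K.mul_mem (K.mul_mem h2 (ih _)) (K.inv_mem h2)

omit hE in
theorem eq_top_of_xg {K : Subgroup (D.group F)} (h : ∀ r t, xg r t ∈ K) : K = ⊤ := by
  rw [eq_top_iff, ← gen_xg, XS_le]
  intro r _ y hy
  obtain ⟨t, rfl⟩ := mem_rtX.1 hy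
  exact h r t

omit hE in
theorem hom_ext_xg {G : Type*} [Group G] {σ τ : D.group F →* G} (h : ∀ r t, σ (xg r t) = τ (xg r t)) :
    σ = τ := MonoidHom.ext fun g => (eq_top_of_xg (K := σ.eqLocus τ) h).ge (Subgroup.mem_top g)

theorem hom_ext_simple {G : Type*} [Group G] {σ τ : D.group F →* G}
    (h : ∀ i t, σ (xg (simple i) t) = τ (xg (simple i) t) ∧
      σ (xg (neg (simple i)) t) = τ (xg (neg (simple i)) t)) : σ = τ :=
  hom_ext_xg (mem_of_simple stFam_xg (K := σ.eqLocus τ) h)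

variable [IsDec D]

/-- A family satisfying Steinberg's relations whose torus factors through the adjoint torus defines a
homomorphism on the Chevalley group. -/
theorem exists_hom_of_tor {G : Type*} [Group G] {y : Rt D → F → G} (hy : StFam y)
    (h : ∀ c, tor D F c = 1 → torG hy c = 1) : ∃ σ : D.group F →* G, ∀ r t, σ (xg r t) = y r t := by
  obtain ⟨θ, hθ⟩ := exists_theta D F
  obtain ⟨ψ, hψ⟩ := exists_stLift hy.toStRel hy.hmul
  have hs := surjective_of_hom θ hθ
  have hk : θ.ker ≤ ψ.ker := fun g hg => by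
    obtain ⟨c, rfl⟩ := closure_hG_le stFam_stx (ker_le_H stFam_stx gen_stx θ hθ hg)
    rw [MonoidHom.mem_ker, theta_torG _ θ hθ] at hg
    rw [MonoidHom.mem_ker, map_torG, ← h c hg]
    congr 2
    funext r t
    exact hψ r t
  refine ⟨θ.liftOfSurjective hs ⟨ψ, hk⟩, fun r t => ?_⟩
  rw [← hθ, MonoidHom.liftOfRightInverse_comp_apply, hψ]

omit hM in
theorem torG_conj {G : Type*} [Group G] {y : Rt D → F → G} (hy : StFam y) (c : Nd D → Fˣ) (r : Rt D)
    (t : F) : torG hy c * y r t * (torG hy c)⁻¹ = y r (chi c (wt r) * t) := by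
  rw [← Finset.univ_prod_mulSingle c]
  induction (Finset.univ : Finset (Nd D)) using Finset.induction_on generalizing t with
  | empty => simp
  | insert i s hi ih =>
    rw [Finset.prod_insert hi, map_mul, torG_single, chi_mul, _root_.mul_inv_rev,
      ← mul_assoc, mul_assoc (hG _ _ _), mul_assoc (hG _ _ _), ih, hy.hconj _ _ (c i).ne_zero]
    congr 1
    have : chi (Pi.mulSingle i (c i)) (wt r) = c i ^ wt r i := by
      rw [chi, Finset.prod_eq_single i (fun j _ hj => by simp [hj]) (by simp), Pi.mulSingle_eq_same]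
    rw [this, pr_simple, Units.val_mul, Units.val_zpow_eq_zpow_val, mul_assoc]

theorem exists_hom_of_fam {D' : ChevalleyDatum} [IsRoot D'] [IsEta D'] {F' : Type*} [Field F']
    [MatFacts D' F'] {y : Rt D → F → D'.group F'} (hy : StFam y)
    (h1 : ∀ i t, t ≠ 0 → hG y (simple i) t ∈ (tor D' F').range)
    (h2 : ∀ i, ∃ r t t', t' ≠ 0 ∧ y r t = xg (simple i) t') :
    ∃ σ : D.group F →* D'.group F', ∀ r t, σ (xg r t) = y r t := by
  refine exists_hom_of_tor hy fun c hc => eq_one_of_H (cartanCox_coxM D') ?_ fun i => ?_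
  · rw [gam_H, ← Finset.univ_prod_mulSingle c]
    induction (Finset.univ : Finset (Nd D)) using Finset.induction_on with
    | empty => simp
    | insert i s hi ih =>
      rw [Finset.prod_insert hi, map_mul, torG_single]
      exact Subgroup.mul_mem _ (h1 i _ (c i).ne_zero) ih
  · obtain ⟨r, t, t', ht, e⟩ := h2 i
    refine ⟨t', ht, ?_⟩
    rw [← e, torG_conj, chi_wt]
    simp [(tor_eq_one_iff c).1 hc]

end Hom

/-! ### field maps -/

section FieldMap

variable {F' : Type*} [Field F'] (φ : F →+* F')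

theorem x_map (r : Rt D) (t : F) : (D.x F r t).map φ = D.x F' r (φ t) := by
  ext a b
  simp only [Matrix.map_apply, x_entry, map_add, map_mul, map_pow, map_intCast]
  split_ifs <;> simp

variable [MatFacts D F] [MatFacts D F']

theorem glMap_X (r : Rt D) (t : F) : Matrix.GeneralLinearGroup.map φ (X r t) = X r (φ t) :=
  Units.ext (x_map φ r t)

variable (D) in
/-- The homomorphism induced by a homomorphism of fields. -/
def fieldHom : D.group F →* D.group F' :=
  ((Matrix.GeneralLinearGroup.map φ).comp (D.group F).subtype).codRestrict _ fun g =>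
    (eq_top_of_xg (K := (D.group F').comap ((Matrix.GeneralLinearGroup.map φ).comp (D.group F).subtype))
      fun r t => by
        rw [Subgroup.mem_comap, MonoidHom.comp_apply, Subgroup.coe_subtype, xg_coe, glMap_X]
        exact X_mem_group _ _).ge (Subgroup.mem_top g)

theorem mat_fieldHom (g : D.group F) : mat (fieldHom D φ g) = (mat g).map φ := rfl

@[simp] theorem fieldHom_xg (r : Rt D) (t : F) : fieldHom D φ (xg r t) = xg r (φ t) :=
  Subtype.ext (glMap_X φ r t)

theorem fieldHom_injective : Function.Injective (fieldHom D φ) := fun _ _ h =>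
  mat_inj (Matrix.map_injective φ.injective (congrArg mat h))

theorem fieldHom_surjective (hφ : Function.Surjective φ) : Function.Surjective (fieldHom D φ) :=
  MonoidHom.range_eq_top.1 (eq_top_of_xg fun r t => by
    obtain ⟨t, rfl⟩ := hφ t
    exact ⟨_, fieldHom_xg φ r t⟩)

end FieldMap

/-! ### twisted families -/

/-- normalised terms of the commutator of the images -/
def nrmA (p : ℤ) (ε : ℕ → ℤ) (e : ℕ → ℕ) (r s : ℕ) (l : List (ℕ × ℤ × ℕ × ℕ)) : List (ℕ × ℤ × ℕ × ℕ) :=
  (l.map fun c => (c.1, c.2.1 * (-ε r) ^ c.2.2.1 * ε s ^ c.2.2.2 % p, e r * c.2.2.1, e s * c.2.2.2)).filter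
    fun c => c.2.1 ≠ 0

/-- normalised images of the terms of the commutator -/
def nrmB (p : ℤ) (ρ : ℕ → ℕ) (ε : ℕ → ℤ) (e : ℕ → ℕ) (l : List (ℕ × ℤ × ℕ × ℕ)) :
    List (ℕ × ℤ × ℕ × ℕ) :=
  (l.map fun c => (ρ c.1, ε c.1 * c.2.1 * (-1) ^ c.2.2.1 % p, e c.1 * c.2.2.1, e c.1 * c.2.2.2)).filter
    fun c => c.2.1 ≠ 0

/-- the commutator formula is preserved modulo `p` -/
def TwOK (ct ct' : ℕ → ℕ → List (ℕ × ℤ × ℕ × ℕ)) (n' : ℕ) (p : ℤ) (ρ : ℕ → ℕ) (ε : ℕ → ℤ) (e : ℕ → ℕ)
    (r s : ℕ) : Prop :=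
  (nrmA p ε e r s (ct' (ρ r) (ρ s))).Perm (nrmB p ρ ε e (ct r s)) ∧
    (nrmA p ε e r s (ct' (ρ r) (ρ s))).Pairwise fun a b => a.1 = b.1 ∨
      (a.1 + b.1 + 1 ≠ n' ∧ ∀ c ∈ ct' a.1 b.1, c.2.1 % p = 0)

instance decTwOK (ct ct' : ℕ → ℕ → List (ℕ × ℤ × ℕ × ℕ)) (n' : ℕ) (p : ℤ) (ρ : ℕ → ℕ) (ε : ℕ → ℤ)
    (e : ℕ → ℕ) (r s : ℕ) : Decidable (TwOK ct ct' n' p ρ ε e r s) := by
  unfold TwOK; infer_instance

/-- A map of roots with signs and exponents compatible with the commutator formula modulo `p`. -/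
structure TwData (D D' : ChevalleyDatum) (p : ℤ) (ρ : ℕ → ℕ) (ε : ℕ → ℤ) (e : ℕ → ℕ) : Prop where
  lt : ∀ r < D.nroots, ρ r < D'.nroots
  neg : ∀ r < D.nroots, ρ (D.neg r) = D'.neg (ρ r) ∧ ε (D.neg r) = ε r ∧ e (D.neg r) = e r
  sq : ∀ r, ε r * ε r = 1
  inj : ∀ r < D.nroots, ∀ s < D.nroots, ρ r = ρ s → r = s
  terms : ∀ r < D.nroots, ∀ s < D.nroots, TwOK D.commTerms D'.commTerms D'.nroots p ρ ε e r s

noncomputable def chkTw (D D' : ChevalleyDatum) (T T' : Tab) (p : ℤ) (ρ σ e : ℕ → ℕ) : Bool :=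
  allLt (fun r => bAnd (decide (ρ r < D'.nroots ∧ ρ (D.nroots - 1 - r) + ρ r + 1 = D'.nroots ∧
      σ (D.nroots - 1 - r) = σ r ∧ e (D.nroots - 1 - r) = e r))
    (allLt (fun s => bAnd (bOr (Nat.beq r s) (Bool.not (Nat.beq (ρ r) (ρ s))))
      (bOr (Nat.beq (Nat.add (Nat.add (T.fld r s) (T.fld s r))
        (Nat.add (T'.fld (ρ r) (ρ s)) (T'.fld (ρ s) (ρ r)))) 0)
      (decide (TwOK (commTermsF (chE D T)) (commTermsF (chE D' T')) D'.nroots p ρ
        (fun k => (-1) ^ σ k) e r s)))) D.nroots)) D.nroots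

theorem twData_of_chk {D' : ChevalleyDatum} [hD' : IsRoot D'] {T T' : Tab} (hA : Agree D T)
    (hA' : Agree D' T') {p : ℤ} {ρ σ e : ℕ → ℕ} (h : chkTw D D' T T' p ρ σ e = true) :
    TwData D D' p ρ (fun k => (-1) ^ σ k) e := by
  simp only [chkTw, allLt_iff, bAnd_eq, bOr_eq, Bool.and_eq_true, Bool.or_eq_true, decide_eq_true_eq,
    Nat.beq_eq, Bool.not_eq_true', ← Bool.not_eq_true, Nat.add_eq, chE_eq hA, chE_eq hA'] at h
  refine ⟨fun r hr => (h r hr).1.1, fun r hr => ?_, fun r => by rw [← mul_pow]; simp,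
    fun r hr s hs e => ((h r hr).2 s hs).1.resolve_right (not_not.2 e), fun r hr s hs => ?_⟩
  · obtain ⟨h1, h2, h3, h4⟩ := (h r hr).1
    have e1 : D.neg r = D.nroots - 1 - r := by have := hA.neg r hr; omega
    have := hA'.neg _ h1
    rw [e1]
    exact ⟨by omega, by rw [h3], h4⟩
  · refine ((h r hr).2 s hs).2.elim (fun h0 => ?_) id
    have h1 := (h r hr).1.1
    have h2 := (h s hs).1.1
    have key : ∀ {E : ChevalleyDatum} {a b : ℕ}, E.chainEntry a b = [] → E.chainEntry b a = [] →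
        E.commTerms a b = [] := fun e1 e2 => by
      rw [commTerms_eq, commTermsF_short (by simp [e1]) (by simp [e2]), e1]; rfl
    have z : ∀ (T : Tab) a b, T.fld a b = 0 → T.ch a b = [] := fun T a b e => by rw [Tab.ch, e]; rfl
    unfold TwOK
    rw [key (E := D) (by rw [hA.entry r hr s hs, z _ _ _ (by omega)])
        (by rw [hA.entry s hs r hr, z _ _ _ (by omega)]),
      key (E := D') (by rw [hA'.entry _ h1 _ h2, z _ _ _ (by omega)])
        (by rw [hA'.entry _ h2 _ h1, z _ _ _ (by omega)])]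
    simp [nrmA, nrmB]

section Tw

variable {D' : ChevalleyDatum} [hD' : IsRoot D'] [IsEta D'] {F' : Type*} [Field F'] {p : ℤ}
  {ρ : ℕ → ℕ} {ε : ℕ → ℤ} {e : ℕ → ℕ} (h : TwData D D' p ρ ε e)

/-- the map on roots -/
def TwData.rt (r : Rt D) : Rt D' := ⟨ρ r, h.lt r r.2⟩

theorem TwData.rt_neg (r : Rt D) : h.rt (CA.Chev.neg r) = CA.Chev.neg (h.rt r) :=
  Fin.ext (h.neg r r.2).1

theorem TwData.rt_injective : Function.Injective h.rt := fun r s e =>
  Fin.ext (h.inj r r.2 s s.2 (congrArg Fin.val e))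

variable {G : Type*} [Group G] {x : Rt D' → F' → G}

theorem prod_filter_terms (hx : StRel x) (T U : F') (l : List (ℕ × ℤ × ℕ × ℕ)) :
    ((l.filter fun c => c.2.1 ≠ 0).map fun c => xN x c.1 (c.2.1 * T ^ c.2.2.1 * U ^ c.2.2.2)).prod =
      (l.map fun c => xN x c.1 (c.2.1 * T ^ c.2.2.1 * U ^ c.2.2.2)).prod := by
  induction l with
  | nil => rfl
  | cons c l ih =>
    by_cases hc : c.2.1 = 0
    · rw [List.filter_cons_of_neg (by simpa using hc), ih, List.map_cons, List.prod_cons, hc]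
      unfold xN
      split_ifs <;> simp [hx.zero]
    · rw [List.filter_cons_of_pos (by simpa using hc), List.map_cons, List.map_cons, List.prod_cons,
        List.prod_cons, ih]

theorem TwData.hG_eq (hx : StFam x) (φ : Rt D → F →+* F') (hφ : ∀ r, φ (CA.Chev.neg r) = φ r) (r : Rt D)
    {t : F} (ht : t ≠ 0) : hG (fun r t => x (h.rt r) (ε r * φ r t)) r t = hG x (h.rt r) (φ r t) := by
  have hsq : (ε r : F') * ε r = 1 := by exact_mod_cast congrArg (Int.cast (R := F')) (h.sq r)
  have hn : ∀ t, nG (fun r t => x (h.rt r) (ε r * φ r t)) r t = nG x (h.rt r) (ε r * φ r t) := by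
    intro t
    simp only [nG, h.rt_neg, neg_val, (h.neg r r.2).2.1, hφ]
    rw [map_neg, map_inv₀, mul_inv, ← eq_inv_of_mul_eq_one_left hsq, mul_neg]
  rw [hG, hn, hn, map_neg, map_one, mul_neg_one,
    hx.nG_mul_nG _ (left_ne_zero_of_mul_eq_one hsq) ((map_ne_zero _).2 ht)]

theorem TwData.stFam [IsEta D] [IsDec D] [MatFacts D F] (hx : StFam x) (hp : (p : F') = 0) (ψ : F →+* F')
    (φ : Rt D → F →+* F') (hφ : ∀ r t, φ r t = ψ t ^ e r) :
    StFam fun r t => x (h.rt r) (ε r * φ r t) := by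
  have hmod : ∀ a : ℤ, ((a % p : ℤ) : F') = a := fun a => by rw [Int.emod_def]; simp [hp]
  have hh := fun r t ht => h.hG_eq hx φ (fun r => RingHom.ext fun t => by
    rw [hφ, hφ, neg_val, (h.neg r r.2).2.2]) r (t := t) ht
  refine stFam_of_rel ⟨fun r t u => by rw [map_add, mul_add, hx.add], fun r s h1 h2 t u => ?_⟩
    fun r t u ht hu => by
      rw [hh _ _ ht, hh _ _ hu, hh _ _ (mul_ne_zero ht hu), map_mul,
        hx.hmul _ _ _ ((map_ne_zero _).2 ht) ((map_ne_zero _).2 hu)]
  rw [hx.comm (h.rt r) (h.rt s) (h.rt_injective.ne h1) (by rw [← h.rt_neg]; exact h.rt_injective.ne h2)]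
  congr 1
  obtain ⟨k1, k2⟩ := h.terms r r.2 s s.2
  have k3 := (k1.map fun c => xN x c.1 (c.2.1 * ψ t ^ c.2.2.1 * ψ u ^ c.2.2.2)).prod_eq' (by
    rw [List.pairwise_map]
    refine k2.imp fun {a b} hab => ?_
    unfold xN
    split_ifs with ha hb hb
    · by_cases hab' : a.1 = b.1
      · simp only [hab']; exact hx.toStRel.commute_self _ _ _
      · obtain ⟨h3, h4⟩ := hab.resolve_left hab'
        rw [Commute, SemiconjBy, hx.comm ⟨a.1, ha⟩ ⟨b.1, hb⟩ (fun e => hab' (congrArg Fin.val e).symm)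
          (fun e => h3 (by
            have := congrArg Fin.val e
            have := hD'.neg_eq ⟨a.1, ha⟩
            simp only [neg_val] at *
            omega))]
        refine (mul_eq_left.2 (Subgroup.mem_bot.1 (wordG_mem x fun q hq _ => ?_))).symm
        obtain ⟨c, hc, rfl⟩ := List.mem_map.1 hq
        simp only [← hmod c.2.1, h4 c hc, Int.cast_zero, zero_mul, hx.toStRel.zero, Subgroup.mem_bot]
    all_goals simp)
  rw [nrmA, nrmB, prod_filter_terms hx.toStRel, prod_filter_terms hx.toStRel, List.map_map,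
    List.map_map] at k3
  simp only [wordG, ChevalleyDatum.commWord, List.map_map]
  convert k3 using 2
  · refine List.map_congr_left fun c _ => ?_
    simp only [Function.comp, hmod, hφ, pow_mul]
    congr 1
    push_cast
    rw [← neg_mul, mul_pow, mul_pow]; ring
  · refine List.map_congr_left fun c hc => ?_
    obtain ⟨-, -, h3, -⟩ := commTerms_spec hc
    simp only [Function.comp, hmod, xN_of_lt _ h3, xN_of_lt _ (h.lt _ h3), map_mul, map_pow, map_neg,
      map_intCast, pow_mul]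
    rw [hφ, hφ]
    congr 1
    push_cast
    rw [neg_pow (ψ t ^ _)]; ring

/-- The homomorphism of Chevalley groups defined by a twisting datum whose image contains the
fundamental roots. -/
theorem TwData.exists_hom [IsEta D] [IsDec D] [MatFacts D F] [MatFacts D' F'] (hp : (p : F') = 0)
    (ψ : F →+* F') (φ : Rt D → F →+* F') (hφ : ∀ r t, φ r t = ψ t ^ e r)
    (hs : ∀ i, ∃ r, h.rt r = simple i) :
    ∃ σ : D.group F →* D'.group F', ∀ r t, σ (xg r t) = xg (h.rt r) (ε r * φ r t) := by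
  refine exists_hom_of_fam (h.stFam stFam_xg hp ψ φ hφ) (fun i t ht => ?_) fun i => ?_
  · rw [h.hG_eq stFam_xg φ (fun r => RingHom.ext fun t => by
      rw [hφ, hφ, neg_val, (h.neg r r.2).2.2]) _ ht]
    have := hG_eq_tor (h.rt (simple i)) (Units.mk0 (φ (simple i) t) ((map_ne_zero _).2 ht))
    rw [Units.val_mk0] at this
    exact ⟨_, this.symm⟩
  · obtain ⟨r, hr⟩ := hs i
    have hsq : (ε r : F') * ε r = 1 := by exact_mod_cast congrArg (Int.cast (R := F')) (h.sq r)
    exact ⟨r, 1, ε r, left_ne_zero_of_mul_eq_one hsq, by rw [hr, map_one, mul_one]⟩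

end Tw

/-- A twisting datum of a type to itself, with its action on the fundamental roots. -/
theorem TwData.exists_simple [IsEta D] [IsDec D] [MatFacts D F] {p : ℤ} {ρ : ℕ → ℕ} {ε : ℕ → ℤ}
    {e : ℕ → ℕ} (h : TwData D D p ρ ε e) (hp : (p : F) = 0) (ψ : F →+* F) (φ : ℕ → F →+* F)
    (hφ : ∀ (r : Rt D) t, φ (e r) t = ψ t ^ e r) (π : Equiv.Perm (Nd D))
    (hπ : ∀ i : Nd D, ρ (D.simple i) = D.simple (π i) ∧ ε (D.simple i) = 1) :
    ∃ σ : D.group F →* D.group F, (∀ r t, σ (xg r t) = xg (h.rt r) (ε r * φ (e r) t)) ∧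
      (∀ i t, σ (xg (simple i) t) = xg (simple (π i)) (φ (e (D.simple i)) t)) ∧
      ∀ i t, σ (xg (CA.Chev.neg (simple i)) t) = xg (CA.Chev.neg (simple (π i))) (φ (e (D.simple i)) t) := by
  have h1 : ∀ i, h.rt (simple i) = simple (π i) := fun i => Fin.ext (hπ i).1
  obtain ⟨σ, hσ⟩ := h.exists_hom hp ψ (fun r => φ (e r)) hφ fun i => ⟨_, by
    rw [h1 (π.symm i), Equiv.apply_symm_apply]⟩
  refine ⟨σ, hσ, fun i t => ?_, fun i t => ?_⟩
  · rw [hσ, h1, simple_val, (hπ i).2, Int.cast_one, one_mul]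
  · have := h.neg _ (simple i).2
    rw [hσ, h.rt_neg, h1, neg_val, this.2.1, this.2.2, simple_val, (hπ i).2, Int.cast_one, one_mul]

/-- the field map `t ↦ ψ(t)^k` for `k = 1` or `k = p` -/
def expHom (p : ℕ) [Fact p.Prime] [CharP F p] (ψ : F →+* F) (k : ℕ) : F →+* F :=
  if k = 1 then ψ else (frobenius F p).comp ψ

theorem expHom_apply {p : ℕ} [Fact p.Prime] [CharP F p] (ψ : F →+* F) {k : ℕ} (h : k = 1 ∨ k = p) (t : F) :
    expHom p ψ k t = ψ t ^ k := by
  unfold expHom
  split_ifs with h1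
  · rw [h1, pow_one]
  · rw [h.resolve_left h1]; rfl

/-- An endomorphism some power of which is a field automorphism on the fundamental root elements
is bijective. -/
theorem bijective_of_pow [IsEta D] [MatFacts D F] (σ : D.group F →* D.group F) (n : ℕ) (φ : F →+* F)
    (hφ : Function.Surjective φ) (h : ∀ i t, σ^[n + 1] (xg (simple i) t) = xg (simple i) (φ t) ∧
      σ^[n + 1] (xg (neg (simple i)) t) = xg (neg (simple i)) (φ t)) : Function.Bijective σ := by
  have e : ((show Monoid.End (D.group F) from σ) ^ (n + 1) : Monoid.End (D.group F)) = fieldHom D φ :=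
    hom_ext_simple fun i t => by
      rw [fieldHom_xg, fieldHom_xg]
      exact ⟨(congrFun (Monoid.End.coe_pow _ _ _) _).trans (h i t).1,
        (congrFun (Monoid.End.coe_pow _ _ _) _).trans (h i t).2⟩
  have e' : σ^[n + 1] = fieldHom D φ := by rw [← e]; exact (Monoid.End.coe_pow _ _ _).symm
  refine ⟨Function.Injective.of_comp (f := σ^[n]) ?_, Function.Surjective.of_comp (g := σ^[n]) ?_⟩
  · rw [← Function.iterate_succ, e']; exact fieldHom_injective φ
  · rw [← Function.iterate_succ', e']; exact fieldHom_surjective φ hφ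

end CA.Chev
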