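import Cfsg.Agent.Lib.Chev.RootCheck
import Cfsg.Prelude.Def_ChevB2

/-! Fast tables and root combinatorics for type B2 (generated). -/

set_option autoImplicit false
set_option maxRecDepth 100000

namespace CA.Chev

open Cfsg.Lie

/-- fast tables for type B2 -/
def tabB2 : Tab where
  n := 8
  w := 24
  wm := 0xffffff
  rw := 192
  rm := 0xffffffffffffffffffffffffffffffffffffffffffffffff
  off := 520
  caT := 0x897a6978a8a6a686
  coT := 0x9a89786799988777
  rcT := 0x99897877a9988776
  rfT := 0x7050603040102000406020700050103
  sgT := 0x5aff
  wcT := 0x20a000000000000024800000000000001ca0000000000000286000000000000018a000000000000024600000000000001c80000000000000206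
  chT := 0x3300002d00000000000000000000003a00000003d02b00002600000002501500000000003e00000003b03300000000000000001e01b00b00000000000000003500000000000000000000001300000000000000002d00000000000000000000000b00000000000002303500002200000000000000300d00000000000200000001d02b00000000001a00501500000000000600000000000000000000001300000d000000000000000000000000000000

theorem chkAgreeB2 : chkAgree chevB2 tabB2 = true := by decide +kernel

theorem chkChB2 : chkCh chevB2 tabB2 = true := by decide +kernel

theorem chkRfB2 : chkRf chevB2 tabB2 = true := by decide +kernel

theorem agreeB2 : Agree chevB2 tabB2 := agree_of_chk chkAgreeB2 chkChB2 chkRfB2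

theorem chk1B2 : chk1 chevB2 tabB2 [0, 0] [0, 1] = true := by decide +kernel

theorem chk2B2 : chk2 chevB2 tabB2 = true := by decide +kernel

theorem chk3B2 : chk3 chevB2 tabB2 [33, 34] 0x9696 2 [[2, 2], [1, 2]] = true := by decide +kernel

theorem chk4B2 : chk4 chevB2 tabB2 = true := by decide +kernel

instance isRootB2 : IsRoot chevB2 := isRoot_of_chk agreeB2 chk1B2 chk2B2 chk3B2 chk4B2

end CA.Chev
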