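import Cfsg.Agent.Lib.Chev.Check
import Cfsg.Agent.Lib.Chev.TabB2

/-! Verification of the relations between the root elements for type B2 (generated). -/

set_option autoImplicit false
set_option maxRecDepth 100000

namespace CA.Chev

open Cfsg.Lie

theorem chkCompatB2_0 : chkCompat chevB2 tabB2 0 8 = true := by decide +kernel

theorem chkCompatB2 : chkCompat chevB2 tabB2 0 chevB2.nroots = true := chkCompatB2_0

theorem chkSignB2 : chkSign chevB2 tabB2 = true := by decide +kernel

theorem chkTermsB2 : allLt (fun i => chkTerms chevB2 tabB2 (tabB2.rf i) (tabB2.sg i)) chevB2.rank = true := by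
  decide +kernel

theorem chkAddB2 : chkAdd chevB2 tabB2 = true := by decide +kernel

theorem chkCommB2 : chkComm chevB2 tabB2 = true := by decide +kernel

theorem chkNB2 : allLt (chkN chevB2 tabB2) chevB2.rank = true := by decide +kernel

theorem signOKB2 : SignOK chevB2 tabB2.sg := signOK_of_chk agreeB2 chkCompatB2 chkSignB2 (Or.inr chkTermsB2)

theorem weakB2 (F : Type*) [Field F] : WeakFacts chevB2 F tabB2.sg :=
  weakFacts_of_chk agreeB2 chkAddB2 chkCommB2 chkNB2

instance isEtaB2 : IsEta chevB2 := isEta_of_weak signOKB2 (weakB2 ℚ)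

instance matFactsB2 (F : Type*) [Field F] : MatFacts chevB2 F :=
  matFacts_of_weak signOKB2 (weakB2 ℚ) (weakB2 F)

end CA.Chev
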