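import Cfsg.Agent.Lib.Chev.Aut
import Cfsg.Agent.Lib.Chev.InstB2

/-! Steinberg relations and graph automorphisms for type B2 (generated tables). -/

set_option autoImplicit false
set_option maxRecDepth 100000

namespace CA.Chev

open Cfsg.Lie CA.CG

theorem chkDecB2 : chkDec chevB2 tabB2 0x6030702070106000500060005000401 = true := by
  decide +kernel

instance isDecB2 : IsDec chevB2 := isDec_of_chk agreeB2 chkDecB2

/-- the map on roots -/
def rhoB2 (k : ℕ) : ℕ := getF 0x607040502030001 8 255 k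
/-- the exponents -/
def expB2 (k : ℕ) : ℕ := getF 0x6969 2 3 k

theorem chkTwB2 : chkTw chevB2 chevB2 tabB2 tabB2 2 rhoB2 (fun _ => 0) (expB2) = true := by
  decide +kernel

theorem twB2 : TwData chevB2 chevB2 2 rhoB2 (fun k => (-1) ^ (fun _ => 0) k) (expB2) :=
  twData_of_chk agreeB2 agreeB2 chkTwB2

theorem expB2_cases : ∀ r : Rt chevB2, expB2 r = 1 ∨ expB2 r = 2 := by decide +kernel

theorem expB2_simple : ∀ i : Nd chevB2, expB2 (chevB2.simple i) = [2, 1].getD i 0 := by decide +kernel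

/-- The exceptional graph endomorphism followed by the field map `ψ`. -/
theorem graphB2 {F : Type*} [Field F] [CharP F 2] (ψ : F →+* F) (π : Equiv.Perm (Nd chevB2))
    (hπ : ∀ i : Nd chevB2, (π i : ℕ) = [1, 0].getD i 0) :
    ∃ σ : chevB2.group F →* chevB2.group F,
      (∀ r t, σ (xg r t) = xg (twB2.rt r) (ψ t ^ expB2 r)) ∧
      (∀ i t, σ (xg (simple i) t) = xg (simple (π i)) (expHom 2 ψ ([2, 1].getD i 0) t)) ∧
      ∀ i t, σ (xg (neg (simple i)) t) = xg (neg (simple (π i))) (expHom 2 ψ ([2, 1].getD i 0) t) := by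
  obtain ⟨σ, h1, h2⟩ := twB2.exists_simple (F := F) (by exact_mod_cast CharP.cast_eq_zero F 2) ψ
    (expHom 2 ψ) (fun r => expHom_apply ψ (expB2_cases r)) π fun i => by
      rw [hπ]; revert i; decide +kernel
  refine ⟨σ, fun r t => ?_, by simpa only [expB2_simple] using h2⟩
  rw [h1, expHom_apply ψ (expB2_cases r)]
  simp

/-- the symmetry of the diagram -/
def permB2 : Equiv.Perm (Nd chevB2) :=
  (⟨![1, 0], ![1, 0], by decide, by decide⟩ : Equiv.Perm (Fin 2))

theorem permB2_val : ∀ i : Nd chevB2, (permB2 i : ℕ) = [1, 0].getD i 0 := by decide +kernel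

end CA.Chev
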