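import Cfsg.Agent.Lib.Chev.Inst
import Cfsg.Agent.Lib.Chev.AutG2
import Cfsg.Agent.Lib.Chev.AutB2
import Cfsg.Agent.Lib.Chev.AutD4
import Cfsg.Agent.Lib.Chev.AutF4
import Cfsg.Agent.Lib.Chev.AutE6
import Cfsg.Agent.Lib.Chev.AutE7
import Cfsg.Agent.Lib.Chev.AutE8

/-! `IsDec` for the seven tabulated types (generated tables). -/

set_option autoImplicit false
set_option maxRecDepth 100000

namespace CA.Chev

open Cfsg.Lie CA.CG

open Cfsg.Lie in
theorem isDec_of_mem {D : ChevalleyDatum}
    (hD : D ∈ [chevG2, chevB2, chevD4, chevF4, chevE6, chevE7, chevE8]) : @IsDec D (isRoot_of_mem hD) := by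
  simp only [List.mem_cons, List.not_mem_nil, or_false] at hD
  rcases hD with rfl | rfl | rfl | rfl | rfl | rfl | rfl <;> infer_instance

end CA.Chev
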