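import Cfsg.Agent.Lib.Chev.E6Cubic
import Cfsg.Agent.Lib.CG.Types

/-! The isometry group of the cubic form in 27 variables is generated by the root elements. -/

set_option autoImplicit false
set_option maxRecDepth 100000

namespace CA.E6C

open Cfsg.Lie CA.Chev CA.CG CA.BN Matrix

variable {F : Type*} [Field F]

theorem stFam_u : StFam fun (r : Rt chevE6) (t : F) => (uN (N F r) (N_sq r) t : GL I27 F) :=
  stFam_of_nil (fun r : Rt chevE6 => N F r) N_sq N_neg N_comm

theorem u_mem (r : Rt chevE6) (t : F) : (uN (N F r) (N_sq r) t : GL I27 F) ∈ E6univ F :=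
  mem_of_simple stFam_u (K := E6univ F) (fun i t => ⟨cubicT_x (chk_inv i).1 t,
    cubicT_x (by rw [neg_val']; exact (chk_inv i).2) t⟩) r t

/-- the root elements -/
def y (r : Rt chevE6) (t : F) : E6univ F := ⟨_, u_mem r t⟩

theorem stFam_y : StFam (y (F := F)) :=
  stFam_of_map (E6univ F).subtype (E6univ F).subtype_injective stFam_u

/-- the action on vectors -/
def act (g : E6univ F) : (I27 → F) →ₗ[F] (I27 → F) := toLin' ((g : GL I27 F) : Matrix I27 I27 F)

theorem act_mul (g h : E6univ F) (v : I27 → F) : act (g * h) v = act g (act h v) := by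
  simp [act]

@[simp] theorem act_one (v : I27 → F) : act 1 v = v := by simp [act]

theorem act_inv (g : E6univ F) (v : I27 → F) : act g (act g⁻¹ v) = v := by
  rw [← act_mul, mul_inv_cancel, act_one]

theorem inv_act (g : E6univ F) (v : I27 → F) : act g⁻¹ (act g v) = v := by
  rw [← act_mul, inv_mul_cancel, act_one]

theorem cubicT_act (g : E6univ F) (v : I27 → F) : cubicT (act g v) = cubicT v := g.2 v

theorem ff_act (g : E6univ F) (u v w : I27 → F) : ff (act g u) (act g v) (act g w) = ff u v w := by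
  simp only [ff_eq, ← map_add, cubicT_act]

theorem sing_act (hF : ∃ a : F, a ≠ 0 ∧ a ≠ 1) (g : E6univ F) {v : I27 → F} (hv : ∀ w, Qf v w = 0)
    (w : I27 → F) : Qf (act g v) w = 0 := by
  obtain ⟨a, h0, h1⟩ := hF
  have h2 : a ^ 2 - a ≠ 0 := by
    rw [show a ^ 2 - a = a * (a - 1) by ring]; exact mul_ne_zero h0 (sub_ne_zero.2 h1)
  obtain ⟨w', rfl⟩ : ∃ w', w = act g w' := ⟨_, (act_inv g w).symm⟩
  have := Qf_eq a (act g v) (act g w')
  simp only [← map_add, ← map_smul, cubicT_act] at this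
  rwa [← Qf_eq, hv, mul_zero, mul_eq_zero_iff_left h2] at this

theorem cv_y {r : ℕ} (hr : r < 72) (t : F) (v : I27 → F) {n : ℕ} (hn : n < 27) :
    cv n (act (xN y r t) v) = cv n v + t * (sg r n * cv (src r n) v) := by
  rw [xN_of_lt y hr, ← cv_N r hn, ← smul_eq_mul, ← map_smul, ← map_add]
  change cv n ((1 + t • N F r) *ᵥ v) = _
  rw [add_mulVec, one_mulVec, smul_mulVec]

theorem chk_rt : ∀ p < 27, ∀ j < 27, j = p ∨ tsg p j ≠ 0 ∨ (rt p j < 72 ∧ src (rt p j) j = p ∧
    sg (rt p j) j ≠ 0 ∧ ∀ k < 27, sg (rt p j) k = 0 ∨ k = j ∨ (tsg p k ≠ 0 ∧ src (rt p j) k ≠ p)) := by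
  decide +kernel

theorem sg_ne_zero {r n : ℕ} (hr : r < 72) (hn : n < 27) (h : sg r n ≠ 0) : (sg r n : F) ≠ 0 := by
  rcases ((chk_single r hr n hn).2.2.resolve_left h).1 with e | e <;> simp [e]

variable (hF : ∃ a : F, a ≠ 0 ∧ a ≠ 1) {K : Subgroup (E6univ F)}
include hF

theorem clear {v : I27 → F} (hv : ∀ w, Qf v w = 0) {p : ℕ} (hp : p < 27) (h0 : cv p v ≠ 0)
    (hK : ∀ j < 27, j ≠ p → tsg p j = 0 → cv j v = 0 ∨ ∀ t, xN y (rt p j) t ∈ K) :
    ∃ s ∈ K, act s v = cv p v • ev p := by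
  have key : ∀ n, ∃ s ∈ K, ∀ k < 27, tsg p k = 0 →
      cv k (act s v) = if k < n ∧ k ≠ p then 0 else cv k v := by
    intro n
    induction n with
    | zero => exact ⟨1, K.one_mem, by simp⟩
    | succ n ih =>
      obtain ⟨s, hs, h⟩ := ih
      by_cases hn : n < 27 ∧ n ≠ p ∧ tsg p n = 0 ∧ cv n v ≠ 0
      · obtain ⟨a1, a2, a3, a4⟩ := hn
        obtain ⟨b1, b2, b3, b4⟩ := ((chk_rt p hp n a1).resolve_left a2).resolve_left (not_not.2 a3)
        refine ⟨xN y (rt p n) (-cv n v / (sg (rt p n) n * cv p v)) * s,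
          K.mul_mem ((hK n a1 a2 a3).resolve_left a4 _) hs, fun k hk e => ?_⟩
        rw [act_mul, cv_y b1 _ _ hk, h k hk e]
        by_cases hkn : k = n
        · have := sg_ne_zero (F := F) b1 a1 b3
          rw [hkn, b2, h p hp (chk_tri p hp).1]
          simp only [lt_irrefl, false_and, if_false, ne_eq, not_true, and_false, a2, Nat.lt_succ_self,
            not_false_eq_true, and_self, if_true]
          field_simp
          ring
        · rw [(b4 k hk).resolve_right (by simp [hkn, e])]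
          have : k < n + 1 ↔ k < n := by omega
          simp only [this, Int.cast_zero, zero_mul, mul_zero, add_zero]
      · refine ⟨s, hs, fun k hk e => ?_⟩
        rw [h k hk e]
        by_cases hkn : k = n
        · subst hkn
          by_cases h1 : k = p
          · simp [h1]
          · simpa [h1] using fun h2 => hn ⟨hk, h1, e, h2⟩
        · have : k < n + 1 ↔ k < n := by omega
          simp only [this]
  obtain ⟨s, hs, h⟩ := key 27
  have h1 : cv p (act s v) = cv p v := by simpa using h p hp (chk_tri p hp).1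
  refine ⟨s, hs, ?_⟩
  rw [← h1]
  exact eq_smul_ev (sing_act hF s hv) hp (h1 ▸ h0) fun k hk e e' => by simpa [hk, e'] using h k hk e

theorem move {i j : ℕ} (hi : i < 27) (hj : j < 27) (h1 : j ≠ i) (h2 : tsg i j = 0)
    (h3 : ∀ t, xN y (rt i j) t ∈ K) (h4 : ∀ t, xN y (rt j i) t ∈ K) {a : F} (ha : a ≠ 0) :
    ∃ s ∈ K, act s (a • ev i) = ev j := by
  obtain ⟨b1, b2, b3, b4⟩ := ((chk_rt i hi j hj).resolve_left h1).resolve_left (not_not.2 h2)
  have h5 := sg_ne_zero (F := F) b1 hj b3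
  have h6 : cv j (act (xN y (rt i j) (sg (rt i j) j * a)⁻¹) (a • ev i)) = 1 := by
    simp only [cv_y b1 _ _ hj, b2, map_smul, cv_ev hi hi, cv_ev hi hj, h1, if_true, if_false, smul_eq_mul]
    field_simp
    ring
  obtain ⟨s, hs, e⟩ := clear hF (K := K) (sing_act hF (xN y (rt i j) (sg (rt i j) j * a)⁻¹)
    (v := a • ev i) fun w => by
      have := Qf_add a (ev i) 0 w
      rwa [add_zero, Qf_ev hi, show Qf 0 w = 0 by simp [Qf], show ff (ev i) 0 w = 0 by simp [ff],
        mul_zero, mul_zero, add_zero, add_zero] at this) hj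
    (by rw [h6]; exact one_ne_zero) fun k hk e1 e2 => by
      by_cases hki : k = i
      · exact Or.inr (hki ▸ h4)
      · left
        simp only [cv_y b1 _ _ hk, map_smul, cv_ev hi hk, cv_ev hi (chk_single _ b1 k hk).1, hki, if_false]
        rcases b4 k hk with h | h | h
        · simp [h]
        · exact absurd h e1
        · simp [h.2]
  exact ⟨s * _, K.mul_mem hs (h3 _), by rw [act_mul, e, h6, one_smul]⟩

omit hF

/-! ### the chain of stabilisers -/

/-- coordinate `k` of the image of the basis vector `m` vanishes -/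
def Zr (L : List ℕ) (m k : ℕ) : Prop :=
  ∃ a ∈ L, tsg a k ≠ 0 ∧ (tsg a m = 0 ∨ (tri a k ∈ L ∧ k ≠ m))
/-- the root fixes the listed basis vectors -/
def Fx (L : List ℕ) (r : ℕ) : Prop := ∀ a ∈ L, mv r a = 0
/-- the coordinates near `i` can be cleared -/
def Clr (L : List ℕ) (m i : ℕ) : Prop := ∀ j < 27, j = i ∨ tsg i j ≠ 0 ∨ Fx L (rt i j) ∨ Zr L m j
/-- `i` can be moved to `j` -/
def Edge (L : List ℕ) (i j : ℕ) : Prop := j ≠ i ∧ tsg i j = 0 ∧ Fx L (rt i j) ∧ Fx L (rt j i)
/-- `i` can be cleared and moved to `m` -/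
def Go (L : List ℕ) (m i : ℕ) : Prop := Clr L m i ∧ (Edge L i m ∨ ∃ n < 27, Edge L i n ∧ Edge L n m)
/-- one step -/
def Step (L : List ℕ) (m : ℕ) : Prop := m < 27 ∧ m ∉ L ∧
  (((∃ a ∈ L, tsg a m ≠ 0 ∧ tri a m ∈ L) ∧ Clr L m m) ∨ (∀ i < 27, Zr L m i ∨ i ∈ L ∨ Go L m i) ∨
    ∃ a ∈ L, tsg a m ≠ 0 ∧ ∀ i < 27, tsg a i = 0 ∨ Zr L m i ∨ Go L m i)

instance decZr (L : List ℕ) (m k : ℕ) : Decidable (Zr L m k) := by unfold Zr; infer_instance
instance decFx (L : List ℕ) (r : ℕ) : Decidable (Fx L r) := by unfold Fx; infer_instance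
instance decClr (L : List ℕ) (m i : ℕ) : Decidable (Clr L m i) := by unfold Clr; infer_instance
instance decEdge (L : List ℕ) (i j : ℕ) : Decidable (Edge L i j) := by unfold Edge; infer_instance
instance decGo (L : List ℕ) (m i : ℕ) : Decidable (Go L m i) := by unfold Go; infer_instance
instance decStep (L : List ℕ) (m : ℕ) : Decidable (Step L m) := by unfold Step; infer_instance

/-- all the steps -/
def chain : List ℕ → List ℕ → Bool
  | L, [] => (List.range 27).all fun i => decide (i ∈ L)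
  | L, m :: ms => decide (Step L m) && chain (m :: L) ms

theorem chk_chain : chain [] steps = true := by decide +kernel

variable (F) in
/-- the elements fixing the listed basis vectors -/
def Fix (L : List ℕ) : Subgroup (E6univ F) where
  carrier := {g | ∀ a ∈ L, act g (ev a) = ev a}
  one_mem' := fun _ _ => act_one _
  mul_mem' := fun hg hh a ha => by rw [act_mul, hh a ha, hg a ha]
  inv_mem' := fun {g} hg a ha => by rw [← hg a ha, inv_act, hg a ha]

variable {L : List ℕ} (hL : ∀ a ∈ L, a < 27)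
include hL

theorem Fx.mem {i j : ℕ} (hi : i < 27) (hj : j < 27) (h1 : j ≠ i) (h2 : tsg i j = 0) (h : Fx L (rt i j))
    (t : F) : xN y (rt i j) t ∈ XS (rtX y) (fun _ => True) ⊓ Fix F L := by
  obtain ⟨b1, -⟩ := ((chk_rt i hi j hj).resolve_left h1).resolve_left (not_not.2 h2)
  refine ⟨by rw [xN_of_lt y b1]; exact le_XS trivial (x_mem_rtX _ _), fun a ha => ext_cv fun k hk => ?_⟩
  obtain ⟨c1, -, c2⟩ := chk_single _ b1 k hk
  rw [cv_y b1 _ _ hk, cv_ev (hL a ha) c1]
  rcases c2 with c | ⟨-, c, -⟩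
  · simp [c]
  · rw [if_neg, mul_zero, mul_zero, add_zero]
    intro e
    rw [e, h a ha] at c
    exact zero_ne_one c

theorem Zr.eq {g : E6univ F} (hg : g ∈ Fix F L) {m k : ℕ} (hm : m < 27) (hk : k < 27) (h : Zr L m k) :
    cv k (act g (ev m)) = 0 := by
  obtain ⟨a, ha, h1, h2⟩ := h
  obtain ⟨-, b1, b2, b3⟩ := ((chk_tri a (hL a ha)).2 k hk).resolve_left h1
  have e := ff_ev_ev (hL a ha) b1 (act g (ev m))
  rw [b3] at e
  rw [← mul_eq_zero_iff_left (tsg_ne_zero (hL a ha) b1 b2), ← e, ← hg a ha]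
  rcases h2 with h | ⟨h, h'⟩
  · rw [← act_inv g (ev (tri a k)), ff_act, ff_swap, ff_ev_ev (hL a ha) hm, h, Int.cast_zero, zero_mul]
  · rw [← hg _ h, ff_act, ff_ev_ev (hL a ha) b1, b3, cv_ev hm hk, if_neg h', mul_zero]

include hF

theorem Clr.ex {g : E6univ F} (hg : g ∈ Fix F L) {m i : ℕ} (hm : m < 27) (hi : i < 27) (h : Clr L m i)
    (h0 : cv i (act g (ev m)) ≠ 0) : ∃ s ∈ XS (rtX y) (fun _ => True) ⊓ Fix F L,
      act s (act g (ev m)) = cv i (act g (ev m)) • ev i :=
  clear hF (sing_act hF g (Qf_ev hm)) hi h0 fun j hj e1 e2 =>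
    (((h j hj).resolve_left e1).resolve_left (not_not.2 e2)).elim
      (fun h => Or.inr (h.mem hL hi hj e1 e2)) fun h => Or.inl (h.eq hL hg hm hj)

theorem Edge.ex {i j : ℕ} (hi : i < 27) (hj : j < 27) (h : Edge L i j) {a : F} (ha : a ≠ 0) :
    ∃ s ∈ XS (rtX y) (fun _ => True) ⊓ Fix F L, act s (a • ev i) = ev j := by
  have : tsg j i = 0 := by
    have := ff_ev_ev (F := ℚ) hj hi (ev (tri j i))
    by_contra h0
    obtain ⟨-, b1, -⟩ := ((chk_tri j hj).2 i hi).resolve_left h0
    rw [show ff (ev j) (ev i) (ev (tri j i) : I27 → ℚ) = ff (ev i) (ev j) (ev (tri j i)) by unfold ff; ring,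
      ff_ev_ev hi hj, h.2.1, cv_ev b1 b1] at this
    exact h0 (by simpa using this.symm)
  exact move hF hi hj h.1 h.2.1 (h.2.2.1.mem hL hi hj h.1 h.2.1) (h.2.2.2.mem hL hj hi h.1.symm this) ha

theorem Go.ex {g : E6univ F} (hg : g ∈ Fix F L) {m i : ℕ} (hm : m < 27) (hi : i < 27) (h : Go L m i)
    (h0 : cv i (act g (ev m)) ≠ 0) : ∃ s ∈ XS (rtX y) (fun _ => True) ⊓ Fix F L,
      act s (act g (ev m)) = ev m := by
  obtain ⟨s, hs, e⟩ := h.1.ex hF hL hg hm hi h0
  rcases h.2 with h1 | ⟨n, hn, h1, h2⟩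
  · obtain ⟨s', hs', e'⟩ := h1.ex hF hL hi hm h0
    exact ⟨s' * s, Subgroup.mul_mem _ hs' hs, by rw [act_mul, e, e']⟩
  · obtain ⟨s', hs', e'⟩ := h1.ex hF hL hi hn h0
    obtain ⟨s'', hs'', e''⟩ := h2.ex hF hL hn hm one_ne_zero
    exact ⟨s'' * (s' * s), Subgroup.mul_mem _ hs'' (Subgroup.mul_mem _ hs' hs), by
      rw [act_mul, act_mul, e, e', ← e'', one_smul]⟩

theorem Step.ex {g : E6univ F} (hg : g ∈ Fix F L) {m : ℕ} (h : Step L m) :
    ∃ s ∈ XS (rtX y) (fun _ => True) ⊓ Fix F L, act s (act g (ev m)) = ev m := by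
  obtain ⟨hm, hmL, ⟨⟨a, ha, h1, h2⟩, h3⟩ | h | ⟨a, ha, h1, h⟩⟩ := h
  · obtain ⟨-, b1, b2, b3⟩ := ((chk_tri a (hL a ha)).2 m hm).resolve_left h1
    have e := ff_act g (ev a) (ev (tri a m)) (ev m)
    rw [hg a ha, hg _ h2, ff_ev_ev (hL a ha) b1, ff_ev_ev (hL a ha) b1, b3, cv_ev hm hm, if_pos rfl,
      mul_right_inj' (tsg_ne_zero (hL a ha) b1 b2)] at e
    simpa only [e, one_smul] using h3.ex hF hL hg hm hm (by rw [e]; exact one_ne_zero)
  · by_contra hc
    have h1 : ∀ i < 27, i ∉ L → cv i (act g (ev m)) = 0 := fun i hi hiL => by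
      by_contra h0
      exact hc ((((h i hi).resolve_left fun h' => h0 (h'.eq hL hg hm hi)).resolve_left hiL).ex hF hL hg hm hi h0)
    have h2 : act g (ev m) = ∑ i ∈ L.toFinset, cv i (act g (ev m)) • ev i := ext_cv fun k hk => by
      rw [map_sum, Finset.sum_congr rfl fun i hi => by
        rw [map_smul, cv_ev (hL i (List.mem_toFinset.1 hi)) hk, smul_eq_mul, mul_ite, mul_one, mul_zero],
        Finset.sum_ite_eq]
      split_ifs with e
      · rfl
      · exact h1 k hk (by simpa using e)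
    have h3 : act g⁻¹ (act g (ev m)) = act g (ev m) := by
      rw [h2, map_sum]
      exact Finset.sum_congr rfl fun i hi => by
        rw [map_smul, (Fix F L).inv_mem hg i (List.mem_toFinset.1 hi)]
    have := h1 m hm hmL
    rw [← h3, inv_act, cv_ev hm hm] at this
    simp at this
  · by_contra hc
    obtain ⟨-, b1, -, -⟩ := ((chk_tri a (hL a ha)).2 m hm).resolve_left h1
    have e := ff_act g (ev a) (ev m) (ev (tri a m))
    rw [hg a ha, ff_ev_ev (hL a ha) hm, cv_ev b1 b1, if_pos rfl, mul_one, ff_ev_eq_zero (hL a ha)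
      fun i hi h2 => by
        by_contra h0
        exact hc ((((h i hi).resolve_left h2).resolve_left fun h' => h0 (h'.eq hL hg hm hi)).ex
          hF hL hg hm hi h0)] at e
    exact tsg_ne_zero (hL a ha) hm h1 e.symm

theorem fix_le {ms : List ℕ} (h : chain L ms = true) : Fix F L ≤ XS (rtX y) (fun _ => True) := by
  induction ms generalizing L with
  | nil =>
    intro g hg
    have : g = 1 := Subtype.ext (Units.ext (Matrix.ext fun i j => by
      have := congrFun (hg _ (of_decide_eq_true (List.all_eq_true.1 h _ (List.mem_range.2 (enc_lt j))))) i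
      simpa [act, ev, dec_enc, Pi.single_apply, one_apply] using this))
    exact this ▸ Subgroup.one_mem _
  | cons m ms ih =>
    intro g hg
    simp only [chain, Bool.and_eq_true, decide_eq_true_eq] at h
    obtain ⟨s, hs, e⟩ := h.1.ex hF hL hg
    refine (Subgroup.mul_mem_cancel_left _ hs.1).1 (ih (L := m :: L) (List.forall_mem_cons.2 ⟨h.1.1, hL⟩) h.2 ?_)
    intro a ha
    rcases List.mem_cons.1 ha with rfl | ha
    · rw [act_mul, e]
    · exact (Fix F L).mul_mem hs.2 hg a ha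

omit hL in
theorem gen_y : XS (rtX (y (F := F))) (fun _ => True) = ⊤ :=
  eq_top_iff.2 fun _ _ => fix_le hF (L := []) (by simp) chk_chain (by intro a ha; simp at ha)

omit hL in
theorem nonempty_equiv : Nonempty (E6 F ≃* chevE6.group F) := by
  have := (simple_of_perfect _ F perfectE6).1
  refine exists_hom_of_simple stFam_y (gen_y hF) fun h => ?_
  have h1 := stFam_y (F := F).nconj ⟨0, by decide⟩ ⟨0, by decide⟩ 1 1 one_ne_zero
  rw [Subgroup.mem_center_iff.1 (h.ge (Subgroup.mem_top _)) (nG _ _ _), mul_inv_cancel_right, refl_self] at h1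
  obtain ⟨n, hn, h2, h3⟩ : ∃ n < 27, sg 0 n ≠ 0 ∧ sg 71 n = 0 := by decide +kernel
  have h4 := congrArg (fun g => cv n (act g (ev (src 0 n)))) h1
  have h5 := (chk_single 0 (by norm_num) n hn).1
  simp only [← xN_val y, neg_val'] at h4
  rw [cv_y (by norm_num) _ _ hn, cv_y (by norm_num) _ _ hn, h3, cv_ev h5 h5] at h4
  simp [sg_ne_zero (F := F) (by norm_num) hn h2] at h4

end CA.E6C
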