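import Cfsg.Agent.Lib.Chev.Check
import Cfsg.Agent.Lib.Chev.TabE8

/-! Verification of the relations between the root elements for type E8 (generated). -/

set_option autoImplicit false
set_option maxRecDepth 100000

namespace CA.Chev

open Cfsg.Lie

theorem chkCompatE8_0 : chkCompat chevE8 tabE8 0 60 = true := by decide +kernel

theorem chkCompatE8_1 : chkCompat chevE8 tabE8 60 60 = true := by decide +kernel

theorem chkCompatE8_2 : chkCompat chevE8 tabE8 120 60 = true := by decide +kernel

theorem chkCompatE8_3 : chkCompat chevE8 tabE8 180 60 = true := by decide +kernel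

theorem chkCompatE8 : chkCompat chevE8 tabE8 0 chevE8.nroots = true := (chkCompat_add (chkCompat_add (chkCompat_add chkCompatE8_0 chkCompatE8_1) chkCompatE8_2) chkCompatE8_3)

theorem chkSignE8 : chkSign chevE8 tabE8 = true := by decide +kernel

theorem chkShortE8 : chkShort chevE8 tabE8 = true := by decide +kernel

theorem chkAddE8 : chkAdd chevE8 tabE8 = true := by decide +kernel

theorem chkCommE8 : chkComm chevE8 tabE8 = true := by decide +kernel

theorem chkNE8 : allLt (chkN chevE8 tabE8) chevE8.rank = true := by decide +kernel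

theorem signOKE8 : SignOK chevE8 tabE8.sg := signOK_of_chk agreeE8 chkCompatE8 chkSignE8 (Or.inl chkShortE8)

theorem weakE8 (F : Type*) [Field F] : WeakFacts chevE8 F tabE8.sg :=
  weakFacts_of_chk agreeE8 chkAddE8 chkCommE8 chkNE8

instance isEtaE8 : IsEta chevE8 := isEta_of_weak signOKE8 (weakE8 ℚ)

instance matFactsE8 (F : Type*) [Field F] : MatFacts chevE8 F :=
  matFacts_of_weak signOKE8 (weakE8 ℚ) (weakE8 F)

end CA.Chev
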