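import Cfsg.Agent.Lib.Chev.AutE6
import Cfsg.Agent.Lib.Chev.AutE7
import Cfsg.Agent.Lib.Chev.InstE8

/-! The embeddings of E6 and E7 in E8 (generated tables). -/

set_option autoImplicit false
set_option maxRecDepth 100000

namespace CA.Chev

open Cfsg.Lie CA.CG

/-- the map on roots -/
def rhoE6E8 (k : ℕ) : ℕ := getF 0xccc2bcb9b8b2afaeabaaa9a6a5a4a3a29c9998959493908f8e8d8a8988878483827f7e7b7471706d6c6b686766656261605f5c5b5a5756534d4c4b4a4946454441403d3736332d23 8 255 k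

theorem chkTwE6E8 : chkTw chevE6 chevE8 tabE6 tabE8 0 rhoE6E8 (fun _ => 0) (fun _ => 1) = true := by
  decide +kernel

theorem twE6E8 : TwData chevE6 chevE8 0 rhoE6E8 (fun k => (-1) ^ (fun _ => 0) k) (fun _ => 1) :=
  twData_of_chk agreeE6 agreeE8 chkTwE6E8

/-- the map on roots -/
def rhoE7E8 (k : ℕ) : ℕ := getF 0xe2dbd6d2cfcdccc8c5c3c2bfbdbcbab9b8b5b3b2b0afaeacabaaa9a7a6a5a4a3a29f9d9c9a99989695949391908f8e8d8b8a89888785848382807f7e7c7b7976747371706f6d6c6b6a68676665646261605f5e5c5b5a595756555352504d4c4b4a49484645444341403f3d3c3a3736353332302d2c2a272322201d19140d 8 255 k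

theorem chkTwE7E8 : chkTw chevE7 chevE8 tabE7 tabE8 0 rhoE7E8 (fun _ => 0) (fun _ => 1) = true := by
  decide +kernel

theorem twE7E8 : TwData chevE7 chevE8 0 rhoE7E8 (fun k => (-1) ^ (fun _ => 0) k) (fun _ => 1) :=
  twData_of_chk agreeE7 agreeE8 chkTwE7E8

end CA.Chev
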