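import Cfsg.Agent.Lib.Chev.Root

/-! Families of root elements satisfying Steinberg's relations, in an arbitrary group. -/

set_option autoImplicit false
set_option linter.unusedSectionVars false

namespace CA.Chev

open Cfsg.Lie Cfsg.Lie.ChevalleyDatum Matrix

attribute [-simp] zsmul_eq_mul

variable {D : ChevalleyDatum}

/-! ### the terms of the commutator formula -/

theorem chainRoot_spec [hD : IsRoot D] {r s i k : ℕ} (hr : r < D.nroots) (hi : 0 < i)
    (h : D.chainRoot r s i = some k) : s < D.nroots ∧ s ≠ r ∧ s ≠ D.neg r ∧ k < D.nroots ∧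
      ∀ j : Nd D, D.cartan j k = i * D.cartan j r + D.cartan j s := by
  unfold ChevalleyDatum.chainRoot ChevalleyDatum.chainEntry at h
  split at h
  · simp at h
  · rename_i e he
    have h1 := List.mem_of_find?_eq_some he
    have h2 := List.find?_some he
    simp only [decide_eq_true_eq] at h2
    obtain ⟨a1, a2, a3, a4⟩ := hD.chain_spec ⟨r, hr⟩ e h1
    obtain ⟨q, hq, rfl⟩ := Option.map_eq_some_iff.1 h
    have := a4 (q, i - 1) (List.mem_zipIdx_iff_getElem?.2 hq)
    subst h2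
    refine ⟨a1, a2, a3, this.1, fun j => ?_⟩
    rw [this.2 j]
    have : ((i - 1 : ℕ) : ℤ) + 1 = i := by omega
    simp only [this]

theorem commTerms_spec [hD : IsRoot D] {r s : Rt D} {c : ℕ × ℤ × ℕ × ℕ} (h : c ∈ D.commTerms r s) :
    0 < c.2.2.1 ∧ 0 < c.2.2.2 ∧ ∃ hk : c.1 < D.nroots,
      wt (⟨c.1, hk⟩ : Rt D) = (c.2.2.1 : ℤ) • wt r + (c.2.2.2 : ℤ) • wt s := by
  unfold ChevalleyDatum.commTerms at h
  simp only [List.mem_filterMap, List.mem_cons, List.not_mem_nil, or_false, Option.map_eq_some_iff] at h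
  obtain ⟨a, ha, k, hk, rfl⟩ := h
  have A : ∀ i, 0 < i → D.chainRoot r s i = some k → ∃ hk : k < D.nroots,
      wt (⟨k, hk⟩ : Rt D) = (i : ℤ) • wt r + ((1 : ℕ) : ℤ) • wt s := fun i hi h => by
    obtain ⟨-, -, -, h1, h2⟩ := chainRoot_spec r.2 hi h
    exact ⟨h1, funext fun j => by simp [wt, h2 j]⟩
  have B : ∀ i, 0 < i → D.chainRoot s r i = some k → ∃ hk : k < D.nroots,
      wt (⟨k, hk⟩ : Rt D) = ((1 : ℕ) : ℤ) • wt r + (i : ℤ) • wt s := fun i hi h => by
    obtain ⟨-, -, -, h1, h2⟩ := chainRoot_spec s.2 hi h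
    exact ⟨h1, funext fun j => by simp [wt, h2 j, add_comm]⟩
  rcases ha with rfl | rfl | rfl | rfl | rfl | rfl | rfl
  · exact ⟨by simp, by simp, A 1 (by simp) hk⟩
  · exact ⟨by simp, by simp, A 2 (by simp) hk⟩
  · exact ⟨by simp, by simp, B 2 (by simp) hk⟩
  · exact ⟨by simp, by simp, A 3 (by simp) hk⟩
  · exact ⟨by simp, by simp, B 3 (by simp) hk⟩
  · obtain ⟨m, h1, h2⟩ := Option.bind_eq_some_iff.1 hk
    obtain ⟨-, -, -, h3, h4⟩ := chainRoot_spec r.2 (by simp) h1
    obtain ⟨-, -, -, h5, h6⟩ := chainRoot_spec h3 (by simp) h2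
    refine ⟨by simp, by simp, h5, funext fun j => ?_⟩
    simp only [wt, Pi.add_apply, Pi.smul_apply, smul_eq_mul, h6 j, h4 j]
    push_cast; ring
  · obtain ⟨m, h1, h2⟩ := Option.bind_eq_some_iff.1 hk
    obtain ⟨-, -, -, h3, h4⟩ := chainRoot_spec s.2 (by simp) h1
    obtain ⟨-, -, -, h5, h6⟩ := chainRoot_spec h3 (by simp) h2
    refine ⟨by simp, by simp, h5, funext fun j => ?_⟩
    simp only [wt, Pi.add_apply, Pi.smul_apply, smul_eq_mul, h6 j, h4 j]
    push_cast; ring

/-! ### words -/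

section Words
variable {F : Type*} {G : Type*} [Group G]

/-- a root element with the root given as a natural number -/
def xN (x : Rt D → F → G) (r : ℕ) (t : F) : G := if h : r < D.nroots then x ⟨r, h⟩ t else 1

@[simp] theorem xN_val (x : Rt D → F → G) (r : Rt D) (t : F) : xN x r t = x r t := by
  simp [xN]

theorem xN_of_lt (x : Rt D → F → G) {r : ℕ} (h : r < D.nroots) (t : F) : xN x r t = x ⟨r, h⟩ t := by
  simp [xN, h]

/-- the value of a word in root elements -/
def wordG (x : Rt D → F → G) (w : List (ℕ × F)) : G := (w.map fun p => xN x p.1 p.2).prod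

@[simp] theorem wordG_nil (x : Rt D → F → G) : wordG x [] = 1 := rfl
@[simp] theorem wordG_cons (x : Rt D → F → G) (p : ℕ × F) (w : List (ℕ × F)) :
    wordG x (p :: w) = xN x p.1 p.2 * wordG x w := by simp [wordG]
@[simp] theorem wordG_append (x : Rt D → F → G) (v w : List (ℕ × F)) :
    wordG x (v ++ w) = wordG x v * wordG x w := by simp [wordG]

theorem map_xN {G' : Type*} [Group G'] (f : G →* G') (x : Rt D → F → G) (r : ℕ) (t : F) :
    f (xN x r t) = xN (fun r t => f (x r t)) r t := by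
  unfold xN; split_ifs <;> simp

theorem map_wordG {G' : Type*} [Group G'] (f : G →* G') (x : Rt D → F → G) (w : List (ℕ × F)) :
    f (wordG x w) = wordG (fun r t => f (x r t)) w := by
  induction w with
  | nil => simp
  | cons p w ih => simp [ih, map_xN]

theorem wordG_mem (x : Rt D → F → G) {K : Subgroup G} {w : List (ℕ × F)}
    (h : ∀ p ∈ w, ∀ hp : p.1 < D.nroots, x ⟨p.1, hp⟩ p.2 ∈ K) : wordG x w ∈ K := by
  apply Subgroup.list_prod_mem
  intro g hg
  obtain ⟨p, hp, rfl⟩ := List.mem_map.1 hg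
  unfold xN
  split_ifs with h1
  · exact h p hp h1
  · exact K.one_mem

end Words

variable [hD : IsRoot D] {F : Type*} [Field F] {G : Type*} [Group G]

/-- `n_r(t)` -/
def nG (x : Rt D → F → G) (r : Rt D) (t : F) : G := x r t * x (neg r) (-t⁻¹) * x r t
/-- `h_r(t)` -/
def hG (x : Rt D → F → G) (r : Rt D) (t : F) : G := nG x r t * nG x r (-1)

theorem wordG_nWord (x : Rt D → F → G) (r : Rt D) (t : F) : wordG x (D.nWord r t) = nG x r t := by
  simp only [ChevalleyDatum.nWord, wordG_cons, wordG_nil, xN_val, ← neg_val, nG, mul_one, mul_assoc]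

theorem wordG_hWord (x : Rt D → F → G) (r : Rt D) (t : F) : wordG x (D.hWord r t) = hG x r t := by
  rw [ChevalleyDatum.hWord, wordG_append, wordG_nWord, wordG_nWord, hG]

theorem map_nG {G' : Type*} [Group G'] (f : G →* G') (x : Rt D → F → G) (r : Rt D) (t : F) :
    f (nG x r t) = nG (fun r t => f (x r t)) r t := by simp [nG]

theorem map_hG {G' : Type*} [Group G'] (f : G →* G') (x : Rt D → F → G) (r : Rt D) (t : F) :
    f (hG x r t) = hG (fun r t => f (x r t)) r t := by simp [hG, map_nG]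

/-- the sign with `n_r e_s = η_{r,s} e_{w_r s}` -/
noncomputable def eta (r s : Rt D) : ℤ :=
  if D.nMat ℚ r 1 (Sum.inr (refl r s)) (Sum.inr s) = 1 then 1 else -1

theorem eta_cases (r s : Rt D) : eta r s = 1 ∨ eta r s = -1 := by
  unfold eta; split_ifs <;> simp

@[simp] theorem eta_mul_self (r s : Rt D) : eta r s * eta r s = 1 := by
  rcases eta_cases r s with h | h <;> simp [h]

@[simp] theorem eta_mul_self' (r s : Rt D) : (eta r s : F) * eta r s = 1 := by
  rcases eta_cases r s with h | h <;> simp [h]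

theorem eta_ne_zero (r s : Rt D) : (eta r s : F) ≠ 0 := by
  rcases eta_cases r s with h | h <;> simp [h]

@[simp] theorem eta_inv (r s : Rt D) : (eta r s : F)⁻¹ = eta r s := by
  rcases eta_cases r s with h | h <;> simp [h]

/-- The identities between the signs `η`. -/
class IsEta (D : ChevalleyDatum) [IsRoot D] : Prop where
  eta_self : ∀ r : Rt D, eta r r = -1
  eta_neg : ∀ r s : Rt D, eta r (neg s) = eta r s
  eta_refl : ∀ r s : Rt D, eta r s * eta r (refl r s) = (-1) ^ (pr r s).natAbs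

/-- Steinberg's relations (R1), (R2). -/
structure StRel (x : Rt D → F → G) : Prop where
  add : ∀ r t u, x r (t + u) = x r t * x r u
  comm : ∀ r s : Rt D, s ≠ r → s ≠ neg r → ∀ t u,
    x s u * x r t = x r t * x s u * wordG x (D.commWord F r s t u)

/-- Steinberg's relations (R1), (R2), (R3) and the conjugation action of the `n_r(t)`. -/
structure StFam (x : Rt D → F → G) : Prop extends StRel x where
  nconj : ∀ r s t u, t ≠ 0 →
    nG x r t * x s u * (nG x r t)⁻¹ = x (refl r s) (eta r s * t ^ (- pr r s) * u)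
  hmul : ∀ r t u, t ≠ 0 → u ≠ 0 → hG x r t * hG x r u = hG x r (t * u)

namespace StRel
variable {x : Rt D → F → G} (hx : StRel x)
include hx

theorem map {G' : Type*} [Group G'] (f : G →* G') : StRel fun r t => f (x r t) where
  add r t u := by rw [hx.add, map_mul]
  comm r s h1 h2 t u := by rw [← map_wordG, ← map_mul, hx.comm r s h1 h2, map_mul, map_mul]

theorem zero (r : Rt D) : x r 0 = 1 := by
  have := hx.add r 0 0
  rw [add_zero] at this
  simpa using this

theorem neg_arg (r : Rt D) (t : F) : x r (-t) = (x r t)⁻¹ := by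
  rw [eq_inv_iff_mul_eq_one, ← hx.add, neg_add_cancel, hx.zero]

theorem commute_self (r : Rt D) (t u : F) : x r t * x r u = x r u * x r t := by
  rw [← hx.add, ← hx.add, add_comm]

theorem nG_inv (r : Rt D) (t : F) : (nG x r t)⁻¹ = nG x r (-t) := by
  simp only [nG, _root_.mul_inv_rev, ← hx.neg_arg, inv_neg, mul_assoc]

theorem hG_one (r : Rt D) : hG x r 1 = 1 := by
  rw [hG, ← hx.nG_inv, mul_inv_cancel]

theorem nG_eq (r : Rt D) (t : F) : nG x r t = hG x r t * nG x r 1 := by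
  rw [hG, ← hx.nG_inv, inv_mul_cancel_right]

/-- the root subgroup -/
def XG (r : Rt D) : Subgroup G where
  carrier := Set.range (x r)
  one_mem' := ⟨0, hx.zero r⟩
  mul_mem' := by rintro _ _ ⟨t, rfl⟩ ⟨u, rfl⟩; exact ⟨t + u, hx.add r t u⟩
  inv_mem' := by rintro _ ⟨t, rfl⟩; exact ⟨-t, hx.neg_arg r t⟩

theorem mem_XG {r : Rt D} {g : G} : g ∈ hx.XG r ↔ ∃ t, x r t = g := Iff.rfl

omit hx in
/-- the commutator word lies in any subgroup containing the root elements of the roots `i r + j s` -/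
theorem commWord_mem {K : Subgroup G} {r s : Rt D}
    (h : ∀ (k : Rt D) (i j : ℕ), 0 < i → 0 < j → wt k = (i : ℤ) • wt r + (j : ℤ) • wt s → ∀ t, x k t ∈ K)
    (t u : F) : wordG x (D.commWord F r s t u) ∈ K := by
  apply wordG_mem
  intro p hp hlt
  obtain ⟨c, hc, rfl⟩ := List.mem_map.1 hp
  obtain ⟨h1, h2, h3, h4⟩ := commTerms_spec hc
  exact h _ _ _ h1 h2 h4 _

theorem commute_of {r s : Rt D} (h2 : s ≠ neg r)
    (h : ∀ (k : Rt D) (i j : ℕ), 0 < i → 0 < j → wt k ≠ (i : ℤ) • wt r + (j : ℤ) • wt s) (t u : F) :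
    x s u * x r t = x r t * x s u := by
  by_cases h1 : s = r
  · rw [h1, hx.commute_self]
  · have := commWord_mem (x := x) (K := ⊥) (r := r) (s := s)
      (fun k i j hi hj hk => absurd hk (h k i j hi hj)) t u
    rw [hx.comm r s h1 h2, Subgroup.mem_bot.1 this, mul_one]

end StRel

namespace StFam
variable [hE : IsEta D] {x : Rt D → F → G} (hx : StFam x)
include hx

omit hE in
theorem map {G' : Type*} [Group G'] (f : G →* G') : StFam fun r t => f (x r t) where
  toStRel := hx.toStRel.map f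
  nconj r s t u ht := by rw [← map_nG, ← map_inv, ← map_mul, ← map_mul, hx.nconj r s t u ht]
  hmul r t u ht hu := by rw [← map_hG, ← map_hG, ← map_hG, ← map_mul, hx.hmul r t u ht hu]

omit hx in
theorem pr_refl_right (r s : Rt D) : pr r (refl r s) = - pr r s := by
  rw [← W_pr (refl_mem r), refl_self, refl_refl, pr_neg_left]

omit hx in
theorem eta_refl' (r s : Rt D) : (eta r s : F) * eta r (refl r s) = (-1) ^ (pr r s) := by
  rw [← Int.cast_mul, hE.eta_refl]
  push_cast
  rcases Int.natAbs_eq (pr r s) with h | h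
  · conv_rhs => rw [h]
    rw [zpow_natCast]
  · conv_rhs => rw [h]
    rw [_root_.zpow_neg, zpow_natCast, ← inv_pow, inv_neg, inv_one]

theorem hconj (r s : Rt D) {t : F} (ht : t ≠ 0) (u : F) :
    hG x r t * x s u * (hG x r t)⁻¹ = x s (t ^ pr r s * u) := by
  have : hG x r t * x s u * (hG x r t)⁻¹ =
      nG x r t * (nG x r (-1) * x s u * (nG x r (-1))⁻¹) * (nG x r t)⁻¹ := by
    rw [hG]; group
  rw [this, hx.nconj _ _ _ _ (by simp), hx.nconj _ _ _ _ ht, refl_refl, pr_refl_right, _root_.neg_neg]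
  congr 1
  have h1 := eta_refl' (F := F) r s
  have h2 : (-1 : F) ^ (pr r s) * (-1) ^ (- pr r s) = 1 := by
    rw [← zpow_add₀ (by simp), add_neg_cancel, zpow_zero]
  linear_combination (t ^ pr r s * u * (-1) ^ (- pr r s)) * h1 + (t ^ pr r s * u) * h2

theorem nconj_n (r s : Rt D) {t : F} (ht : t ≠ 0) (u : F) :
    nG x r t * nG x s u * (nG x r t)⁻¹ = nG x (refl r s) (eta r s * t ^ (- pr r s) * u) := by
  have : nG x r t * nG x s u * (nG x r t)⁻¹ = (nG x r t * x s u * (nG x r t)⁻¹) *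
      (nG x r t * x (neg s) (-u⁻¹) * (nG x r t)⁻¹) * (nG x r t * x s u * (nG x r t)⁻¹) := by
    rw [nG, nG]; group
  rw [this, hx.nconj _ _ _ _ ht, hx.nconj _ _ _ _ ht, refl_neg, hE.eta_neg, pr_neg_right]
  rw [nG]
  congr 3
  rw [mul_inv, mul_inv, eta_inv, ← _root_.zpow_neg]; ring

theorem hconj_n (r s : Rt D) {t : F} (ht : t ≠ 0) (u : F) :
    hG x r t * nG x s u * (hG x r t)⁻¹ = nG x s (t ^ pr r s * u) := by
  have : hG x r t * nG x s u * (hG x r t)⁻¹ = (hG x r t * x s u * (hG x r t)⁻¹) *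
      (hG x r t * x (neg s) (-u⁻¹) * (hG x r t)⁻¹) * (hG x r t * x s u * (hG x r t)⁻¹) := by
    rw [nG]; group
  rw [this, hx.hconj _ _ ht, hx.hconj _ _ ht, pr_neg_right, nG]
  congr 3
  rw [mul_inv, ← _root_.zpow_neg]; ring

omit hE in
theorem hG_inv (r : Rt D) {t : F} (ht : t ≠ 0) : (hG x r t)⁻¹ = hG x r t⁻¹ := by
  rw [inv_eq_iff_mul_eq_one, hx.hmul _ _ _ ht (inv_ne_zero ht), mul_inv_cancel₀ ht, hx.toStRel.hG_one]

omit hE in
/-- `n_s(a u) n_s(-a) = h_s(u)` -/
theorem nG_mul_nG (s : Rt D) {a u : F} (ha : a ≠ 0) (hu : u ≠ 0) :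
    nG x s (a * u) * nG x s (-a) = hG x s u := by
  rw [← hx.toStRel.nG_inv, hx.toStRel.nG_eq s (a * u), hx.toStRel.nG_eq s a, mul_comm a u,
    ← hx.hmul _ _ _ hu ha]
  group

theorem nconj_h (r s : Rt D) {t u : F} (ht : t ≠ 0) (hu : u ≠ 0) :
    nG x r t * hG x s u * (nG x r t)⁻¹ = hG x (refl r s) u := by
  have : nG x r t * hG x s u * (nG x r t)⁻¹ = (nG x r t * nG x s u * (nG x r t)⁻¹) *
      (nG x r t * nG x s (-1) * (nG x r t)⁻¹) := by
    rw [hG]; group
  rw [this, hx.nconj_n _ _ ht, hx.nconj_n _ _ ht, mul_neg_one,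
    hx.nG_mul_nG _ (mul_ne_zero (eta_ne_zero _ _) (zpow_ne_zero _ ht)) hu]

theorem h_commute (r s : Rt D) {t u : F} (ht : t ≠ 0) (hu : u ≠ 0) :
    hG x r t * hG x s u = hG x s u * hG x r t := by
  have : hG x r t * hG x s u * (hG x r t)⁻¹ = (hG x r t * nG x s u * (hG x r t)⁻¹) *
      (hG x r t * nG x s (-1) * (hG x r t)⁻¹) := by
    unfold hG; group
  rw [hx.hconj_n _ _ ht, hx.hconj_n _ _ ht, mul_neg_one, hx.nG_mul_nG _ (zpow_ne_zero _ ht) hu] at this
  exact mul_inv_eq_iff_eq_mul.1 this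

/-- `n_r(t) = n_{-r}(-t⁻¹)` -/
theorem nG_neg (r : Rt D) {t : F} (ht : t ≠ 0) : nG x (neg r) (-t⁻¹) = nG x r t := by
  have := hx.nconj_n r r ht t
  rw [mul_inv_cancel_right, refl_self, hE.eta_self, pr_self] at this
  rw [this]
  congr 1
  push_cast
  field_simp

theorem hG_neg (r : Rt D) {t : F} (ht : t ≠ 0) : hG x (neg r) t = hG x r t⁻¹ := by
  have h1 := hx.nG_neg r (t := -t⁻¹) (by simpa using ht)
  have h2 := hx.nG_neg r (t := 1) one_ne_zero
  simp only [inv_neg, inv_inv, _root_.neg_neg, inv_one] at h1 h2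
  rw [hG, h1, h2]
  simpa using hx.nG_mul_nG r (a := -1) (u := t⁻¹) (by simp) (inv_ne_zero ht)

omit hE in
theorem nG_sq (r : Rt D) : nG x r 1 * nG x r 1 = hG x r (-1) := by
  simpa using hx.nG_mul_nG r (a := -1) (u := -1) (by simp) (by simp)

/-- the rank one relation `x_{-r}(t) = x_r(t⁻¹) n_r(-t⁻¹) x_r(t⁻¹)` -/
theorem x_neg_eq (r : Rt D) (t : F) :
    x (neg r) t = x r t⁻¹ * nG x r (-t⁻¹) * x r t⁻¹ := by
  simp only [nG, inv_neg, inv_inv, _root_.neg_neg, hx.toStRel.neg_arg]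
  group

/-- `h_{w_r s}(u) = h_s(u) h_r(u^{-A_{s r}})` -/
theorem hG_refl (r s : Rt D) {u : F} (hu : u ≠ 0) :
    hG x (refl r s) u = hG x s u * hG x r (u ^ (- pr s r)) := by
  have h1 := hx.nconj_h r s one_ne_zero hu
  have h2 := hx.hconj_n s r (inv_ne_zero hu) 1
  rw [← hx.hG_inv s hu, inv_inv, mul_one, _root_.inv_zpow', hx.toStRel.nG_eq r (u ^ _)] at h2
  rw [← h1]
  calc nG x r 1 * hG x s u * (nG x r 1)⁻¹
      = hG x s u * ((hG x s u)⁻¹ * nG x r 1 * hG x s u) * (nG x r 1)⁻¹ := by group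
    _ = _ := by rw [h2]; group

end StFam

end CA.Chev
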