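import Cfsg.Agent.Lib.Chev.Check
import Cfsg.Agent.Lib.Chev.TabE7

/-! Verification of the relations between the root elements for type E7 (generated). -/

set_option autoImplicit false
set_option maxRecDepth 100000

namespace CA.Chev

open Cfsg.Lie

theorem chkCompatE7_0 : chkCompat chevE7 tabE7 0 63 = true := by decide +kernel

theorem chkCompatE7_1 : chkCompat chevE7 tabE7 63 63 = true := by decide +kernel

theorem chkCompatE7 : chkCompat chevE7 tabE7 0 chevE7.nroots = true := (chkCompat_add chkCompatE7_0 chkCompatE7_1)

theorem chkSignE7 : chkSign chevE7 tabE7 = true := by decide +kernel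

theorem chkShortE7 : chkShort chevE7 tabE7 = true := by decide +kernel

theorem chkAddE7 : chkAdd chevE7 tabE7 = true := by decide +kernel

theorem chkCommE7 : chkComm chevE7 tabE7 = true := by decide +kernel

theorem chkNE7 : allLt (chkN chevE7 tabE7) chevE7.rank = true := by decide +kernel

theorem signOKE7 : SignOK chevE7 tabE7.sg := signOK_of_chk agreeE7 chkCompatE7 chkSignE7 (Or.inl chkShortE7)

theorem weakE7 (F : Type*) [Field F] : WeakFacts chevE7 F tabE7.sg :=
  weakFacts_of_chk agreeE7 chkAddE7 chkCommE7 chkNE7

instance isEtaE7 : IsEta chevE7 := isEta_of_weak signOKE7 (weakE7 ℚ)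

instance matFactsE7 (F : Type*) [Field F] : MatFacts chevE7 F :=
  matFacts_of_weak signOKE7 (weakE7 ℚ) (weakE7 F)

end CA.Chev
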