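import Cfsg.Agent.Lib.Chev.RootInst
import Cfsg.Agent.Lib.Chev.InstG2
import Cfsg.Agent.Lib.Chev.InstB2
import Cfsg.Agent.Lib.Chev.InstD4
import Cfsg.Agent.Lib.Chev.InstF4
import Cfsg.Agent.Lib.Chev.InstE6
import Cfsg.Agent.Lib.Chev.InstE7
import Cfsg.Agent.Lib.Chev.InstE8

/-! `IsEta` and `MatFacts` for the seven tabulated types. -/

set_option autoImplicit false

namespace CA.Chev

open Cfsg.Lie

theorem isEta_of_mem {D : ChevalleyDatum}
    (hD : D ∈ [chevG2, chevB2, chevD4, chevF4, chevE6, chevE7, chevE8]) : @IsEta D (isRoot_of_mem hD) := by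
  simp only [List.mem_cons, List.not_mem_nil, or_false] at hD
  rcases hD with rfl | rfl | rfl | rfl | rfl | rfl | rfl <;> infer_instance

theorem matFacts_of_mem {D : ChevalleyDatum}
    (hD : D ∈ [chevG2, chevB2, chevD4, chevF4, chevE6, chevE7, chevE8]) (F : Type*) [Field F] :
    @MatFacts D (isRoot_of_mem hD) F _ := by
  simp only [List.mem_cons, List.not_mem_nil, or_false] at hD
  rcases hD with rfl | rfl | rfl | rfl | rfl | rfl | rfl <;> infer_instance

end CA.Chev
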