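import Cfsg.Agent.Lib.Chev.Aut

/-! Families `1 + t N_r` with `N_r² = 0` (minuscule modules), and central quotients of groups generated
by a Steinberg family. -/

set_option autoImplicit false
set_option linter.unusedSectionVars false

namespace CA.Chev

open Cfsg.Lie Cfsg.Lie.ChevalleyDatum CA.CG CA.BN

variable {D : ChevalleyDatum} [hD : IsRoot D] [IsEta D] [IsDec D] {F : Type*} [Field F] [MatFacts D F]

section Nil

variable {A : Type*} [Ring A] [Algebra F A]

/-- the unit `1 + t R` -/
def uN (R : A) (h : R * R = 0) (t : F) : Aˣ :=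
  ⟨1 + t • R, 1 - t • R, by simp [mul_sub, add_mul, h], by simp [sub_mul, mul_add, h]⟩

@[simp] theorem uN_val (R : A) (h : R * R = 0) (t : F) : (uN R h t : A) = 1 + t • R := rfl

theorem stFam_of_nil (N : Rt D → A) (h1 : ∀ r, N r * N r = 0) (h2 : ∀ r, N r * (N (neg r) * N r) = N r)
    (h3 : ∀ r s : Rt D, s ≠ r → s ≠ neg r → (D.commTerms r s = [] ∧ N s * N r = N r * N s) ∨
      ∃ (k : Rt D) (C : ℤ), D.commTerms r s = [(k.1, C, 1, 1)] ∧ N s * N r = N r * N s - (C : F) • N k ∧
        N r * N k = 0 ∧ N s * N k = 0) : StFam fun r (t : F) => uN (N r) (h1 r) t := by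
  refine stFam_of_rel ⟨fun r t u => Units.ext ?_, fun r s e1 e2 t u => Units.ext ?_⟩
    fun r t u ht hu => Units.ext ?_
  · simp only [uN_val, Units.val_mul, mul_add, add_mul, one_mul, mul_one, smul_mul_assoc, mul_smul_comm,
      h1, smul_zero]
    module
  · rcases h3 r s e1 e2 with ⟨a1, a2⟩ | ⟨k, C, a1, a2, a3, a4⟩
    · simp only [commWord, a1, List.map_nil, wordG_nil, uN_val, Units.val_mul, mul_add, add_mul, one_mul,
        mul_one, smul_mul_assoc, mul_smul_comm, a2]
      module
    · simp only [commWord, a1, List.map_nil, List.map_cons, wordG_cons, wordG_nil, xN_val, uN_val,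
        Units.val_mul, mul_add, add_mul, one_mul, mul_one, smul_mul_assoc, mul_smul_comm, a2, mul_assoc,
        a3, a4, mul_zero, zero_mul, smul_zero]
      module
  · have a1 := h1 r
    have a2 := h1 (neg r)
    have a3 := h2 r
    have a4 := h2 (neg r)
    rw [neg_neg] at a4
    have key : ∀ t : F, t ≠ 0 → ((hG (fun r (t : F) => uN (N r) (h1 r) t) r t : Aˣ) : A) =
        1 + (t - 1) • (N r * N (neg r)) + (t⁻¹ - 1) • (N (neg r) * N r) := by
      intro t ht
      simp only [hG, nG, uN_val, Units.val_mul]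
      generalize N r = R, N (neg r) = S at *
      have b1 : ∀ x, R * (R * x) = 0 := fun x => by rw [← mul_assoc, a1, zero_mul]
      have b2 : ∀ x, S * (S * x) = 0 := fun x => by rw [← mul_assoc, a2, zero_mul]
      have b3 : ∀ x, R * (S * (R * x)) = R * x := fun x => by rw [← mul_assoc S, ← mul_assoc, a3]
      have b4 : ∀ x, S * (R * (S * x)) = S * x := fun x => by rw [← mul_assoc R, ← mul_assoc, a4]
      simp only [mul_add, add_mul, one_mul, mul_one, smul_mul_assoc, mul_smul_comm, mul_assoc, a1, a2, a3,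
        a4, b1, b2, b3, b4, mul_zero, zero_mul, smul_zero]
      match_scalars <;> field_simp <;> ring
    rw [Units.val_mul, key t ht, key u hu, key _ (mul_ne_zero ht hu)]
    generalize N r = R, N (neg r) = S at *
    have b1 : ∀ x, R * (R * x) = 0 := fun x => by rw [← mul_assoc, a1, zero_mul]
    have b2 : ∀ x, S * (S * x) = 0 := fun x => by rw [← mul_assoc, a2, zero_mul]
    have b3 : ∀ x, R * (S * (R * x)) = R * x := fun x => by rw [← mul_assoc S, ← mul_assoc, a3]
    have b4 : ∀ x, S * (R * (S * x)) = S * x := fun x => by rw [← mul_assoc R, ← mul_assoc, a4]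
    simp only [mul_add, add_mul, one_mul, mul_one, smul_mul_assoc, mul_smul_comm, mul_assoc, a1, a2, a3,
      a4, b1, b2, b3, b4, mul_zero, zero_mul, smul_zero]
    match_scalars <;> field_simp <;> ring

end Nil

/-- A non-commutative group generated by a Steinberg family of a simple type is a central extension of
the Chevalley group. -/
theorem exists_hom_of_simple [IsSimpleGroup (D.group F)] {G : Type*} [Group G] {y : Rt D → F → G}
    (hy : StFam y) (hgen : XS (rtX y) (fun _ => True) = ⊤) (hne : Subgroup.center G ≠ ⊤) :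
    Nonempty (G ⧸ Subgroup.center G ≃* D.group F) := by
  obtain ⟨θ, hθ⟩ := exists_theta D F
  obtain ⟨ψ, hψ⟩ := exists_stLift hy.toStRel hy.hmul
  have hs : Function.Surjective ψ := by
    rw [← MonoidHom.range_eq_top, eq_top_iff, ← hgen, XS_le]
    intro r _ g hg
    obtain ⟨t, rfl⟩ := (mem_rtX' hy.toStRel).1 hg
    exact ⟨_, hψ r t⟩
  have hk : ψ.ker ≤ θ.ker := by
    refine (Subgroup.map_eq_bot_iff _).1 ((Subgroup.Normal.map inferInstance θ
      (surjective_of_hom θ hθ)).eq_bot_or_eq_top.resolve_right fun h => hne (eq_top_iff.2 fun g _ => ?_))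
    obtain ⟨g, rfl⟩ := hs g
    obtain ⟨k, hk, e⟩ := h.ge (Subgroup.mem_top (θ g))
    have h1 : k⁻¹ * g ∈ θ.ker := by rw [MonoidHom.mem_ker, map_mul, map_inv, e, inv_mul_cancel]
    rw [ker_eq_center stFam_stx gen_stx θ hθ, Subgroup.mem_center_iff] at h1
    refine Subgroup.mem_center_iff.2 fun a => ?_
    obtain ⟨a, rfl⟩ := hs a
    simpa [MonoidHom.mem_ker.1 hk] using congrArg ψ (h1 a)
  have h2 : ∀ r t, ψ.liftOfSurjective hs ⟨θ, hk⟩ (y r t) = xg r t := fun r t => by
    rw [← hψ, MonoidHom.liftOfRightInverse_comp_apply, hθ]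
  exact ⟨(QuotientGroup.quotientMulEquivOfEq (ker_eq_center hy hgen _ h2).symm).trans
    (QuotientGroup.quotientKerEquivOfSurjective _ (surjective_of_hom _ h2))⟩

end CA.Chev
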