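import Cfsg.Agent.Lib.Chev.Mat

/-! Monomial matrices, and the reduction of `MatFacts` to a few base cases by the Weyl group. -/

set_option autoImplicit false
set_option linter.unusedSectionVars false

namespace CA.Chev

open Cfsg.Lie Cfsg.Lie.ChevalleyDatum Matrix

attribute [-simp] zsmul_eq_mul

variable {D : ChevalleyDatum} [hD : IsRoot D] {F : Type*} [Field F]

/-- The monomial matrix acting on the Cartan part as `w` and sending `e_s` to `c s • e_{w s}`. -/
def mono (w : Equiv.Perm (Rt D)) (c : Rt D → F) : Matrix D.Idx D.Idx F :=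
  Matrix.of fun row col =>
    match row, col with
    | Sum.inl j', Sum.inl j => ((cor (w (simple j)) j' : ℤ) : F)
    | Sum.inr s', Sum.inr s => if s' = w s then c s else 0
    | _, _ => 0

@[simp] theorem mono_ll (w : Equiv.Perm (Rt D)) (c : Rt D → F) (i j : Nd D) :
    mono w c (Sum.inl i) (Sum.inl j) = ((cor (w (simple j)) i : ℤ) : F) := rfl
@[simp] theorem mono_lr (w : Equiv.Perm (Rt D)) (c : Rt D → F) (i : Nd D) (s : Rt D) :
    mono w c (Sum.inl i) (Sum.inr s) = 0 := rfl
@[simp] theorem mono_rl (w : Equiv.Perm (Rt D)) (c : Rt D → F) (i : Nd D) (s : Rt D) :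
    mono w c (Sum.inr s) (Sum.inl i) = 0 := rfl
@[simp] theorem mono_rr (w : Equiv.Perm (Rt D)) (c : Rt D → F) (u s : Rt D) :
    mono w c (Sum.inr u) (Sum.inr s) = if u = w s then c s else 0 := rfl

/-- a permutation of the roots that is induced by an automorphism of the root datum -/
structure IsAut (w : Equiv.Perm (Rt D)) : Prop where
  lin : ∃ f : Lat D →ₗ[ℤ] Lat D, ∀ r, wt (w r) = f (wt r)
  lin_cor : ∃ f : Lat D →ₗ[ℤ] Lat D, ∀ r, cor (w r) = f (cor r)
  pr_eq : ∀ r s, pr (w r) (w s) = pr r s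

theorem isAut_of_mem {w : Equiv.Perm (Rt D)} (hw : w ∈ W D) : IsAut w :=
  ⟨W_exists_linear hw, W_exists_linear_cor hw, W_pr hw⟩

namespace IsAut
variable {w : Equiv.Perm (Rt D)} (hw : IsAut w)
include hw

theorem neg (r : Rt D) : w (neg r) = CA.Chev.neg (w r) := by
  obtain ⟨f, hf⟩ := hw.lin
  apply wt_injective
  simp [hf]

theorem cor_sum (s : Rt D) (i : Nd D) : cor (w s) i = ∑ j, cor (w (simple j)) i * cor s j := by
  obtain ⟨f, hf⟩ := hw.lin_cor
  have : cor s = ∑ j, cor s j • cor (simple j) := by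
    funext k
    simp [cor_simple, Finset.sum_apply, Pi.single_apply]
  rw [hf, this, map_sum, Finset.sum_apply]
  refine Finset.sum_congr rfl fun j _ => ?_
  rw [map_smul, ← hf, ← this]
  simp [mul_comm]

theorem mul {w' : Equiv.Perm (Rt D)} (hw' : IsAut w') : IsAut (w * w') := by
  obtain ⟨f, hf⟩ := hw.lin
  obtain ⟨g, hg⟩ := hw.lin_cor
  obtain ⟨f', hf'⟩ := hw'.lin
  obtain ⟨g', hg'⟩ := hw'.lin_cor
  exact ⟨⟨f ∘ₗ f', fun r => by simp [hf, hf']⟩, ⟨g ∘ₗ g', fun r => by simp [hg, hg']⟩,
    fun r s => by simp [hw.pr_eq, hw'.pr_eq]⟩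

omit hw in
theorem one : IsAut (1 : Equiv.Perm (Rt D)) := isAut_of_mem (W D).one_mem

theorem pow (n : ℕ) : IsAut (w ^ n) := by
  induction n with
  | zero => simpa using one
  | succ n ih => rw [pow_succ]; exact ih.mul hw

theorem inv : IsAut w⁻¹ := by
  have h : w⁻¹ = w ^ (orderOf w - 1) := by
    rw [inv_eq_iff_mul_eq_one, ← pow_succ', Nat.sub_add_cancel (orderOf_pos w), pow_orderOf_eq_one]
  rw [h]; exact hw.pow _

theorem refl (r s : Rt D) : w (refl r s) = CA.Chev.refl (w r) (w s) := by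
  apply wt_injective
  obtain ⟨f, hf⟩ := hw.lin
  rw [wt_refl, hw.pr_eq, hf, hf, hf, wt_refl]
  simp

theorem conj_refl (r : Rt D) : w * CA.Chev.refl r * w⁻¹ = CA.Chev.refl (w r) := by
  ext1 s
  simp [hw.refl]

theorem wt_eq {a b s : Rt D} {k : ℤ} (h : wt b = wt a + k • wt s) : wt (w b) = wt (w a) + k • wt (w s) := by
  obtain ⟨f, hf⟩ := hw.lin
  simp [hf, h]

end IsAut

theorem mono_mul {w : Equiv.Perm (Rt D)} (hw : IsAut w) (w' : Equiv.Perm (Rt D)) (c c' : Rt D → F) :
    mono w c * mono w' c' = mono (w * w') fun s => c (w' s) * c' s := by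
  ext row col
  rw [Matrix.mul_apply, Fintype.sum_sum_type]
  rcases row with i | u <;> rcases col with j | s
  · simp [hw.cor_sum (w' (simple j))]
  · simp
  · simp
  · simp only [mono_rl, mono_rr, zero_mul, Finset.sum_const_zero, zero_add, mul_ite, mul_zero,
      Finset.sum_ite_eq', Finset.mem_univ, if_true, ite_mul, Equiv.Perm.mul_apply]
    congr

theorem mono_one_eq (c : Rt D → F) :
    mono 1 c = Matrix.diagonal (Sum.elim (fun _ => 1) c) := by
  ext row col
  rcases row with i | u <;> rcases col with j | s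
  · simp [cor_simple, Pi.single_apply, Matrix.diagonal_apply]
  · simp
  · simp
  · simp only [mono_rr, Equiv.Perm.one_apply, Matrix.diagonal_apply, Sum.inr.injEq, Sum.elim_inr]
    split_ifs with h <;> simp [h]

theorem mono_one : mono (1 : Equiv.Perm (Rt D)) (fun _ => (1 : F)) = 1 := by
  rw [mono_one_eq, ← Matrix.diagonal_one]
  congr 1
  funext a; cases a <;> rfl

theorem nExp_eq_mono (r : Rt D) (c : Rt D → F) : nExp F r c = mono (refl r) c := by
  ext row col
  rcases row with i | u <;> rcases col with j | s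
  · simp only [nExp, Matrix.of_apply, mono_ll, cor_refl, pr_simple, cor_simple, Pi.sub_apply,
      Pi.single_apply, Pi.smul_apply, smul_eq_mul]
    push_cast
    split_ifs <;> ring
  · rfl
  · rfl
  · rfl

theorem mono_conj {w : Equiv.Perm (Rt D)} (hw : IsAut w) {c : Rt D → F} (hc : ∀ s, c s * c (neg s) = 1)
    (s : Rt D) (hch : ∀ a b, a ≠ s → a ≠ neg s →
      ((xck (w s) (Sum.inr (w b)) (Sum.inr (w a))).1 : F) * c s ^ (xck s (Sum.inr b) (Sum.inr a)).2 * c a =
        c b * (xck s (Sum.inr b) (Sum.inr a)).1) (u : F) :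
    mono w c * D.x F s u = D.x F (w s) (c s * u) * mono w c := by
  have hc0 : ∀ s, c s ≠ 0 := fun s h => by simpa [h] using hc s
  ext row col
  rw [Matrix.mul_apply, Matrix.mul_apply, Fintype.sum_sum_type, Fintype.sum_sum_type]
  rcases row with i | b <;> rcases col with j | a
  · simp [x_inl_inl]
  · simp only [mono_ll, mono_lr, mono_rr, x_inl_inr, zero_mul, mul_zero, Finset.sum_const_zero, add_zero,
      zero_add, mul_ite, Finset.sum_ite_eq', Finset.mem_univ, if_true, ← hw.neg, EmbeddingLike.apply_eq_iff_eq]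
    split_ifs with h
    · subst h
      rw [hw.cor_sum s]
      push_cast
      simp only [← mul_assoc, ← Finset.sum_mul]
      linear_combination (-(∑ j, ((cor (w (simple j)) i : F) * cor s j)) * u) * hc s
    · simp
  · obtain ⟨b, rfl⟩ := w.surjective b
    simp only [mono_ll, mono_rl, mono_rr, x_inr_inl, zero_mul, mul_zero, Finset.sum_const_zero, add_zero,
      zero_add, ite_mul, EmbeddingLike.apply_eq_iff_eq, Finset.sum_ite_eq, Finset.mem_univ, if_true]
    split_ifs with h
    · subst h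
      have := congrArg (Int.cast (R := F)) (hw.pr_eq (simple j) b)
      rw [pr_simple, pr, dotProduct] at this
      push_cast at this
      rw [← this, neg_mul, mul_neg, Finset.sum_mul, Finset.mul_sum, ← Finset.sum_neg_distrib]
      exact Finset.sum_congr rfl fun k _ => by ring
    · simp
  · obtain ⟨b, rfl⟩ := w.surjective b
    simp only [mono_lr, mono_rl, mono_rr, zero_mul, mul_zero, Finset.sum_const_zero,
      zero_add, ite_mul, mul_ite, EmbeddingLike.apply_eq_iff_eq, Finset.sum_ite_eq, Finset.sum_ite_eq',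
      Finset.mem_univ, if_true]
    by_cases h1 : a = s
    · subst h1
      simp only [x_inr_self, EmbeddingLike.apply_eq_iff_eq]
      split_ifs with h <;> simp [h]
    by_cases h2 : a = neg s
    · subst h2
      rw [hw.neg, x_inr_neg, x_inr_neg, ← hw.neg]
      simp only [EmbeddingLike.apply_eq_iff_eq]
      split_ifs with h h'
      · simp [h]
      · subst h'
        linear_combination (c b * u ^ 2) * hc b
      · simp
    have h3 := hch a b h1 h2
    rw [x_entry, x_entry]
    obtain ⟨-, k1⟩ := xck_spec s (Sum.inr b) (Sum.inr a)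
    obtain ⟨-, k2⟩ := xck_spec (w s) (Sum.inr (w b)) (Sum.inr (w a))
    generalize xck s (Sum.inr b) (Sum.inr a) = p at *
    generalize xck (w s) (Sum.inr (w b)) (Sum.inr (w a)) = q at *
    simp only [Sum.inr.injEq, EmbeddingLike.apply_eq_iff_eq]
    have : (c b * if b = a then 1 else 0) = (if b = a then 1 else 0) * c a := by
      split_ifs with h <;> simp [h]
    rw [mul_add, add_mul, this]
    congr 1
    by_cases hp : p.1 = 0
    · have : (q.1 : F) = 0 := by simpa [hp, hc0] using h3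
      simp [hp, this]
    by_cases hq : q.1 = 0
    · have : (p.1 : F) = 0 := by simpa [hq, hc0] using h3
      simp [hq, this]
    have e1 := hw.wt_eq (k1 hp)
    have e2 := k2 hq
    simp only [wI_inr] at e2
    rw [e1, add_right_inj] at e2
    have e3 : p.2 = q.2 := by
      have := smul_left_injective ℤ (wt_ne_zero (w s)) e2
      omega
    rw [← e3, mul_pow]
    linear_combination (-u ^ p.2) * h3

/-- `g` is a monomial matrix normalising the family of root elements -/
structure Adm (g : Matrix D.Idx D.Idx F) (w : Equiv.Perm (Rt D)) (c : Rt D → F) : Prop where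
  aut : IsAut w
  eq : g = mono w c
  inv : ∀ s, c s * c (neg s) = 1
  conj : ∀ (s : Rt D) (u : F), g * D.x F s u = D.x F (w s) (c s * u) * g

namespace Adm
variable {g g' : Matrix D.Idx D.Idx F} {w w' : Equiv.Perm (Rt D)} {c c' : Rt D → F}

theorem ne_zero (h : Adm g w c) (s : Rt D) : c s ≠ 0 := fun h0 => by simpa [h0] using h.inv s

theorem mul (h : Adm g w c) (h' : Adm g' w' c') : Adm (g * g') (w * w') fun s => c (w' s) * c' s where
  aut := h.aut.mul h'.aut
  eq := by rw [h.eq, h'.eq, mono_mul h.aut]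
  inv s := by
    rw [h'.aut.neg]
    linear_combination (c' s * c' (neg s)) * h.inv (w' s) + h'.inv s
  conj s u := by
    rw [mul_assoc, h'.conj, ← mul_assoc, h.conj, mul_assoc, mul_assoc]; rfl

theorem mul_inv (h : Adm g w c) : g * mono w⁻¹ (fun s => (c (w⁻¹ s))⁻¹) = 1 := by
  rw [h.eq, mono_mul h.aut, mul_inv_cancel, ← mono_one]
  congr 1
  funext s
  exact mul_inv_cancel₀ (h.ne_zero _)

theorem inv_mul (h : Adm g w c) : mono w⁻¹ (fun s => (c (w⁻¹ s))⁻¹) * g = 1 :=
  mul_eq_one_comm.1 h.mul_inv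

theorem symm (h : Adm g w c) : Adm (mono w⁻¹ (fun s => (c (w⁻¹ s))⁻¹)) w⁻¹ fun s => (c (w⁻¹ s))⁻¹ where
  aut := h.aut.inv
  eq := rfl
  inv s := by rw [h.aut.inv.neg, ← _root_.mul_inv, h.inv, inv_one]
  conj s u := by
    have := h.conj (w⁻¹ s) ((c (w⁻¹ s))⁻¹ * u)
    rw [mul_inv_cancel_left₀ (h.ne_zero _), show w (w⁻¹ s) = s by simp] at this
    calc _ = mono w⁻¹ (fun s => (c (w⁻¹ s))⁻¹) * (D.x F s u * g) * mono w⁻¹ (fun s => (c (w⁻¹ s))⁻¹) := by
          rw [mul_assoc, mul_assoc, h.mul_inv, mul_one]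
      _ = _ := by rw [← this, ← mul_assoc, h.inv_mul, one_mul]

theorem congr (h : Adm g w c) (e1 : w = w') (e2 : ∀ s, c s = c' s) : Adm g w' c' := by
  rw [← e1, ← funext e2]; exact h

theorem right_cancel (h : Adm g w c) {A B : Matrix D.Idx D.Idx F} (e : A * g = B * g) : A = B := by
  have := congrArg (· * mono w⁻¹ (fun s => (c (w⁻¹ s))⁻¹)) e
  simpa only [mul_assoc, h.mul_inv, mul_one] using this

theorem conj_word (h : Adm g w c) (l : List (ℕ × F)) (ρ : ℕ → ℕ) (c' : ℕ → F)
    (hl : ∀ p ∈ l, ∃ hp : p.1 < D.nroots, ρ p.1 = w ⟨p.1, hp⟩ ∧ c' p.1 = c ⟨p.1, hp⟩) :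
    g * D.wordMat F l = D.wordMat F (l.map fun p => (ρ p.1, c' p.1 * p.2)) * g := by
  induction l with
  | nil => simp [ChevalleyDatum.wordMat]
  | cons p l ih =>
    obtain ⟨hp, e1, e2⟩ := hl p List.mem_cons_self
    have := ih fun q hq => hl q (List.mem_cons_of_mem _ hq)
    simp only [ChevalleyDatum.wordMat, List.map_cons, List.prod_cons] at this ⊢
    rw [← mul_assoc, e1, e2, h.conj ⟨p.1, hp⟩, mul_assoc, this, mul_assoc]

theorem conj_nMat (h : Adm g w c) (r : Rt D) (t : F) :
    g * D.nMat F r t = D.nMat F (w r) (c r * t) * g := by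
  simp only [ChevalleyDatum.nMat, ChevalleyDatum.wordMat, ChevalleyDatum.nWord, List.map_cons,
    List.map_nil, List.prod_cons, List.prod_nil, mul_one, ← neg_val]
  rw [← mul_assoc, h.conj, mul_assoc, ← mul_assoc g, h.conj, mul_assoc, h.conj, h.aut.neg]
  have : c (neg r) * -t⁻¹ = -(c r * t)⁻¹ := by
    rw [_root_.mul_inv, eq_inv_of_mul_eq_one_right (h.inv r)]; ring
  rw [this]
  simp only [mul_assoc]

end Adm

theorem adm_diag (χ : Lat D → F) (hχ : ∀ a b, χ (a + b) = χ a * χ b) (h0 : χ 0 = 1) :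
    Adm (mono 1 fun s => χ (wt s)) 1 fun s => χ (wt s) where
  aut := IsAut.one
  eq := rfl
  inv s := by rw [← hχ, wt_neg, add_neg_cancel, h0]
  conj s u := by
    have : mono 1 (fun s => χ (wt s)) = Matrix.diagonal fun a => χ (wI a) := by
      rw [mono_one_eq]
      congr 1
      funext a; cases a <;> simp [h0]
    rw [this]
    exact diagonal_mul_x χ hχ h0 s u

/-! ### reduction to base cases -/

variable (D) in
/-- Signs for the fundamental reflections, compatible with the tables. -/
structure SignOK (sg : ℕ → ℕ → ℤ) : Prop where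
  pm : ∀ i s, sg i s = 1 ∨ sg i s = -1
  self : ∀ i : Nd D, sg i (simple i) = -1
  neg : ∀ (i : Nd D) (s : Rt D), sg i (neg s) = sg i s
  refl : ∀ (i : Nd D) (s : Rt D), sg i s * sg i (sRefl i s) = (-1) ^ (wt s i).natAbs
  chain : ∀ (i : Nd D) (s a b : Rt D), a ≠ s → a ≠ CA.Chev.neg s →
    (xck (sRefl i s) (Sum.inr (sRefl i b)) (Sum.inr (sRefl i a))).1 *
      sg i s ^ (xck s (Sum.inr b) (Sum.inr a)).2 * sg i a = sg i b * (xck s (Sum.inr b) (Sum.inr a)).1
  terms : ∀ (i : Nd D) (r s : Rt D), s ≠ r → s ≠ CA.Chev.neg r →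
    D.commTerms (sRefl i r) (sRefl i s) = (D.commTerms r s).map fun c =>
      (D.reflectRoot i c.1, c.2.1 * sg i c.1 * sg i r ^ c.2.2.1 * sg i s ^ c.2.2.2, c.2.2.1, c.2.2.2)

variable (D F) in
/-- The base cases. -/
structure WeakFacts (sg : ℕ → ℕ → ℤ) : Prop where
  add_base : ∀ r : Rt D, (∀ i, 0 ≤ wt r i) → ∀ t u : F, D.x F r (t + u) = D.x F r t * D.x F r u
  comm_base : ∀ r s : Rt D, (∀ i, 0 ≤ wt r i ∧ (wt r i = 0 → 0 ≤ wt s i)) → s ≠ r → s ≠ neg r → ∀ t u : F,
    D.x F s u * D.x F r t = D.x F r t * D.x F s u * D.wordMat F (D.commWord F r s t u)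
  n_simple : ∀ (i : Nd D) (t : F), t ≠ 0 →
    D.nMat F (simple i) t = mono (sRefl i) fun s => sg i s * t ^ (- wt s i)

variable {sg : ℕ → ℕ → ℤ}

theorem SignOK.sq (hS : SignOK D sg) (i s : ℕ) : (sg i s : F) * sg i s = 1 := by
  rcases hS.pm i s with h | h <;> simp [h]

theorem SignOK.adm (hS : SignOK D sg) (i : Nd D) :
    Adm (mono (sRefl i) fun s => (sg i s : F)) (sRefl i) fun s => (sg i s : F) where
  aut := isAut_of_mem (sRefl_mem i)
  eq := rfl
  inv s := by rw [hS.neg, hS.sq]
  conj s u := mono_conj (isAut_of_mem (sRefl_mem i)) (fun s => by rw [hS.neg, hS.sq]) s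
    (fun a b h1 h2 => by exact_mod_cast congrArg (Int.cast (R := F)) (hS.chain i s a b h1 h2)) u

theorem lt_sRefl {i : Nd D} {r : Rt D} (h : wt r i < 0) : r < sRefl i r := by
  rw [← ord_lt_ord, ord_sRefl]
  have := mul_pos (neg_pos.2 h) ((pos_iff_ord _).1 (pos_simple i))
  linarith

theorem sRefl_eq_self {i : Nd D} {r : Rt D} (h : wt r i = 0) : sRefl i r = r := by
  apply wt_injective
  rw [wt_sRefl, h, zero_smul, sub_zero]

theorem WeakFacts.x_add (hS : SignOK D sg) (hW : WeakFacts D F sg) (r : Rt D) :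
    ∀ t u : F, D.x F r (t + u) = D.x F r t * D.x F r u := by
  induction r using WellFoundedGT.induction with
  | _ r ih =>
    by_cases h : ∀ i, 0 ≤ wt r i
    · exact hW.add_base r h
    · push Not at h
      obtain ⟨i, hi⟩ := h
      intro t u
      have hA := hS.adm (F := F) i
      have key : ∀ t : F, D.x F r t * mono (sRefl i) (fun s => (sg i s : F)) =
          mono (sRefl i) (fun s => (sg i s : F)) * D.x F (sRefl i r) (sg i (sRefl i r) * t) := by
        intro t
        rw [hA.conj, sRefl_sRefl, ← mul_assoc, hS.sq, one_mul]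
      apply hA.right_cancel
      rw [mul_assoc, key, key, ← mul_assoc, key, mul_add, ih _ (lt_sRefl hi), mul_assoc]

theorem comm_step (hS : SignOK D sg) (i : Nd D) {r s : Rt D} (h1 : s ≠ r) (h2 : s ≠ neg r)
    (h : ∀ t u : F, D.x F s u * D.x F r t = D.x F r t * D.x F s u * D.wordMat F (D.commWord F r s t u))
    (t u : F) : D.x F (sRefl i s) u * D.x F (sRefl i r) t = D.x F (sRefl i r) t * D.x F (sRefl i s) u *
      D.wordMat F (D.commWord F (sRefl i r) (sRefl i s) t u) := by
  have hA := hS.adm (F := F) i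
  have key : ∀ (r : Rt D) (t : F), D.x F (sRefl i r) t * mono (sRefl i) (fun s => (sg i s : F)) =
      mono (sRefl i) (fun s => (sg i s : F)) * D.x F r (sg i r * t) := by
    intro r t
    rw [hA.conj, ← mul_assoc, hS.sq, one_mul]
  have kw := hA.conj_word (D.commWord F r s (sg i r * t) (sg i s * u)) (D.reflectRoot i)
    (fun k => (sg i k : F)) (fun p hp => by
      obtain ⟨c, hc, rfl⟩ := List.mem_map.1 hp
      obtain ⟨-, -, h3, -⟩ := commTerms_spec hc
      exact ⟨h3, rfl, rfl⟩)
  have e : (D.commWord F r s (sg i r * t) (sg i s * u)).map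
      (fun p => (D.reflectRoot i p.1, (sg i p.1 : F) * p.2)) = D.commWord F (sRefl i r) (sRefl i s) t u := by
    unfold ChevalleyDatum.commWord
    rw [hS.terms i r s h1 h2, List.map_map, List.map_map]
    refine List.map_congr_left fun c _ => ?_
    simp only [Function.comp]
    congr 1
    push_cast
    rw [← mul_neg, mul_pow, mul_pow]; ring
  rw [e] at kw
  apply hA.right_cancel
  rw [mul_assoc, key, ← mul_assoc, key, mul_assoc, h, mul_assoc _ (D.wordMat F _), ← kw,
    ← mul_assoc (D.x F _ _ * D.x F _ _), mul_assoc (D.x F _ _) _ (mono _ _), key,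
    ← mul_assoc (D.x F _ _), key]
  simp only [mul_assoc]

theorem WeakFacts.comm (hS : SignOK D sg) (hW : WeakFacts D F sg) (r s : Rt D) : s ≠ r → s ≠ neg r →
    ∀ t u : F, D.x F s u * D.x F r t = D.x F r t * D.x F s u * D.wordMat F (D.commWord F r s t u) := by
  induction r using WellFoundedGT.induction generalizing s with
  | _ r ih =>
    induction s using WellFoundedGT.induction with
    | _ s ih' =>
      intro h1 h2
      by_cases h : ∀ i, 0 ≤ wt r i ∧ (wt r i = 0 → 0 ≤ wt s i)
      · exact hW.comm_base r s h h1 h2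
      · push Not at h
        obtain ⟨i, hi⟩ := h
        have h3 : sRefl i s ≠ sRefl i r := by simpa using h1
        have h4 : sRefl i s ≠ neg (sRefl i r) := by rw [← sRefl_neg]; exact (sRefl i).injective.ne h2
        have := comm_step (F := F) hS i h3 h4 (by
          rcases lt_or_ge (wt r i) 0 with h5 | h5
          · exact ih _ (lt_sRefl h5) _ h3 h4
          · obtain ⟨h6, h7⟩ := hi h5
            rw [sRefl_eq_self h6] at h3 h4 ⊢
            exact ih' _ (lt_sRefl h7) h3 h4)
        simpa using this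

variable (F) in
/-- the form of `n_r(t)` with signs `η` -/
def NForm (r : Rt D) (η : Rt D → ℤ) : Prop :=
  ∀ t : F, t ≠ 0 → Adm (D.nMat F r t) (refl r) fun s => η s * t ^ (- pr r s)

theorem WeakFacts.nform_simple (hS : SignOK D sg) (hW : WeakFacts D F sg) (i : Nd D) :
    NForm F (simple i) fun s => sg i s := by
  intro t ht
  have h1 := (hS.adm (F := F) i).mul (adm_diag (fun a => t ^ (- a i))
    (fun a b => by rw [Pi.add_apply, neg_add, zpow_add₀ ht]) (by simp))
  have h2 := h1.eq
  rw [mul_one] at h1 h2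
  rw [hW.n_simple i t ht, refl_simple]
  simp only [pr_simple]
  simp only [Equiv.Perm.one_apply] at h1 h2
  rw [← h2]
  exact h1

theorem pm_zpow {a : ℤ} (h : a = 1 ∨ a = -1) (n : ℤ) : (a : F) ^ n = ((a ^ n.natAbs : ℤ) : F) := by
  push_cast
  rcases Int.natAbs_eq n with e | e
  · conv_lhs => rw [e]
    rw [zpow_natCast]
  · conv_lhs => rw [e]
    rw [_root_.zpow_neg, zpow_natCast, ← inv_pow]
    rcases h with h | h <;> simp [h]

theorem nform_step (hS : SignOK D sg) (i : Nd D) {r : Rt D} {η : Rt D → ℤ} (h : NForm F r η) :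
    NForm F (sRefl i r) fun s => sg i (refl r (sRefl i s)) * η (sRefl i s) *
      sg i r ^ (pr r (sRefl i s)).natAbs * sg i (sRefl i s) := by
  intro t ht
  have hA := hS.adm (F := F) i
  have h0 : (sg i r : F) * t ≠ 0 := mul_ne_zero (hA.ne_zero r) ht
  have h1 := (hA.mul (h _ h0)).mul hA.symm
  rw [hA.conj_nMat, mul_assoc, hA.mul_inv, mul_one, ← mul_assoc, hS.sq, one_mul] at h1
  refine h1.congr (hA.aut.conj_refl r) fun s => ?_
  simp only [sRefl_inv]
  have e : pr (sRefl i r) s = pr r (sRefl i s) := by rw [← pr_sRefl i r, sRefl_sRefl]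
  rw [e, mul_zpow, pm_zpow (hS.pm i r), Int.natAbs_neg,
    (eq_inv_of_mul_eq_one_right (hS.sq (F := F) i (sRefl i s))).symm]
  push_cast
  ring

theorem exists_nform (hS : SignOK D sg) (r : Rt D) : ∃ η : Rt D → ℤ, (∀ s, η s = 1 ∨ η s = -1) ∧ η r = -1 ∧
    (∀ s, η (neg s) = η s) ∧ (∀ s, η s * η (refl r s) = (-1) ^ (pr r s).natAbs) ∧
    (WeakFacts D ℚ sg → NForm ℚ r η) ∧ (WeakFacts D F sg → NForm F r η) := by
  induction r using root_induction with
  | hs i =>
    refine ⟨fun s => sg i s, fun s => hS.pm _ _, hS.self i, hS.neg i, fun s => ?_,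
      fun h => h.nform_simple hS i, fun h => h.nform_simple hS i⟩
    rw [refl_simple, pr_simple]; exact hS.refl i s
  | hstep i r ih =>
    obtain ⟨η, h1, h2, h3, h4, h5, h6⟩ := ih
    refine ⟨_, fun s => ?_, ?_, fun s => ?_, fun s => ?_, fun h => nform_step hS i (h5 h),
      fun h => nform_step hS i (h6 h)⟩
    · have e : sg i r ^ (pr r (sRefl i s)).natAbs = 1 ∨ sg i r ^ (pr r (sRefl i s)).natAbs = -1 := by
        rcases hS.pm i r with h | h <;> rw [h]
        · simp
        · exact neg_one_pow_eq_or ℤ _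
      rcases hS.pm i (refl r (sRefl i s)) with a | a <;> rcases h1 (sRefl i s) with b | b <;>
        rcases e with c | c <;> rcases hS.pm i (sRefl i s) with d | d <;> rw [a, b, c, d] <;> simp
    · simp only [sRefl_sRefl, refl_self, pr_self, hS.neg, h2]
      rcases hS.pm i r with h | h <;> simp [h]
    · simp only [sRefl_neg, refl_neg, hS.neg, h3, pr_neg_right, Int.natAbs_neg]
    · have e1 : sRefl i (refl (sRefl i r) s) = refl r (sRefl i s) := by
        rw [W_refl (sRefl_mem i), sRefl_sRefl]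
      have e2 : pr (sRefl i r) s = pr r (sRefl i s) := by rw [← pr_sRefl i r, sRefl_sRefl]
      have e3 : pr r (refl r (sRefl i s)) = - pr r (sRefl i s) := by
        rw [← W_pr (refl_mem r), refl_self, refl_refl, pr_neg_left]
      simp only [e1, e2, e3, refl_refl, Int.natAbs_neg]
      rw [← h4]
      have e : sg i r ^ (pr r (sRefl i s)).natAbs = 1 ∨ sg i r ^ (pr r (sRefl i s)).natAbs = -1 := by
        rcases hS.pm i r with h | h <;> rw [h]
        · simp
        · exact neg_one_pow_eq_or ℤ _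
      rcases hS.pm i (refl r (sRefl i s)) with a | a <;>
        rcases e with c | c <;> rcases hS.pm i (sRefl i s) with d | d <;> rw [a, c, d] <;> ring

theorem eta_eq_of_nform {r : Rt D} {η : Rt D → ℤ} (h1 : ∀ s, η s = 1 ∨ η s = -1) (h : NForm ℚ r η)
    (s : Rt D) : eta r s = η s := by
  unfold eta
  rw [(h 1 one_ne_zero).eq]
  rcases h1 s with e | e <;> simp [e]
  norm_num

theorem isEta_of_weak (hS : SignOK D sg) (hQ : WeakFacts D ℚ sg) : IsEta D := by
  refine ⟨fun r => ?_, fun r s => ?_, fun r s => ?_⟩ <;>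
    obtain ⟨η, h1, h2, h3, h4, h5, -⟩ := exists_nform (F := ℚ) hS r <;>
    simp only [eta_eq_of_nform h1 (h5 hQ)]
  · exact h2
  · exact h3 s
  · exact h4 s

theorem nform_of_weak (hS : SignOK D sg) (hQ : WeakFacts D ℚ sg) (hW : WeakFacts D F sg) (r : Rt D) :
    NForm F r (eta r) := by
  obtain ⟨η, h1, -, -, -, h5, h6⟩ := exists_nform (F := F) hS r
  rw [funext (eta_eq_of_nform h1 (h5 hQ))]
  exact h6 hW

theorem matFacts_of_weak (hS : SignOK D sg) (hQ : WeakFacts D ℚ sg) (hW : WeakFacts D F sg) :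
    MatFacts D F where
  x_add := hW.x_add hS
  comm := hW.comm hS
  nMat_eq r t ht := by rw [nExp_eq_mono]; exact (nform_of_weak hS hQ hW r t ht).eq
  nconj r s t u ht := (nform_of_weak hS hQ hW r t ht).conj s u

end CA.Chev
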