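import Cfsg.Prelude.Def_ChevAutomorphisms

/-! Root combinatorics of a `ChevalleyDatum`, uniform over the tabulated types. -/

set_option autoImplicit false

namespace CA.Chev

open Cfsg.Lie Cfsg.Lie.ChevalleyDatum Matrix

attribute [-simp] zsmul_eq_mul

section Defs
variable (D : ChevalleyDatum)

/-- roots -/
abbrev Rt : Type := Fin D.nroots
/-- nodes of the diagram -/
abbrev Nd : Type := Fin D.rank
/-- the weight lattice (also used for the coroot lattice) -/
abbrev Lat : Type := Nd D → ℤ

/-- coefficient of the coroot of `r` at the `i`-th fundamental coroot -/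
def corN (r i : ℕ) : ℤ := (D.coroot.getD r #[]).getD i 0

variable {D}

/-- the root `r` in the coordinates of the fundamental weights -/
def wt (r : Rt D) : Lat D := fun i => D.cartan i r
/-- the coroot of `r` in the coordinates of the fundamental coroots -/
def cor (r : Rt D) : Lat D := fun i => corN D r i
/-- `pr r s = 2 (r, s) / (r, r)` -/
def pr (r s : Rt D) : ℤ := cor r ⬝ᵥ wt s
/-- positive roots -/
def Pos (r : Rt D) : Prop := D.IsPosRoot r

instance instDecidablePredPos : DecidablePred (Pos (D := D)) :=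
  fun r => inferInstanceAs (Decidable (D.IsPosRoot r))

end Defs

/-- The table-checked root combinatorics of a datum. -/
class IsRoot (D : ChevalleyDatum) : Prop where
  neg_eq : ∀ r : Rt D, D.neg r + r + 1 = D.nroots
  simple_lt : ∀ i : Nd D, D.simple i < D.nroots
  reflect_lt : ∀ (i : Nd D) (s : Rt D), D.reflectRoot i s < D.nroots
  coroot_size : ∀ r : Rt D, (D.coroot.getD r #[]).size = D.rank
  wt_neg : ∀ (r : Rt D) (i : Nd D), D.cartan i (D.neg r) = - D.cartan i r
  cor_neg : ∀ (r : Rt D) (i : Nd D), corN D (D.neg r) i = - corN D r i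
  cor_simple : ∀ i j : Nd D, corN D (D.simple i) j = if j = i then 1 else 0
  wt_reflect : ∀ (i : Nd D) (s : Rt D) (j : Nd D),
    D.cartan j (D.reflectRoot i s) = D.cartan j s - D.cartan i s * D.cartan j (D.simple i)
  cor_reflect : ∀ (i : Nd D) (s : Rt D) (j : Nd D), corN D (D.reflectRoot i s) j =
    corN D s j - if j = i then ∑ k : Nd D, corN D s k * D.cartan k (D.simple i) else 0
  pr_self : ∀ r : Rt D, ∑ k : Nd D, corN D r k * D.cartan k r = 2
  pos_reflect : ∀ (i : Nd D) (s : Rt D), D.IsPosRoot s → (s : ℕ) ≠ D.simple i →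
    D.IsPosRoot (D.reflectRoot i s)
  pos_iff : ∀ r : Rt D, D.IsPosRoot r ↔ D.nroots ≤ 2 * r
  even_nroots : D.nroots % 2 = 0
  rank_two_le : 2 ≤ D.rank
  exists_ord : ∃ φ : Lat D, StrictMono fun r : Rt D => φ ⬝ᵥ wt r
  exists_len : ∃ (len : ℕ → ℕ) (rc : ℕ → ℕ → ℤ), (∀ r : Rt D, 0 < len r) ∧
    (∀ (r : Rt D) (j : Nd D), D.cartan j r = ∑ i : Nd D, rc r i * D.cartan j (D.simple i)) ∧
    (∀ (r : Rt D) (i : Nd D), rc r i * len (D.simple i) = corN D r i * len r) ∧
    ∀ i j : Nd D, (len (D.simple i) : ℤ) * D.cartan i (D.simple j) =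
      len (D.simple j) * D.cartan j (D.simple i)
  exists_inv : ∃ (d : ℤ) (B : ℕ → ℕ → ℤ), 0 < d ∧ ∀ i j : Nd D,
    ∑ k : Nd D, B i k * D.cartan k (D.simple j) = if i = j then d else 0
  connected : ∀ J : Finset (Nd D), J.Nonempty → J ≠ Finset.univ →
    ∃ i ∈ J, ∃ j, j ∉ J ∧ D.cartan i (D.simple (j : Nd D)) ≠ 0
  cartan_pairs : ∀ i j : Nd D, i ≠ j →
    (D.cartan i (D.simple j), D.cartan j (D.simple i)) ∈
      [((0 : ℤ), (0 : ℤ)), (-1, -1), (-1, -2), (-2, -1), (-1, -3), (-3, -1)]
  chain_size : D.chain.size = D.nroots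
  chain_spec : ∀ (r : Rt D), ∀ e ∈ (D.chain.getD r #[]).toList, e.1 < D.nroots ∧ e.1 ≠ r ∧ e.1 ≠ D.neg r ∧
    ∀ q ∈ e.2.toList.zipIdx, q.1.1 < D.nroots ∧
      ∀ j : Nd D, D.cartan j q.1.1 = ((q.2 : ℤ) + 1) * D.cartan j r + D.cartan j e.1

variable {D : ChevalleyDatum} [hD : IsRoot D]

/-- the negative of a root -/
def neg (r : Rt D) : Rt D := ⟨D.neg r, by have := hD.neg_eq r; omega⟩
/-- the fundamental roots -/
def simple (i : Nd D) : Rt D := ⟨D.simple i, hD.simple_lt i⟩

@[simp] theorem neg_val (r : Rt D) : (neg r : ℕ) = D.neg r := rfl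
@[simp] theorem simple_val (i : Nd D) : (simple i : ℕ) = D.simple i := rfl

@[simp] theorem neg_neg (r : Rt D) : neg (neg r) = r := by
  apply Fin.ext
  have h1 := hD.neg_eq r
  have h2 := hD.neg_eq (neg r)
  simp only [neg_val] at *
  omega

theorem neg_injective : Function.Injective (neg (D := D)) :=
  Function.LeftInverse.injective neg_neg

@[simp] theorem neg_inj {r s : Rt D} : neg r = neg s ↔ r = s := neg_injective.eq_iff

theorem neg_eq_iff {r s : Rt D} : neg r = s ↔ r = neg s :=
  ⟨fun h => by rw [← h, neg_neg], fun h => by rw [h, neg_neg]⟩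

@[simp] theorem wt_neg (r : Rt D) : wt (neg r) = - wt r := funext fun i => hD.wt_neg r i
@[simp] theorem cor_neg (r : Rt D) : cor (neg r) = - cor r := funext fun i => hD.cor_neg r i

theorem cor_simple (i : Nd D) : cor (simple i) = Pi.single i 1 := by
  funext j
  rw [Pi.single_apply]
  exact hD.cor_simple i j

@[simp] theorem pr_simple (i : Nd D) (s : Rt D) : pr (simple i) s = wt s i := by
  rw [pr, cor_simple, single_dotProduct, one_mul]

@[simp] theorem pr_self (r : Rt D) : pr r r = 2 := hD.pr_self r
@[simp] theorem pr_neg_left (r s : Rt D) : pr (neg r) s = - pr r s := by simp [pr]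
@[simp] theorem pr_neg_right (r s : Rt D) : pr r (neg s) = - pr r s := by simp [pr]

@[simp] theorem wt_simple_self (i : Nd D) : wt (simple i) i = 2 := by
  rw [← pr_simple, pr_self]

omit hD in
theorem pairing_eq_pr (r s : Rt D) : D.pairing r s = pr r s := by
  unfold ChevalleyDatum.pairing pr dotProduct cor wt corN
  rw [Fin.sum_univ_eq_sum_range (fun i => (D.coroot.getD r #[]).getD i 0 * D.cartan i s) D.rank,
    ← List.toFinset_range, List.sum_toFinset _ List.nodup_range]

/-! ### the ordering functional -/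

variable (D) in
/-- an additive functional on the weight lattice, strictly increasing along the root indices -/
noncomputable def ordVec : Lat D := hD.exists_ord.choose

/-- the value of the ordering functional on a root -/
noncomputable def ord (r : Rt D) : ℤ := ordVec D ⬝ᵥ wt r

theorem ord_strictMono : StrictMono (ord (D := D)) := hD.exists_ord.choose_spec

theorem ord_lt_ord {r s : Rt D} : ord r < ord s ↔ r < s := ord_strictMono.lt_iff_lt
theorem ord_le_ord {r s : Rt D} : ord r ≤ ord s ↔ r ≤ s := ord_strictMono.le_iff_le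

theorem wt_injective : Function.Injective (wt (D := D)) := fun r s h =>
  ord_strictMono.injective (by unfold ord; rw [h])

@[simp] theorem wt_inj {r s : Rt D} : wt r = wt s ↔ r = s := wt_injective.eq_iff

@[simp] theorem ord_neg (r : Rt D) : ord (neg r) = - ord r := by simp [ord]

theorem pos_iff_le (r : Rt D) : Pos r ↔ D.nroots ≤ 2 * r := hD.pos_iff r

theorem pos_iff_neg_lt (r : Rt D) : Pos r ↔ neg r < r := by
  rw [pos_iff_le, Fin.lt_def, neg_val]
  have := hD.neg_eq r
  have := hD.even_nroots
  omega

theorem pos_iff_ord (r : Rt D) : Pos r ↔ 0 < ord r := by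
  rw [pos_iff_neg_lt, ← ord_lt_ord, ord_neg]; omega

theorem neg_ne (r : Rt D) : neg r ≠ r := by
  intro h
  have h1 := congrArg Fin.val h
  have := hD.neg_eq r
  have := hD.even_nroots
  rw [neg_val] at h1
  omega

theorem ne_neg (r : Rt D) : r ≠ neg r := (neg_ne r).symm

theorem ord_ne_zero (r : Rt D) : ord r ≠ 0 := by
  intro h
  apply neg_ne r
  apply ord_strictMono.injective
  rw [ord_neg, h]; rfl

theorem wt_ne_zero (r : Rt D) : wt r ≠ 0 := fun h => ord_ne_zero r (by simp [ord, h])

@[simp] theorem pos_neg_iff (r : Rt D) : Pos (neg r) ↔ ¬ Pos r := by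
  rw [pos_iff_ord, pos_iff_ord, ord_neg]
  have := ord_ne_zero r
  omega

theorem not_pos_iff_ord (r : Rt D) : ¬ Pos r ↔ ord r < 0 := by
  rw [pos_iff_ord]
  have := ord_ne_zero r
  omega

theorem Pos.not_neg {r : Rt D} (h : Pos r) : ¬ Pos (neg r) := by simpa using h

theorem isPosRoot_iff_cor (r : Rt D) : D.IsPosRoot r ↔ ∀ i, 0 ≤ cor r i := by
  unfold ChevalleyDatum.IsPosRoot cor corN
  have hs := hD.coroot_size r
  constructor
  · rintro ⟨-, h⟩ i
    apply h
    have hi : (i : ℕ) < (D.coroot.getD r #[]).size := by rw [hs]; exact i.2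
    generalize D.coroot.getD r #[] = a at hi
    rw [Array.getD_eq_getD_getElem?, Array.getElem?_eq_getElem hi]
    simp
  · intro h
    refine ⟨r.2, fun c hc => ?_⟩
    rw [Array.mem_toList_iff] at hc
    obtain ⟨i, hi, rfl⟩ := Array.getElem_of_mem hc
    have := h ⟨i, hs ▸ hi⟩
    rwa [Array.getD_eq_getD_getElem?, Array.getElem?_eq_getElem hi] at this

theorem isNegRoot_iff_cor (r : Rt D) : D.IsNegRoot r ↔ ∀ i, cor r i ≤ 0 := by
  unfold ChevalleyDatum.IsNegRoot cor corN
  have hs := hD.coroot_size r
  constructor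
  · rintro ⟨-, h⟩ i
    apply h
    have hi : (i : ℕ) < (D.coroot.getD r #[]).size := by rw [hs]; exact i.2
    generalize D.coroot.getD r #[] = a at hi
    rw [Array.getD_eq_getD_getElem?, Array.getElem?_eq_getElem hi]
    simp
  · intro h
    refine ⟨r.2, fun c hc => ?_⟩
    rw [Array.mem_toList_iff] at hc
    obtain ⟨i, hi, rfl⟩ := Array.getElem_of_mem hc
    have := h ⟨i, hs ▸ hi⟩
    rwa [Array.getD_eq_getD_getElem?, Array.getElem?_eq_getElem hi] at this

theorem pos_iff_cor (r : Rt D) : Pos r ↔ ∀ i, 0 ≤ cor r i := isPosRoot_iff_cor r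

theorem isNegRoot_iff (r : Rt D) : D.IsNegRoot r ↔ ¬ Pos r := by
  rw [← pos_neg_iff, pos_iff_cor, isNegRoot_iff_cor]
  simp

theorem not_pos_iff_cor (r : Rt D) : ¬ Pos r ↔ ∀ i, cor r i ≤ 0 := by
  rw [← isNegRoot_iff, isNegRoot_iff_cor]

theorem pos_simple (i : Nd D) : Pos (simple i) := by
  rw [pos_iff_cor, cor_simple]
  intro j
  rw [Pi.single_apply]
  split_ifs <;> simp

theorem simple_injective : Function.Injective (simple (D := D)) := by
  intro i j h
  have h1 := congrFun (congrArg cor h) i
  rw [cor_simple, cor_simple, Pi.single_eq_same, Pi.single_apply] at h1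
  by_contra hne
  simp [hne] at h1

@[simp] theorem simple_inj {i j : Nd D} : simple i = simple j ↔ i = j := simple_injective.eq_iff

theorem ord_of_wt_eq {r s u : Rt D} {a b : ℤ} (h : wt u = a • wt r + b • wt s) :
    ord u = a * ord r + b * ord s := by
  simp only [ord, h, dotProduct_add, dotProduct_smul, smul_eq_mul]

theorem pos_of_wt_eq_add {r s u : Rt D} {i j : ℕ} (hr : Pos r) (hs : Pos s) (hij : 0 < i + j)
    (h : wt u = (i : ℤ) • wt r + (j : ℤ) • wt s) : Pos u := by
  rw [pos_iff_ord] at *
  have : ord u = i * ord r + j * ord s := ord_of_wt_eq h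
  rw [this]
  rcases Nat.eq_zero_or_pos i with rfl | hi
  · have : (0 : ℤ) < j := by omega
    simpa using mul_pos this hs
  · have h1 : (0 : ℤ) < i * ord r := mul_pos (by exact_mod_cast hi) hr
    have h2 : (0 : ℤ) ≤ j * ord s := mul_nonneg (by positivity) hs.le
    omega

/-! ### lengths and root coefficients -/

/-- the squared length of a root, up to a common factor -/
noncomputable def len (r : Rt D) : ℕ := hD.exists_len.choose r
/-- the coefficients of a root on the fundamental roots -/
noncomputable def rc (r : Rt D) : Lat D := fun i => hD.exists_len.choose_spec.choose r i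

theorem len_pos (r : Rt D) : 0 < len r := hD.exists_len.choose_spec.choose_spec.1 r

theorem wt_eq_sum (r : Rt D) : wt r = ∑ i, rc r i • wt (simple i) := by
  funext j
  rw [Finset.sum_apply]
  exact hD.exists_len.choose_spec.choose_spec.2.1 r j

theorem rc_mul_len (r : Rt D) (i : Nd D) : rc r i * len (simple i) = cor r i * len r :=
  hD.exists_len.choose_spec.choose_spec.2.2.1 r i

theorem len_mul_pr (r s : Rt D) : (len r : ℤ) * pr r s = len s * pr s r := by
  have key : ∀ r s : Rt D, (len r : ℤ) * pr r s =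
      ∑ i, ∑ j, rc r i * rc s j * (len (simple i) * wt (simple j) i) := by
    intro r s
    unfold pr dotProduct
    rw [Finset.mul_sum]
    refine Finset.sum_congr rfl fun i _ => ?_
    rw [← mul_assoc, mul_comm (len r : ℤ), ← rc_mul_len, wt_eq_sum s, Finset.sum_apply, Finset.mul_sum]
    refine Finset.sum_congr rfl fun j _ => ?_
    simp only [Pi.smul_apply, smul_eq_mul]; ring
  rw [key, key, Finset.sum_comm]
  refine Finset.sum_congr rfl fun i _ => Finset.sum_congr rfl fun j _ => ?_
  have := hD.exists_len.choose_spec.choose_spec.2.2.2 j i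
  change (len (simple j) : ℤ) * wt (simple i) j = len (simple i) * wt (simple j) i at this
  rw [this]; ring

theorem pr_eq_zero_comm {r s : Rt D} : pr r s = 0 ↔ pr s r = 0 := by
  have h := len_mul_pr r s
  have h1 : (len r : ℤ) ≠ 0 := by exact_mod_cast (len_pos r).ne'
  have h2 : (len s : ℤ) ≠ 0 := by exact_mod_cast (len_pos s).ne'
  constructor <;> intro h0 <;> rw [h0] at h <;> simp_all

theorem pr_pos_comm {r s : Rt D} : 0 < pr r s ↔ 0 < pr s r := by
  have h := len_mul_pr r s
  have h1 : (0 : ℤ) < len r := by exact_mod_cast (len_pos r)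
  have h2 : (0 : ℤ) < len s := by exact_mod_cast (len_pos s)
  constructor <;> intro h0
  · exact (mul_pos_iff_of_pos_left h2).1 (h ▸ mul_pos h1 h0)
  · exact (mul_pos_iff_of_pos_left h1).1 (h ▸ mul_pos h2 h0)

theorem rc_eq_zero_iff (r : Rt D) (i : Nd D) : rc r i = 0 ↔ cor r i = 0 := by
  have h := rc_mul_len r i
  have h1 : (len r : ℤ) ≠ 0 := by exact_mod_cast (len_pos r).ne'
  have h2 : (len (simple i) : ℤ) ≠ 0 := by exact_mod_cast (len_pos _).ne'
  constructor <;> intro h0 <;> rw [h0] at h <;> simp_all

theorem rc_nonneg_iff (r : Rt D) (i : Nd D) : 0 ≤ rc r i ↔ 0 ≤ cor r i := by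
  have h := rc_mul_len r i
  have h1 : (0 : ℤ) < len r := by exact_mod_cast (len_pos r)
  have h2 : (0 : ℤ) < len (simple i) := by exact_mod_cast (len_pos _)
  constructor <;> intro h0
  · exact nonneg_of_mul_nonneg_left (h ▸ mul_nonneg h0 h2.le) h1
  · exact nonneg_of_mul_nonneg_left (h ▸ mul_nonneg h0 h1.le) h2

theorem pos_iff_rc (r : Rt D) : Pos r ↔ ∀ i, 0 ≤ rc r i := by
  simp only [pos_iff_cor, rc_nonneg_iff]

/-- the fundamental roots are linearly independent -/
theorem coeff_unique {a b : Lat D} (h : ∑ i, a i • wt (simple i) = ∑ i, b i • wt (simple i)) : a = b := by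
  obtain ⟨d, B, hd, hB⟩ := hD.exists_inv
  have key : ∀ (a : Lat D) (i : Nd D), (fun k : Nd D => B i k) ⬝ᵥ (∑ j, a j • wt (simple j)) = d * a i := by
    intro a i
    rw [dotProduct_sum]
    have : ∀ j : Nd D, (fun k : Nd D => B i k) ⬝ᵥ (a j • wt (simple j)) = if i = j then d * a j else 0 := by
      intro j
      rw [dotProduct_smul]
      have := hB i j
      change (fun k : Nd D => B i k) ⬝ᵥ wt (simple j) = _ at this
      rw [this]
      split_ifs <;> simp [mul_comm]
    simp [this]
  funext i
  have := key a i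
  rw [h, key] at this
  exact (mul_left_cancel₀ hd.ne' this).symm

theorem rc_eq_of_wt_eq {r : Rt D} {a : Lat D} (h : wt r = ∑ i, a i • wt (simple i)) : rc r = a :=
  coeff_unique ((wt_eq_sum r).symm.trans h)

theorem rc_simple (i : Nd D) : rc (simple i) = Pi.single i 1 := by
  apply rc_eq_of_wt_eq
  simp [Pi.single_apply]

@[simp] theorem rc_neg (r : Rt D) : rc (neg r) = - rc r := by
  apply rc_eq_of_wt_eq
  rw [wt_neg, wt_eq_sum r]
  simp

theorem rc_of_wt_eq {r s u : Rt D} {a b : ℤ} (h : wt u = a • wt r + b • wt s) :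
    rc u = a • rc r + b • rc s := by
  apply rc_eq_of_wt_eq
  rw [h, wt_eq_sum r, wt_eq_sum s]
  simp [Finset.smul_sum, ← Finset.sum_add_distrib, add_smul, mul_smul]

theorem rc_injective : Function.Injective (rc (D := D)) := fun r s h =>
  wt_injective (by rw [wt_eq_sum r, wt_eq_sum s, h])

@[simp] theorem len_neg (r : Rt D) : len (neg r) = len r := by
  have h := len_mul_pr r (neg r)
  simp only [pr_neg_right, pr_neg_left, pr_self] at h
  omega

theorem cor_ne_zero (r : Rt D) : cor r ≠ 0 := fun h => by
  have := pr_self r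
  rw [pr, h] at this
  simp at this

theorem cor_injective : Function.Injective (cor (D := D)) := by
  intro r s h
  -- `pr r = pr s`, so both roots have the same coroot
  have h1 : pr r s = 2 := by rw [pr, h]; exact pr_self s
  have h2 : pr s r = 2 := by rw [pr, ← h]; exact pr_self r
  have h3 := len_mul_pr r s
  rw [h1, h2] at h3
  have h4 : len r = len s := by omega
  apply rc_injective
  funext i
  have h5 := rc_mul_len r i
  have h6 := rc_mul_len s i
  rw [h, h4, ← h6] at h5
  exact mul_right_cancel₀ (by exact_mod_cast (len_pos _).ne') h5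

/-! ### reflections -/

/-- the reflection in a fundamental root, as a function -/
def sReflFun (i : Nd D) (s : Rt D) : Rt D := ⟨D.reflectRoot i s, hD.reflect_lt i s⟩

theorem wt_sReflFun (i : Nd D) (s : Rt D) : wt (sReflFun i s) = wt s - wt s i • wt (simple i) :=
  funext fun j => hD.wt_reflect i s j

theorem sReflFun_invol (i : Nd D) : Function.Involutive (sReflFun i) := by
  intro s
  apply wt_injective
  rw [wt_sReflFun, wt_sReflFun]
  funext j
  simp only [Pi.sub_apply, Pi.smul_apply, smul_eq_mul, wt_simple_self]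
  ring

/-- the reflection in a fundamental root -/
def sRefl (i : Nd D) : Equiv.Perm (Rt D) := (sReflFun_invol i).toPerm

@[simp] theorem sRefl_val (i : Nd D) (s : Rt D) : (sRefl i s : ℕ) = D.reflectRoot i s := rfl

theorem wt_sRefl (i : Nd D) (s : Rt D) : wt (sRefl i s) = wt s - wt s i • wt (simple i) :=
  wt_sReflFun i s

theorem cor_sRefl (i : Nd D) (s : Rt D) :
    cor (sRefl i s) = cor s - pr s (simple i) • cor (simple i) := by
  funext j
  have := hD.cor_reflect i s j
  rw [cor_simple, Pi.sub_apply, Pi.smul_apply, Pi.single_apply]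
  change cor (sRefl i s) j = cor s j - if j = i then pr s (simple i) else 0 at this
  rw [this]
  split_ifs <;> simp

@[simp] theorem sRefl_sRefl (i : Nd D) (s : Rt D) : sRefl i (sRefl i s) = s := sReflFun_invol i s

@[simp] theorem sRefl_mul_self (i : Nd D) : sRefl i * sRefl i = 1 := Equiv.ext (sRefl_sRefl i)

@[simp] theorem sRefl_inv (i : Nd D) : (sRefl i)⁻¹ = sRefl i := rfl

theorem pos_sRefl {i : Nd D} {s : Rt D} (hs : Pos s) (hne : s ≠ simple i) : Pos (sRefl i s) :=
  hD.pos_reflect i s hs fun h => hne (Fin.ext h)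

@[simp] theorem sRefl_simple (i : Nd D) : sRefl i (simple i) = neg (simple i) := by
  apply wt_injective
  rw [wt_sRefl, wt_simple_self, wt_neg]
  funext j; simp; ring

@[simp] theorem sRefl_neg (i : Nd D) (s : Rt D) : sRefl i (neg s) = neg (sRefl i s) := by
  apply wt_injective
  rw [wt_sRefl, wt_neg, wt_neg, wt_sRefl]
  funext j; simp; ring

@[simp] theorem pr_sRefl (i : Nd D) (r s : Rt D) : pr (sRefl i r) (sRefl i s) = pr r s := by
  rw [pr, cor_sRefl, wt_sRefl]
  simp only [sub_dotProduct, dotProduct_sub, smul_dotProduct, dotProduct_smul, smul_eq_mul]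
  change pr r s - pr r (simple i) * pr (simple i) s - wt s i * (pr r (simple i) -
    pr r (simple i) * pr (simple i) (simple i)) = pr r s
  rw [pr_self, pr_simple]; ring

theorem ord_sRefl (i : Nd D) (s : Rt D) : ord (sRefl i s) = ord s - wt s i * ord (simple i) := by
  simp [ord, wt_sRefl]

/-- a positive root has positive inner product with some fundamental root -/
theorem Pos.exists_wt_pos {r : Rt D} (hr : Pos r) : ∃ i, 0 < wt r i ∧ 0 < cor r i := by
  by_contra h
  push Not at h
  have h2 := pr_self r
  have : pr r r ≤ 0 := by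
    unfold pr dotProduct
    apply Finset.sum_nonpos
    intro i _
    have h1 := (pos_iff_cor r).1 hr i
    rcases le_or_gt (wt r i) 0 with h3 | h3
    · exact mul_nonpos_of_nonneg_of_nonpos h1 h3
    · have := h i h3
      have : cor r i = 0 := by omega
      simp [this]
  omega

/-- induction over positive roots by fundamental reflections -/
theorem Pos.induction {p : Rt D → Prop} (hs : ∀ i, p (simple i))
    (hstep : ∀ i s, Pos s → Pos (sRefl i s) → s < sRefl i s → wt s i < 0 → p s → p (sRefl i s))
    {r : Rt D} (hr : Pos r) : p r := by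
  induction r using WellFoundedLT.induction with
  | _ r ih =>
    obtain ⟨i, hi, -⟩ := hr.exists_wt_pos
    by_cases h : r = simple i
    · rw [h]; exact hs i
    · have h1 := pos_sRefl hr h
      have h2 : sRefl i r < r := by
        rw [← ord_lt_ord, ord_sRefl]
        have := mul_pos hi ((pos_iff_ord _).1 (pos_simple i))
        omega
      have h3 : wt (sRefl i r) i < 0 := by
        rw [wt_sRefl]; simp; omega
      have := hstep i (sRefl i r) h1 (by simpa using hr) (by simpa using h2) h3 (ih _ h2 h1)
      simpa using this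

/-- induction over all roots by fundamental reflections -/
theorem root_induction {p : Rt D → Prop} (hs : ∀ i, p (simple i))
    (hstep : ∀ i s, p s → p (sRefl i s)) (r : Rt D) : p r := by
  by_cases hr : Pos r
  · exact hr.induction hs fun i s _ _ _ _ h => hstep i s h
  · have : p (neg (neg r)) := by
      refine Pos.induction (p := fun s => p (neg s)) (fun i => ?_) (fun i s _ _ _ _ h => ?_)
        ((pos_neg_iff r).2 hr)
      · simpa using hstep i _ (hs i)
      · simpa using hstep i _ h
    simpa using this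

theorem exists_refl (r s : Rt D) : ∃ u : Rt D, wt u = wt s - pr r s • wt r ∧
    cor u = cor s - pr s r • cor r := by
  induction r using root_induction generalizing s with
  | hs i => exact ⟨sRefl i s, by rw [wt_sRefl, pr_simple], cor_sRefl i s⟩
  | hstep i r ih =>
    obtain ⟨u, h1, h2⟩ := ih (sRefl i s)
    have e1 : pr r (sRefl i s) = pr (sRefl i r) s := by
      rw [← pr_sRefl i r, sRefl_sRefl]
    have e2 : pr (sRefl i s) r = pr s (sRefl i r) := by
      rw [← pr_sRefl i _ r, sRefl_sRefl]
    refine ⟨sRefl i u, ?_, ?_⟩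
    · rw [wt_sRefl, h1, e1, wt_sRefl i r, wt_sRefl i s]
      funext j
      simp only [Pi.sub_apply, Pi.smul_apply, smul_eq_mul, wt_simple_self]
      ring
    · have e3 : pr u (simple i) = pr (sRefl i s) (simple i) - pr (sRefl i s) r * pr r (simple i) := by
        rw [pr, h2]; simp [pr]
      have e4 : pr (sRefl i s) (simple i) = - pr s (simple i) := by
        rw [← pr_sRefl i, sRefl_sRefl, sRefl_simple, pr_neg_right]
      rw [cor_sRefl, e3, e4, h2, e2, cor_sRefl i r, cor_sRefl i s]
      funext j
      simp only [Pi.sub_apply, Pi.smul_apply, smul_eq_mul]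
      ring

/-- the reflection in a root, as a function -/
noncomputable def reflFun (r s : Rt D) : Rt D := (exists_refl r s).choose

theorem wt_reflFun (r s : Rt D) : wt (reflFun r s) = wt s - pr r s • wt r :=
  (exists_refl r s).choose_spec.1

theorem reflFun_invol (r : Rt D) : Function.Involutive (reflFun r) := by
  intro s
  apply wt_injective
  have : pr r (reflFun r s) = - pr r s := by
    rw [pr, wt_reflFun]
    simp only [dotProduct_sub, dotProduct_smul, smul_eq_mul]
    change pr r s - pr r s * pr r r = _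
    rw [pr_self]; ring
  rw [wt_reflFun, this, wt_reflFun]
  simp

/-- the reflection in a root -/
noncomputable def refl (r : Rt D) : Equiv.Perm (Rt D) := (reflFun_invol r).toPerm

theorem wt_refl (r s : Rt D) : wt (refl r s) = wt s - pr r s • wt r := wt_reflFun r s

theorem cor_refl (r s : Rt D) : cor (refl r s) = cor s - pr s r • cor r :=
  (exists_refl r s).choose_spec.2

@[simp] theorem refl_refl (r s : Rt D) : refl r (refl r s) = s := reflFun_invol r s
@[simp] theorem refl_mul_self (r : Rt D) : refl r * refl r = 1 := Equiv.ext (refl_refl r)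
@[simp] theorem refl_inv (r : Rt D) : (refl r)⁻¹ = refl r := rfl

@[simp] theorem refl_simple (i : Nd D) : refl (simple i) = sRefl i := by
  ext1 s
  apply wt_injective
  rw [wt_refl, wt_sRefl, pr_simple]

@[simp] theorem refl_self (r : Rt D) : refl r r = neg r := by
  apply wt_injective
  rw [wt_refl, pr_self, wt_neg]
  funext j; simp; ring

@[simp] theorem refl_neg_left (r : Rt D) : refl (neg r) = refl r := by
  ext1 s
  apply wt_injective
  simp [wt_refl]

@[simp] theorem refl_neg (r s : Rt D) : refl r (neg s) = neg (refl r s) := by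
  apply wt_injective
  simp only [wt_refl, wt_neg, pr_neg_right]
  funext j; simp; ring

/-! ### the Weyl group -/

variable (D) in
/-- the Weyl group, as a group of permutations of the roots -/
def W : Subgroup (Equiv.Perm (Rt D)) := Subgroup.closure (Set.range sRefl)

theorem sRefl_mem (i : Nd D) : sRefl i ∈ W D := Subgroup.subset_closure ⟨i, rfl⟩

theorem W_induction {p : Equiv.Perm (Rt D) → Prop} (h1 : p 1)
    (hstep : ∀ i w, w ∈ W D → p w → p (sRefl i * w)) {w : Equiv.Perm (Rt D)} (hw : w ∈ W D) : p w := by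
  induction hw using Subgroup.closure_induction_left with
  | one => exact h1
  | mul_left x hx y hy ih => obtain ⟨i, rfl⟩ := hx; exact hstep i y hy ih
  | inv_mul_cancel x hx y hy ih => obtain ⟨i, rfl⟩ := hx; exact hstep i y hy ih

theorem W_induction_right {p : Equiv.Perm (Rt D) → Prop} (h1 : p 1)
    (hstep : ∀ i w, w ∈ W D → p w → p (w * sRefl i)) {w : Equiv.Perm (Rt D)} (hw : w ∈ W D) : p w := by
  induction hw using Subgroup.closure_induction_right with
  | one => exact h1
  | mul_right x hx y hy ih => obtain ⟨i, rfl⟩ := hy; exact hstep i x hx ih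
  | mul_inv_cancel x hx y hy ih => obtain ⟨i, rfl⟩ := hy; exact hstep i x hx ih

theorem W_neg {w : Equiv.Perm (Rt D)} (hw : w ∈ W D) (r : Rt D) : w (neg r) = neg (w r) :=
  W_induction (p := fun w => w (neg r) = neg (w r)) rfl
    (fun i w _ ih => by simp [ih]) hw

theorem W_pr {w : Equiv.Perm (Rt D)} (hw : w ∈ W D) (r s : Rt D) : pr (w r) (w s) = pr r s :=
  W_induction (p := fun w => pr (w r) (w s) = pr r s) rfl
    (fun i w _ ih => by simp [ih]) hw

/-- elements of `W` act additively on the weight lattice -/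
theorem W_exists_linear {w : Equiv.Perm (Rt D)} (hw : w ∈ W D) :
    ∃ f : Lat D →ₗ[ℤ] Lat D, ∀ r, wt (w r) = f (wt r) := by
  refine W_induction (p := fun w => ∃ f : Lat D →ₗ[ℤ] Lat D, ∀ r, wt (w r) = f (wt r))
    ⟨LinearMap.id, fun _ => rfl⟩ ?_ hw
  rintro i w - ⟨f, hf⟩
  refine ⟨(LinearMap.id - (LinearMap.proj i : Lat D →ₗ[ℤ] ℤ).smulRight (wt (simple i))) ∘ₗ f, fun r => ?_⟩
  simp [wt_sRefl, hf]

/-- elements of `W` act additively on the coroot lattice -/
theorem W_exists_linear_cor {w : Equiv.Perm (Rt D)} (hw : w ∈ W D) :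
    ∃ f : Lat D →ₗ[ℤ] Lat D, ∀ r, cor (w r) = f (cor r) := by
  refine W_induction (p := fun w => ∃ f : Lat D →ₗ[ℤ] Lat D, ∀ r, cor (w r) = f (cor r))
    ⟨LinearMap.id, fun _ => rfl⟩ ?_ hw
  rintro i w - ⟨f, hf⟩
  refine ⟨(LinearMap.id - ((dotProductBilin ℤ ℤ).flip (wt (simple i))).smulRight (cor (simple i))) ∘ₗ f,
    fun r => ?_⟩
  simp [cor_sRefl, hf, pr]

theorem W_wt_add {w : Equiv.Perm (Rt D)} (hw : w ∈ W D) {r s u : Rt D} {a b : ℤ}
    (h : wt u = a • wt r + b • wt s) : wt (w u) = a • wt (w r) + b • wt (w s) := by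
  obtain ⟨f, hf⟩ := W_exists_linear hw
  simp [hf, h]

theorem W_refl {w : Equiv.Perm (Rt D)} (hw : w ∈ W D) (r s : Rt D) :
    w (refl r s) = refl (w r) (w s) := by
  apply wt_injective
  obtain ⟨f, hf⟩ := W_exists_linear hw
  rw [wt_refl, W_pr hw, hf, hf, hf, wt_refl]
  simp

theorem W_conj_refl {w : Equiv.Perm (Rt D)} (hw : w ∈ W D) (r : Rt D) :
    w * refl r * w⁻¹ = refl (w r) := by
  ext1 s
  simp [W_refl hw]

theorem refl_mem (r : Rt D) : refl r ∈ W D := by
  induction r using root_induction with
  | hs i => rw [refl_simple]; exact sRefl_mem i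
  | hstep i r ih =>
    rw [← W_conj_refl (sRefl_mem i)]
    exact (W D).mul_mem ((W D).mul_mem (sRefl_mem i) ih) ((W D).inv_mem (sRefl_mem i))

theorem W_len {w : Equiv.Perm (Rt D)} (hw : w ∈ W D) (r : Rt D) : len (w r) = len r := by
  refine W_induction (p := fun w => len (w r) = len r) rfl (fun i w _ ih => ?_) hw
  rw [← ih, Equiv.Perm.mul_apply]
  generalize w r = s
  by_cases h : wt s i = 0
  · congr 1
    apply wt_injective
    rw [wt_sRefl, h]; simp
  · have h1 := len_mul_pr s (simple i)
    have h2 := len_mul_pr (sRefl i s) (simple i)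
    have e4 : pr (sRefl i s) (simple i) = - pr s (simple i) := by
      rw [← pr_sRefl i, sRefl_sRefl, sRefl_simple, pr_neg_right]
    have e5 : pr (simple i) (sRefl i s) = - pr (simple i) s := by
      rw [← pr_sRefl i, sRefl_sRefl, sRefl_simple, pr_neg_left]
    rw [e4, e5] at h2
    have h3 : pr s (simple i) ≠ 0 := by
      rw [Ne, pr_eq_zero_comm, pr_simple]; exact h
    have : (len (sRefl i s) : ℤ) * pr s (simple i) = len s * pr s (simple i) := by linarith
    exact_mod_cast mul_right_cancel₀ h3 this

theorem exists_W_simple (r : Rt D) : ∃ w ∈ W D, ∃ i, w (simple i) = r := by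
  induction r using root_induction with
  | hs i => exact ⟨1, (W D).one_mem, i, rfl⟩
  | hstep i r ih =>
    obtain ⟨w, hw, j, rfl⟩ := ih
    exact ⟨sRefl i * w, (W D).mul_mem (sRefl_mem i) hw, j, rfl⟩

/-- the root system is reduced -/
theorem eq_or_neg_of_smul {r s : Rt D} {a b : ℤ} (ha : a ≠ 0) (h : a • wt s = b • wt r) :
    s = r ∨ s = neg r := by
  obtain ⟨w, hw, i, rfl⟩ := exists_W_simple r
  obtain ⟨f, hf⟩ := W_exists_linear ((W D).inv_mem hw)
  have h1 : a • wt (w⁻¹ s) = b • wt (simple i) := by
    have := congrArg f h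
    rw [map_smul, map_smul, ← hf, ← hf] at this
    simpa using this
  have key : ∀ (u : Rt D) (b : ℤ), Pos u → a • wt u = b • wt (simple i) → u = simple i := by
    intro u b hu h
    by_contra hne
    have h2 := pos_sRefl hu hne
    have h3 : sRefl i u = neg u := by
      apply wt_injective
      have hi := congrFun h i
      simp only [Pi.smul_apply, smul_eq_mul, wt_simple_self] at hi
      rw [wt_sRefl, wt_neg]
      funext j
      have hj := congrFun h j
      simp only [Pi.smul_apply, smul_eq_mul, Pi.sub_apply, Pi.neg_apply] at hj ⊢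
      apply mul_left_cancel₀ ha
      linear_combination 2 * hj - wt (simple i) j * hi
    rw [h3] at h2
    exact hu.not_neg h2
  by_cases hp : Pos (w⁻¹ s)
  · left
    rw [← key _ _ hp h1]; simp
  · right
    have := key (neg (w⁻¹ s)) (-b) ((pos_neg_iff _).2 hp) (by rw [wt_neg, smul_neg, h1, neg_smul])
    rw [← this, W_neg hw]; simp

/-- the inversion set of a permutation of the roots -/
def inv (w : Equiv.Perm (Rt D)) : Finset (Rt D) := Finset.univ.filter fun r => Pos r ∧ ¬ Pos (w r)

/-- the length: the number of positive roots sent to negative roots -/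
def ell (w : Equiv.Perm (Rt D)) : ℕ := (inv w).card

omit hD in
@[simp] theorem mem_inv {w : Equiv.Perm (Rt D)} {r : Rt D} : r ∈ inv w ↔ Pos r ∧ ¬ Pos (w r) := by
  simp [inv]

end CA.Chev
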