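import Cfsg.Agent.Lib.Chev.TabG2
import Cfsg.Agent.Lib.Chev.TabB2
import Cfsg.Agent.Lib.Chev.TabD4
import Cfsg.Agent.Lib.Chev.TabF4
import Cfsg.Agent.Lib.Chev.TabE6
import Cfsg.Agent.Lib.Chev.TabE7
import Cfsg.Agent.Lib.Chev.TabE8

/-! `IsRoot` for the seven tabulated types. -/

set_option autoImplicit false

namespace CA.Chev

open Cfsg.Lie

theorem isRoot_of_mem {D : ChevalleyDatum}
    (hD : D ∈ [chevG2, chevB2, chevD4, chevF4, chevE6, chevE7, chevE8]) : IsRoot D := by
  simp only [List.mem_cons, List.not_mem_nil, or_false] at hD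
  rcases hD with rfl | rfl | rfl | rfl | rfl | rfl | rfl <;> infer_instance

end CA.Chev
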