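import Cfsg.Agent.Lib.Chev.Fam

/-! The homomorphism from `SL₂` onto `⟨X_r, X_{-r}⟩`. -/

set_option autoImplicit false
set_option linter.unusedSectionVars false

namespace CA.Chev

open Cfsg.Lie Cfsg.Lie.ChevalleyDatum Matrix
open scoped MatrixGroups

variable {D : ChevalleyDatum} [hD : IsRoot D] [hE : IsEta D] {F : Type*} [Field F] {G : Type*} [Group G]
  {x : Rt D → F → G}

open Classical in
/-- the image of a matrix, by its Bruhat form -/
noncomputable def sl2F (x : Rt D → F → G) (r : Rt D) (a b c d : F) : G :=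
  if c = 0 then x r (a * b) * hG x r a else x r (a / c) * nG x r (-c⁻¹) * x r (d / c)

/-- the image of a matrix -/
noncomputable def sl2Fun (x : Rt D → F → G) (r : Rt D) (g : SL(2, F)) : G :=
  sl2F x r (g.1 0 0) (g.1 0 1) (g.1 1 0) (g.1 1 1)

/-- upper unitriangular matrices -/
def upM (t : F) : SL(2, F) := ⟨!![1, t; 0, 1], by simp [det_fin_two]⟩
/-- the Weyl element -/
def wM : SL(2, F) := ⟨!![0, 1; -1, 0], by simp [det_fin_two]⟩

namespace StFam

variable (hx : StFam x) (r : Rt D)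
include hx

theorem h_mul_x {a : F} (ha : a ≠ 0) (u : F) : hG x r a * x r u = x r (a ^ 2 * u) * hG x r a := by
  have := hx.hconj r r ha u
  rw [pr_self, mul_inv_eq_iff_eq_mul] at this
  exact_mod_cast this

theorem n_mul_h {a b : F} (ha : a ≠ 0) (hb : b ≠ 0) : nG x r b * hG x r a = nG x r (b * a⁻¹) := by
  have := hx.nconj_h r r one_ne_zero ha
  rw [refl_self, hx.hG_neg r ha, mul_inv_eq_iff_eq_mul] at this
  rw [hx.toStRel.nG_eq r b, hx.toStRel.nG_eq r (b * _), mul_assoc, this, ← mul_assoc,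
    hx.hmul _ _ _ hb (inv_ne_zero ha)]

theorem n_mul_n {c : F} (hc : c ≠ 0) : nG x r 1 * nG x r (-c⁻¹) = hG x r c := by
  simpa [hc] using hx.nG_mul_nG r (inv_ne_zero hc) hc

theorem sl2Fun_up (t : F) (g : SL(2, F)) : sl2Fun x r (upM t * g) = x r t * sl2Fun x r g := by
  have hdet := g.det_coe
  rw [det_fin_two] at hdet
  have : (upM t * g).1 = !![g.1 0 0 + t * g.1 1 0, g.1 0 1 + t * g.1 1 1; g.1 1 0, g.1 1 1] := by
    change !![1, t; 0, 1] * g.1 = _
    ext i j; fin_cases i <;> fin_cases j <;> simp [Matrix.mul_apply, Fin.sum_univ_two]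
  simp only [sl2Fun, this, of_apply, cons_val', cons_val_zero, cons_val_one, cons_val_fin_one]
  generalize g.1 0 0 = a, g.1 0 1 = b, g.1 1 0 = c, g.1 1 1 = d at hdet
  unfold sl2F
  split_ifs with hc
  · rw [← mul_assoc, ← hx.add, hc, mul_zero, add_zero]
    congr 2
    rw [hc] at hdet
    linear_combination t * hdet
  · rw [← mul_assoc, ← mul_assoc, ← hx.add]
    congr 3
    field_simp
    ring

theorem sl2Fun_w (g : SL(2, F)) : sl2Fun x r (wM * g) = nG x r 1 * sl2Fun x r g := by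
  have hdet := g.det_coe
  rw [det_fin_two] at hdet
  have : (wM * g).1 = !![g.1 1 0, g.1 1 1; -g.1 0 0, -g.1 0 1] := by
    change !![0, 1; -1, 0] * g.1 = _
    ext i j; fin_cases i <;> fin_cases j <;> simp [Matrix.mul_apply, Fin.sum_univ_two]
  simp only [sl2Fun, this, of_apply, cons_val', cons_val_zero, cons_val_one, cons_val_fin_one]
  generalize g.1 0 0 = a, g.1 0 1 = b, g.1 1 0 = c, g.1 1 1 = d at hdet
  unfold sl2F
  by_cases hc : c = 0
  · have ha : a ≠ 0 := by rintro rfl; simp [hc] at hdet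
    have := hx.h_mul_x r ha (b / a)
    rw [show a ^ 2 * (b / a) = a * b by field_simp] at this
    simp [hc, ha, hx.toStRel.zero, ← this, ← mul_assoc, hx.n_mul_h r ha one_ne_zero, inv_neg]
  by_cases ha : a = 0
  · have := hx.h_mul_x r hc (d / c)
    rw [show c ^ 2 * (d / c) = c * d by field_simp] at this
    simp [hc, ha, hx.toStRel.zero, ← this, ← mul_assoc, hx.n_mul_n r hc]
  have h1 := hx.nconj r r 1 (a / c) one_ne_zero
  rw [refl_self, hE.eta_self, hx.x_neg_eq, mul_inv_eq_iff_eq_mul] at h1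
  have h2 := hx.h_mul_x r hc (-(a * c)⁻¹)
  rw [show c ^ 2 * -(a * c)⁻¹ = -(c / a) by field_simp] at h2
  have h3 := hx.n_mul_h r hc (div_ne_zero hc ha)
  rw [show c / a * c⁻¹ = a⁻¹ by field_simp] at h3
  have h4 : -(-b / a) = -(a * c)⁻¹ + d / c := by field_simp; linear_combination -hdet
  simp [hc, ha, ← mul_assoc, h1, inv_neg, div_neg]
  rw [mul_assoc _ (nG x r 1), hx.n_mul_n r hc, mul_assoc _ (x r _), ← h2, h4, hx.add, ← h3]
  simp only [mul_assoc]

theorem exists_sl2 : ∃ φ : SL(2, F) →* G, (∀ g t, g.1 = !![1, t; 0, 1] → φ g = x r t) ∧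
    (∀ g t, g.1 = !![1, 0; t, 1] → φ g = x (neg r) t) ∧
    ∀ K : Subgroup G, (∀ t, x r t ∈ K ∧ x (neg r) t ∈ K) → ∀ g, φ g ∈ K := by
  have h1 : sl2Fun x r 1 = 1 := by simp [sl2Fun, sl2F, hx.toStRel.zero, hx.toStRel.hG_one]
  let P : Subgroup SL(2, F) :=
    { carrier := {s | ∀ g, sl2Fun x r (s * g) = sl2Fun x r s * sl2Fun x r g}
      one_mem' := fun g => by rw [one_mul, h1, one_mul]
      mul_mem' := fun {a b} ha hb g => by rw [mul_assoc, ha, hb, ha, mul_assoc]
      inv_mem' := fun {a} ha g => by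
        have e1 := ha (a⁻¹ * g)
        have e2 := ha a⁻¹
        rw [mul_inv_cancel_left] at e1
        rw [mul_inv_cancel, h1] at e2
        rw [e1, ← mul_assoc, mul_eq_one_comm.1 e2.symm, one_mul] }
  have hu : ∀ t, upM t ∈ P := fun t g => by
    rw [hx.sl2Fun_up, ← mul_one (upM t), hx.sl2Fun_up, h1, mul_one]
  have hw : wM ∈ P := fun g => by rw [hx.sl2Fun_w, ← mul_one wM, hx.sl2Fun_w, h1, mul_one]
  have h2 : ∀ g : SL(2, F), g.1 1 0 ≠ 0 → g ∈ P := fun g hc => by
    have hdet := g.det_coe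
    rw [det_fin_two] at hdet
    have : wM * (upM ((1 - g.1 0 0) / g.1 1 0) * g) = upM (-g.1 1 0) * wM * upM ((g.1 1 1 - 1) / g.1 1 0) := by
      apply Subtype.ext
      change !![0, 1; -1, 0] * (!![1, _; 0, 1] * g.1) = !![1, _; 0, 1] * !![0, 1; -1, 0] * !![1, _; 0, 1]
      ext i j
      fin_cases i <;> fin_cases j <;> simp [Matrix.mul_apply, Fin.sum_univ_two, vecMul, dotProduct] <;>
        field_simp <;> first | ring1 | linear_combination hdet
    exact (P.mul_mem_cancel_left (hu _)).1 ((P.mul_mem_cancel_left hw).1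
      (this ▸ P.mul_mem (P.mul_mem (hu _) hw) (hu _)))
  have h3 : ∀ g : SL(2, F), g ∈ P := fun g => by
    by_cases hc : g.1 1 0 = 0
    · refine (P.mul_mem_cancel_left hw).1 (h2 _ ?_)
      have hdet := g.det_coe
      rw [det_fin_two] at hdet
      change (!![0, 1; -1, 0] * g.1 : Matrix (Fin 2) (Fin 2) F) 1 0 ≠ 0
      intro h
      simp [Matrix.mul_apply, Fin.sum_univ_two] at h
      simp [h, hc] at hdet
    · exact h2 g hc
  refine ⟨⟨⟨sl2Fun x r, h1⟩, h3⟩, fun g t e => ?_, fun g t e => ?_, fun K hK g => ?_⟩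
  · simp [sl2Fun, sl2F, e, hx.toStRel.hG_one]
  · by_cases ht : t = 0
    · simp [sl2Fun, sl2F, e, ht, hx.toStRel.hG_one, hx.toStRel.zero]
    · simp [sl2Fun, sl2F, e, ht, hx.x_neg_eq]
  · have hn : ∀ t, nG x r t ∈ K := fun t => K.mul_mem (K.mul_mem (hK _).1 (hK _).2) (hK _).1
    change sl2Fun x r g ∈ K
    unfold sl2Fun sl2F
    split_ifs
    · exact K.mul_mem (hK _).1 (K.mul_mem (hn _) (hn _))
    · exact K.mul_mem (K.mul_mem (hK _).1 (hn _)) (hK _).1

end StFam

end CA.Chev
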