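import Cfsg.Agent.Lib.CG.Uni
import Cfsg.Prelude.Def_Steinberg

/-! Steinberg's theorem: the relations (R1)–(R3) imply the conjugation action of the `n_r(t)`;
the presented group, and homomorphisms out of the Chevalley group defined on root elements. -/

set_option autoImplicit false
set_option linter.unusedSectionVars false

namespace CA.Chev

open Cfsg.Lie Cfsg.Lie.ChevalleyDatum CA.CG CA.BN Matrix

attribute [-simp] zsmul_eq_mul

variable {D : ChevalleyDatum} [hD : IsRoot D] {F : Type*} [Field F]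

theorem exists_sep {r s : Rt D} (h1 : s ≠ r) (h2 : s ≠ neg r) :
    ∃ φ : Lat D, φ ⬝ᵥ wt r = 0 ∧ 0 < φ ⬝ᵥ wt s := by
  obtain ⟨i, hi⟩ := Function.ne_iff.1 (wt_ne_zero r)
  have : ∃ j, wt r i * wt s j - wt r j * wt s i ≠ 0 := by
    by_contra h
    push Not at h
    refine (eq_or_neg_of_smul (a := wt r i) (b := wt s i) hi (funext fun j => ?_)).elim h1 h2
    simp only [Pi.smul_apply, smul_eq_mul]
    linear_combination h j
  obtain ⟨j, hj⟩ := this
  refine ⟨(wt r i * wt s j - wt r j * wt s i) • (wt r i • Pi.single j 1 - wt r j • Pi.single i 1), ?_, ?_⟩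
  · simp only [smul_dotProduct, sub_dotProduct, single_dotProduct, smul_eq_mul]; ring
  · simp only [smul_dotProduct, sub_dotProduct, single_dotProduct, smul_eq_mul, one_mul]
    exact mul_self_pos.2 hj

theorem exists_pos_pos {r s : Rt D} (h1 : s ≠ r) (h2 : s ≠ neg r) :
    ∃ φ : Lat D, 0 < φ ⬝ᵥ wt r ∧ 0 < φ ⬝ᵥ wt s := by
  obtain ⟨φ, a1, a2⟩ := exists_sep h1 h2
  obtain ⟨ψ, b1, b2⟩ := exists_sep h1.symm (fun h => h2 (by rw [h, neg_neg]))
  exact ⟨φ + ψ, by rw [add_dotProduct]; omega, by rw [add_dotProduct]; omega⟩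

/-- a list of the roots that are positive for `φ`, increasing for a refinement of `φ` -/
theorem exists_sorted (φ : Lat D) : ∃ (ψ : Lat D) (l : List (Rt D)),
    (l.Pairwise fun a b => ψ ⬝ᵥ wt a < ψ ⬝ᵥ wt b) ∧ (∀ r ∈ l, 0 < ψ ⬝ᵥ wt r) ∧
      ∀ r, r ∈ l ↔ 0 < φ ⬝ᵥ wt r := by
  obtain ⟨N, hN⟩ := (Set.finite_range fun r : Rt D => |ord r|).bddAbove
  have hN' : ∀ r : Rt D, -N ≤ ord r ∧ ord r ≤ N := fun r => abs_le.1 (hN ⟨r, rfl⟩)
  have e : ∀ r : Rt D, ((2 * N + 1) • φ + ordVec D) ⬝ᵥ wt r = (2 * N + 1) * (φ ⬝ᵥ wt r) + ord r :=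
    fun r => by rw [add_dotProduct, smul_dotProduct, smul_eq_mul, ord]
  set ψ := (2 * N + 1) • φ + ordVec D
  have hinj : ∀ a b : Rt D, ψ ⬝ᵥ wt a = ψ ⬝ᵥ wt b → a = b := by
    intro a b hab
    rw [e, e] at hab
    have := hN' a
    have := hN' b
    have h3 : φ ⬝ᵥ wt a = φ ⬝ᵥ wt b := by
      rcases lt_trichotomy (φ ⬝ᵥ wt a) (φ ⬝ᵥ wt b) with h | h | h
      · nlinarith
      · exact h
      · nlinarith
    exact ord_strictMono.injective (by rw [h3] at hab; omega)
  let l0 := (List.finRange D.nroots).filter fun r => decide (0 < φ ⬝ᵥ wt r)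
  let le : Rt D → Rt D → Prop := fun a b => ψ ⬝ᵥ wt a ≤ ψ ⬝ᵥ wt b
  have : Std.Total le := ⟨fun a b => le_total _ _⟩
  have : IsTrans _ le := ⟨fun a b c => le_trans⟩
  have hp := List.perm_insertionSort le l0
  refine ⟨ψ, l0.insertionSort le, ?_, fun r hr => ?_, fun r => by simp [hp.mem_iff, l0]⟩
  · have h1 : (l0.insertionSort le).Pairwise le := List.pairwise_insertionSort le l0
    have h2 : (l0.insertionSort le).Nodup := hp.nodup_iff.2 ((List.nodup_finRange _).filter _)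
    exact (h1.and h2).imp fun h => lt_of_le_of_ne h.1 fun h' => h.2 (hinj _ _ h')
  · have h1 : 0 < φ ⬝ᵥ wt r := by simpa [hp.mem_iff, l0] using hr
    have := hN' r
    rw [e]
    nlinarith

/-- Every root occurs with coefficient `±1` in a commutator. -/
class IsDec (D : ChevalleyDatum) [IsRoot D] : Prop where
  dec : ∀ s : Rt D, ∃ a b : Rt D, b ≠ a ∧ b ≠ neg a ∧ ∃ c : ℕ × ℤ × ℕ × ℕ,
    (D.commTerms a b).filter (fun c => c.1 = (s : ℕ)) = [c] ∧ (c.2.1 = 1 ∨ c.2.1 = -1) ∧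
      (c.2.2.1 = 1 ∨ c.2.2.2 = 1)

section Fam

variable {G : Type*} [Group G] {x : Rt D → F → G}

theorem oprod_zero (hx : StRel x) (l : List (Rt D)) : oprod x l 0 = 1 := by
  induction l with
  | nil => rfl
  | cons r l ih => rw [oprod_cons, ih, mul_one]; exact hx.zero r

theorem mem_of_dec [hC : IsDec D] (hx : StRel x) (s : Rt D) : ∃ φ : Lat D, 0 < φ ⬝ᵥ wt s ∧
    ∀ u, x s u ∈ XS (rtX x) fun k => 0 < φ ⬝ᵥ wt k ∧ k ≠ s := by
  obtain ⟨a, b, h1, h2, c, h3, h4, h5⟩ := hC.dec s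
  obtain ⟨φ, ha, hb⟩ := exists_pos_pos h1 h2
  obtain ⟨l1, l2, e, k1, k2, k3⟩ := List.filter_eq_cons_iff.1 h3
  rw [List.filter_eq_nil_iff] at k3
  simp only [decide_eq_true_eq] at k1 k2 k3
  have key : ∀ q ∈ D.commTerms a b, ∀ hq : q.1 < D.nroots,
      φ ⬝ᵥ wt a + φ ⬝ᵥ wt b ≤ φ ⬝ᵥ wt (⟨q.1, hq⟩ : Rt D) := fun q hq _ => by
    obtain ⟨i1, i2, _, i3⟩ := commTerms_spec hq
    exact dot_of_wt_eq φ i1 i2 i3 ha.le hb.le
  have hc : c ∈ D.commTerms a b := by rw [e]; simp
  have hs := key c hc (k2 ▸ s.2)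
  simp only [k2, Fin.eta] at hs
  refine ⟨φ, by omega, fun u => ?_⟩
  obtain ⟨i1, i2, -⟩ := commTerms_spec hc
  obtain ⟨t, v, htv⟩ : ∃ t v : F, (c.2.1 : F) * (-t) ^ c.2.2.1 * v ^ c.2.2.2 = u := by
    have hcc : (c.2.1 : F) * c.2.1 = 1 := by rcases h4 with h | h <;> simp [h]
    rcases h5 with h | h
    · exact ⟨-(c.2.1 * u), 1, by rw [h]; linear_combination u * hcc⟩
    · exact ⟨-1, c.2.1 * u, by rw [h]; simp only [_root_.neg_neg, one_pow]; linear_combination u * hcc⟩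
  set K := XS (rtX x) fun k => 0 < φ ⬝ᵥ wt k ∧ k ≠ s
  have hw : ∀ l : List (ℕ × ℤ × ℕ × ℕ), (∀ q ∈ l, q ∈ D.commTerms a b ∧ q.1 ≠ s) →
      wordG x (l.map fun c => (c.1, (c.2.1 : F) * (-t) ^ c.2.2.1 * v ^ c.2.2.2)) ∈ K := by
    intro l hl
    refine wordG_mem x fun p hp hlt => ?_
    obtain ⟨q, hq, rfl⟩ := List.mem_map.1 hp
    have := key q (hl q hq).1 hlt
    exact le_XS ⟨by dsimp only; omega, fun h => (hl q hq).2 (congrArg Fin.val h)⟩ (x_mem_rtX _ _)
  have m1 := hw l1 fun q hq => ⟨by rw [e]; simp [hq], k1 q hq⟩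
  have m2 := hw l2 fun q hq => ⟨by rw [e]; simp [hq], k3 q hq⟩
  have m3 : x a t ∈ K := le_XS ⟨ha, by rintro rfl; omega⟩ (x_mem_rtX _ _)
  have m4 : x b v ∈ K := le_XS ⟨hb, by rintro rfl; omega⟩ (x_mem_rtX _ _)
  have e2 := hx.comm a b h1 h2 t v
  rw [ChevalleyDatum.commWord, e, List.map_append, List.map_cons, wordG_append, wordG_cons, htv, k2,
    xN_val] at e2
  have := K.mul_mem (K.mul_mem (K.inv_mem m1) (K.mul_mem (K.inv_mem (K.mul_mem m3 m4))
    (K.mul_mem m4 m3))) (K.inv_mem m2)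
  rw [e2] at this
  simpa [mul_assoc] using this

variable [hM : MatFacts D F] (hx : StRel x) (θ : G →* D.group F) (hθ : ∀ r t, θ (x r t) = xg r t)
include hx hθ

theorem inj_half (φ : Lat D) {g g' : G} (hg : g ∈ XS (rtX x) fun k => 0 < φ ⬝ᵥ wt k)
    (hg' : g' ∈ XS (rtX x) fun k => 0 < φ ⬝ᵥ wt k) (e : θ g = θ g') : g = g' := by
  obtain ⟨ψ, l, h1, h2, h3⟩ := exists_sorted φ
  have hcl : Closed (· ∈ l) := fun r s k i j hr hs hi hj e => by
    have := dot_of_wt_eq φ hi hj e ((h3 r).1 hr).le ((h3 s).1 hs).le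
    have := (h3 r).1 hr
    have := (h3 s).1 hs
    exact (h3 k).2 (by omega)
  obtain ⟨t, rfl⟩ := exists_oprod hx ψ h1 h2 hcl (XS_mono (fun r hr => (h3 r).2 hr) hg)
  obtain ⟨t', rfl⟩ := exists_oprod hx ψ h1 h2 hcl (XS_mono (fun r hr => (h3 r).2 hr) hg')
  rw [map_oprod, map_oprod] at e
  simp only [hθ] at e
  exact oprod_congr (oprod_inj ψ h1 (fun r hr => (h2 r hr).le) e)

variable [hE : IsEta D]

theorem map_nconj (r s : Rt D) {t : F} (ht : t ≠ 0) (u : F) :
    θ (nG x r t * x s u * (nG x r t)⁻¹) = θ (x (refl r s) (eta r s * t ^ (- pr r s) * u)) := by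
  rw [map_mul, map_mul, map_inv, map_nG, hθ, hθ, ← stFam_xg.nconj r s t u ht]
  simp only [hθ]

theorem nconj_of_ne {r s : Rt D} (h1 : s ≠ r) (h2 : s ≠ neg r) {t : F} (ht : t ≠ 0) (u : F) :
    nG x r t * x s u * (nG x r t)⁻¹ = x (refl r s) (eta r s * t ^ (- pr r s) * u) := by
  obtain ⟨φ, a1, a2⟩ := exists_sep h1 h2
  refine inj_half hx θ hθ φ ?_ (le_XS ?_ (x_mem_rtX _ _)) (map_nconj hx θ hθ r s ht u)
  · have hn := XS_le_normalizer hx (S := fun k => φ ⬝ᵥ wt k = 0) (T := fun k => 0 < φ ⬝ᵥ wt k)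
      fun a b ha hb => Or.inr ⟨by rintro rfl; simp [ha] at hb, fun k i j hi hj e => by
        have := dot_of_wt_eq φ hi hj e ha.ge hb.le
        omega⟩
    have h3 : φ ⬝ᵥ wt (neg r) = 0 := by simp [a1]
    have h4 : nG x r t ∈ XS (rtX x) fun k => φ ⬝ᵥ wt k = 0 :=
      Subgroup.mul_mem _ (Subgroup.mul_mem _ (le_XS (r := r) a1 (x_mem_rtX _ _))
        (le_XS (r := neg r) h3 (x_mem_rtX _ _))) (le_XS (r := r) a1 (x_mem_rtX _ _))
    exact Subgroup.le_normalizer_iff.1 hn _ h4 _ (le_XS (r := s) a2 (x_mem_rtX _ _))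
  · simp [wt_refl, a1, a2]

theorem nconj_of_hom [IsDec D] (r s : Rt D) {t : F} (ht : t ≠ 0) (u : F) :
    nG x r t * x s u * (nG x r t)⁻¹ = x (refl r s) (eta r s * t ^ (- pr r s) * u) := by
  by_cases h : s ≠ r ∧ s ≠ neg r
  · exact nconj_of_ne hx θ hθ h.1 h.2 ht u
  obtain ⟨φ, a1, a2⟩ := mem_of_dec hx s
  have e : ∀ k, (φ - (φ ⬝ᵥ wt r) • cor r) ⬝ᵥ wt (refl r k) = φ ⬝ᵥ wt k := fun k => by
    conv_rhs => rw [← refl_refl r k, wt_refl r (refl r k)]
    simp only [sub_dotProduct, smul_dotProduct, dotProduct_sub, dotProduct_smul, smul_eq_mul, pr]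
    ring
  refine inj_half hx θ hθ (φ - (φ ⬝ᵥ wt r) • cor r) ?_ (le_XS (by rw [e]; exact a1) (x_mem_rtX _ _))
    (map_nconj hx θ hθ r s ht u)
  refine XS_conj_mem _ (fun k hk y hy => ?_) (a2 u)
  obtain ⟨v, rfl⟩ := (mem_rtX' hx).1 hy
  have hk' : k ≠ neg s := by rintro rfl; have := hk.1; simp at this; omega
  have : k ≠ r ∧ k ≠ neg r := by
    rw [not_and_or, not_not, not_not] at h
    rcases h with rfl | rfl
    · exact ⟨hk.2, hk'⟩
    · exact ⟨by simpa using hk', hk.2⟩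
  rw [nconj_of_ne hx θ hθ this.1 this.2 ht]
  exact le_XS (by rw [e]; exact hk.1) (x_mem_rtX _ _)

end Fam

/-! ### the presented group -/

/-- the generators of the presented group -/
def stx (r : Rt D) (t : F) : D.SteinbergGroup F := D.stGen F r t

omit hD in
theorem mk_stX (r : ℕ) (t : F) :
    PresentedGroup.mk (D.steinbergRels F) (D.stX r t) = xN (stx (D := D)) r t := by
  unfold xN
  split_ifs with h
  · rfl
  · simp [stX, h]

omit hD in
theorem mk_stWord (w : List (ℕ × F)) :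
    PresentedGroup.mk (D.steinbergRels F) (D.stWord w) = wordG (stx (D := D)) w := by
  simp only [stWord, wordG, map_list_prod, List.map_map, Function.comp_def, mk_stX]

theorem mk_stH (r : Rt D) (t : F) :
    PresentedGroup.mk (D.steinbergRels F) (D.stH r t) = hG (stx (D := D)) r t := by
  rw [stH, mk_stWord, wordG_hWord]

theorem stRel_stx : StRel (stx (D := D) (F := F)) where
  add r t u := by
    have := PresentedGroup.one_of_mem (rels := D.steinbergRels F) (Or.inl (Or.inl ⟨r, t, u, r.2, rfl⟩))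
    simp only [map_mul, map_inv, mk_stX, xN_val, mul_inv_eq_one] at this
    exact this.symm
  comm r s h1 h2 t u := by
    have := PresentedGroup.one_of_mem (rels := D.steinbergRels F) (Or.inl (Or.inr
      ⟨r, s, t, u, r.2, s.2, fun h => h1 (Fin.ext h), fun h => h2 (Fin.ext h), rfl⟩))
    simp only [map_mul, map_inv, mk_stX, mk_stWord, xN_val, mul_inv_eq_one] at this
    rw [← this]; group

theorem hmul_stx (r : Rt D) (t u : F) (ht : t ≠ 0) (hu : u ≠ 0) :
    hG stx r t * hG stx r u = hG stx r (t * u) := by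
  have := PresentedGroup.one_of_mem (rels := D.steinbergRels F) (Or.inr ⟨r, t, u, r.2, ht, hu, rfl⟩)
  simpa only [map_mul, map_inv, mk_stH, mul_inv_eq_one] using this

theorem gen_stx : XS (rtX (stx (D := D) (F := F))) (fun _ => True) = ⊤ := by
  rw [eq_top_iff, ← PresentedGroup.closure_range_of, Subgroup.closure_le]
  rintro _ ⟨⟨r, t⟩, rfl⟩
  have : (PresentedGroup.of (r, t) : D.SteinbergGroup F) = stx r t := by
    simp [stx, stGen, stX, PresentedGroup.of]
  rw [this]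
  exact le_XS trivial (x_mem_rtX r t)

section Lift

variable {G : Type*} [Group G] {x : Rt D → F → G}

omit hD in
theorem lift_stX (x : Rt D → F → G) (r : ℕ) (t : F) :
    FreeGroup.lift (fun p : Rt D × F => x p.1 p.2) (D.stX r t) = xN x r t := by
  unfold xN stX
  split_ifs <;> simp

omit hD in
theorem lift_stWord (x : Rt D → F → G) (w : List (ℕ × F)) :
    FreeGroup.lift (fun p : Rt D × F => x p.1 p.2) (D.stWord w) = wordG x w := by
  simp only [stWord, wordG, map_list_prod, List.map_map, Function.comp_def, lift_stX]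

/-- The universal property of the presented group. -/
theorem exists_stLift (hx : StRel x)
    (hm : ∀ r t u, t ≠ 0 → u ≠ 0 → hG x r t * hG x r u = hG x r (t * u)) :
    ∃ θ : D.SteinbergGroup F →* G, ∀ r t, θ (stx r t) = x r t := by
  refine ⟨PresentedGroup.toGroup (f := fun p : Rt D × F => x p.1 p.2) ?_, fun r t => ?_⟩
  · rintro g ((⟨r, t, u, hr, rfl⟩ | ⟨r, s, t, u, hr, hs, h1, h2, rfl⟩) | ⟨r, t, u, hr, ht, hu, rfl⟩)
    · simp only [map_mul, map_inv, lift_stX, xN_of_lt x hr, hx.add, mul_inv_cancel]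
    · have := hx.comm ⟨r, hr⟩ ⟨s, hs⟩ (fun h => h1 (congrArg Fin.val h))
        (fun h => h2 (congrArg Fin.val h)) t u
      simp only [map_mul, map_inv, lift_stX, lift_stWord, xN_of_lt x hr, xN_of_lt x hs, mul_inv_eq_one]
      rw [mul_assoc, this]; group
    · simp only [map_mul, map_inv, stH, lift_stWord, mul_inv_eq_one]
      rw [wordG_hWord x ⟨r, hr⟩, wordG_hWord x ⟨r, hr⟩, wordG_hWord x ⟨r, hr⟩, hm _ _ _ ht hu]
  · have : (stx r t : D.SteinbergGroup F) = PresentedGroup.of (r, t) := by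
      simp [stx, stGen, stX, PresentedGroup.of]
    rw [this, PresentedGroup.toGroup.of]

variable [hM : MatFacts D F] [hE : IsEta D]

variable (D F) in
theorem exists_theta : ∃ θ : D.SteinbergGroup F →* D.group F, ∀ r t, θ (stx r t) = xg r t :=
  exists_stLift stRel_xg stFam_xg.hmul

variable [IsDec D]

theorem stFam_stx : StFam (stx (D := D) (F := F)) where
  toStRel := stRel_stx
  nconj r s _ u ht := by
    obtain ⟨θ, hθ⟩ := exists_theta D F
    exact nconj_of_hom stRel_stx θ hθ r s ht u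
  hmul := hmul_stx

/-- Steinberg's relations imply the conjugation formula for the `n_r(t)`. -/
theorem stFam_of_rel (hx : StRel x)
    (hm : ∀ r t u, t ≠ 0 → u ≠ 0 → hG x r t * hG x r u = hG x r (t * u)) : StFam x := by
  obtain ⟨θ, hθ⟩ := exists_stLift hx hm
  simpa only [hθ] using stFam_stx.map θ

end Lift

section Torus

variable [hE : IsEta D] {G : Type*} [Group G] {x : Rt D → F → G} (hx : StFam x)
include hx

theorem hG_mem_simple (r : Rt D) {t : F} (ht : t ≠ 0) :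
    hG x r t ∈ Subgroup.closure {g | ∃ i t, t ≠ 0 ∧ g = hG x (simple i) t} := by
  induction r using root_induction with
  | hs i => exact Subgroup.subset_closure ⟨i, t, ht, rfl⟩
  | hstep i s ih =>
    rw [← refl_simple, hx.hG_refl _ _ ht]
    exact Subgroup.mul_mem _ ih (Subgroup.subset_closure ⟨i, _, zpow_ne_zero _ ht, rfl⟩)

/-- `h_{p_i}` as a homomorphism -/
def hHom (r : Rt D) : Fˣ →* G where
  toFun t := hG x r t
  map_one' := hx.toStRel.hG_one r
  map_mul' t u := (hx.hmul r t u t.ne_zero u.ne_zero).symm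

/-- the torus `c ↦ ∏ h_{p_i}(c i)` -/
noncomputable def torG : (Nd D → Fˣ) →* G :=
  MonoidHom.noncommPiCoprod (fun i => hHom hx (simple i))
    fun _ _ _ t u => hx.h_commute _ _ t.ne_zero u.ne_zero

theorem torG_single (i : Nd D) (t : Fˣ) : torG hx (Pi.mulSingle i t) = hG x (simple i) t :=
  MonoidHom.noncommPiCoprod_mulSingle (N := fun _ => Fˣ) (fun i => hHom hx (simple i)) i t

theorem closure_hG_le : Subgroup.closure {g | ∃ r t, t ≠ 0 ∧ g = hG x r t} ≤ (torG hx).range := by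
  refine (Subgroup.closure_le _).2 ?_
  rintro _ ⟨r, t, ht, rfl⟩
  refine (Subgroup.closure_le _).2 ?_ (hG_mem_simple hx r ht)
  rintro _ ⟨i, t, ht, rfl⟩
  exact ⟨_, torG_single hx i (Units.mk0 t ht)⟩

theorem map_torG {G' : Type*} [Group G'] (θ : G →* G') (c : Nd D → Fˣ) :
    θ (torG hx c) = torG (hx.map θ) c := by
  have : θ.comp (torG hx) = torG (hx.map θ) := MonoidHom.pi_ext fun i t => by
    rw [MonoidHom.comp_apply, torG_single, torG_single, map_hG]
  exact DFunLike.congr_fun this c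

omit hx in
theorem torG_xg [MatFacts D F] : torG (stFam_xg (D := D) (F := F)) = tor D F :=
  MonoidHom.pi_ext fun i t => by rw [torG_single, tor_single]

theorem theta_torG [MatFacts D F] (θ : G →* D.group F) (hθ : ∀ r t, θ (x r t) = xg r t)
    (c : Nd D → Fˣ) : θ (torG hx c) = tor D F c := by
  rw [map_torG, ← torG_xg]
  congr 2
  funext r t
  exact hθ r t

end Torus

end CA.Chev
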