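import Cfsg.Agent.Lib.Chev.Aut
import Cfsg.Agent.Lib.CG.Struct

/-! Homomorphisms out of the Chevalley groups over the field with two elements. -/

set_option autoImplicit false
set_option linter.unusedSectionVars false

namespace CA.Chev

open Cfsg.Lie Cfsg.Lie.ChevalleyDatum CA.CG CA.BN

variable {D : ChevalleyDatum} [hD : IsRoot D] [IsEta D] [IsDec D] {F : Type*} [Field F] [Fintype F]
  [MatFacts D F] (hF : Fintype.card F = 2) {G : Type*} [Group G]
include hF

omit hD in
theorem eq_one_of_card_two {t : F} (ht : t ≠ 0) : t = 1 := by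
  simpa [hF] using FiniteField.pow_card_sub_one_eq_one t ht

/-- the roots of the terms with odd coefficient -/
def oddTerms (D : ChevalleyDatum) (r s : ℕ) : List ℕ :=
  ((D.commTerms r s).filter fun c => c.2.1 % 2 = 1).map Prod.fst

theorem exists_hom_two (p : ℕ → G) (h1 : ∀ r < D.nroots, p r * p r = 1)
    (h2 : ∀ r < D.nroots, ∀ s < D.nroots, s ≠ r → s ≠ D.neg r →
      p s * p r = p r * p s * ((oddTerms D r s).map p).prod) :
    ∃ σ : D.group F →* G, ∀ r, σ (xg r 1) = p r := by
  classical
  have h11 : (1 : F) + 1 = 0 := by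
    by_contra h
    simpa using eq_one_of_card_two hF h
  have hy : StRel fun (r : Rt D) (t : F) => if t = 0 then 1 else p r := by
    refine ⟨fun r t u => ?_, fun r s e1 e2 t u => ?_⟩
    · by_cases ht : t = 0
      · simp [ht]
      by_cases hu : u = 0
      · simp [hu]
      rw [eq_one_of_card_two hF ht, eq_one_of_card_two hF hu, h11]
      simp [h1 r r.2]
    · by_cases h0 : t = 0 ∨ u = 0
      · have := wordG_mem (fun (r : Rt D) (t : F) => if t = 0 then 1 else p r) (K := ⊥)
          (w := D.commWord F r s t u) fun q hq _ => by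
            obtain ⟨c, hc, rfl⟩ := List.mem_map.1 hq
            obtain ⟨a1, a2, -⟩ := commTerms_spec hc
            rcases h0 with h | h <;> simp [h, a1.ne', a2.ne']
        rw [Subgroup.mem_bot.1 this]
        rcases h0 with h | h <;> simp [h]
      push Not at h0
      rw [eq_one_of_card_two hF h0.1, eq_one_of_card_two hF h0.2]
      simp only [one_ne_zero, if_false]
      rw [h2 r r.2 s s.2 (fun e => e1 (Fin.ext e)) (fun e => e2 (Fin.ext e)), oddTerms,
        ChevalleyDatum.commWord]
      congr 1
      have hl : ∀ c ∈ D.commTerms r s, c.1 < D.nroots := fun c hc => (commTerms_spec hc).2.2.1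
      generalize D.commTerms r s = l at hl
      induction l with
      | nil => rfl
      | cons c l ih =>
        have h2 : (2 : F) = 0 := by rw [← h11]; norm_num
        have e : (c.2.1 : F) = (c.2.1 % 2 : ℤ) := by rw [Int.emod_def]; simp [h2]
        rw [List.map_cons, wordG_cons, ← ih fun c hc => hl c (List.mem_cons_of_mem _ hc),
          xN_of_lt _ (hl c List.mem_cons_self), e]
        rcases Int.emod_two_eq_zero_or_one c.2.1 with h | h <;> simp [h]
  obtain ⟨σ, hσ⟩ := exists_hom_of_tor (stFam_of_rel hy fun r t u ht hu => by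
    rw [eq_one_of_card_two hF ht, eq_one_of_card_two hF hu, hy.hG_one, mul_one, mul_one, hy.hG_one])
    fun c _ => by
      rw [show c = 1 from funext fun i => Units.ext (eq_one_of_card_two hF (c i).ne_zero), map_one]
  exact ⟨σ, fun r => by simpa using hσ r 1⟩

theorem injective_two (σ : D.group F →* G) (r : Rt D) (h : σ (xg r 1) ≠ σ (xg (neg r) 1)) :
    Function.Injective σ := by
  have hc := cartanCox_coxM D
  choose ns hns using fun i => (gam F hc).exists_rep ((rs hc).cs.simple i)
  rw [← MonoidHom.ker_eq_bot_iff]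
  refine (normal_eq_bot_or_sup (P := (gam F hc).toBN ns hns)
    ((gam F hc).irreducible ns hns (irreducible hc)) (normalCore_Bor hc) σ.ker).resolve_right fun e => h ?_
  have hH : (gam F hc).H = ⊥ := by
    rw [gam_H, eq_bot_iff]
    rintro _ ⟨c, rfl⟩
    rw [show c = 1 from funext fun i => Units.ext (eq_one_of_card_two hF (c i).ne_zero), map_one]
    exact Subgroup.one_mem _
  have hB : IsPGroup 2 (gam F hc).Bor := by
    rw [RGD0.Bor, hH, sup_bot_eq]
    exact IsPGroup.of_card ((gam F hc).card_U fun i => (card_X _).trans (by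
      rw [Nat.card_eq_fintype_card, hF]))
  obtain ⟨k, hk⟩ := hB.of_surjective _ (surj_of_sup e) (QuotientGroup.mk (xg r 1 * xg (neg r) 1))
  have hm : (-1 : F) = 1 := eq_one_of_card_two hF (by simp)
  have hx := stFam_xg (D := D) (F := F)
  have a1 : ∀ s : Rt D, xg s (1 : F) * xg s 1 = 1 := fun s => by
    rw [← hx.add]
    nth_rw 1 [← hm]
    rw [neg_add_cancel, hx.toStRel.zero]
  have h3 : (xg r 1 * xg (neg r) (1 : F)) ^ 3 = 1 := by
    have e1 := hx.nG_neg r (t := 1) one_ne_zero
    simp only [nG, inv_one, hm, neg_neg] at e1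
    calc _ = (xg r 1 * xg (neg r) 1 * xg r 1) * (xg (neg r) 1 * xg r 1 * xg (neg r) (1 : F)) := by
          simp only [pow_succ, pow_zero, one_mul, mul_assoc]
      _ = _ := by
          rw [e1, mul_assoc, ← mul_assoc (xg r 1), ← mul_assoc (xg r 1), a1, one_mul, mul_assoc,
            ← mul_assoc (xg (neg r) 1), a1, one_mul, a1]
  have h4 : (QuotientGroup.mk (xg r 1 * xg (neg r) 1) : D.group F ⧸ σ.ker) ^ 3 = 1 := by
    rw [← QuotientGroup.mk_pow, h3, QuotientGroup.mk_one]
  have h5 := pow_gcd_eq_one.2 ⟨hk, h4⟩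
  rw [Nat.Coprime.gcd_eq_one (Nat.Coprime.pow_left k (by norm_num)), pow_one, QuotientGroup.eq_one_iff,
    MonoidHom.mem_ker, map_mul] at h5
  rw [eq_inv_of_mul_eq_one_left h5, ← map_inv, inv_eq_of_mul_eq_one_left (a1 _)]

end CA.Chev
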